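/-
Steinberg's relation (R3) and the torus of a system.
-/
import Cfsg.Agent.Lib.St.Pres
import Cfsg.Agent.Lib.Chev.HCard

set_option autoImplicit false

namespace Cfsg.Agent.Lib.St

open Cfsg Cfsg.Lie Cfsg.Agent.Lib.Chev

variable {K : Type*} [Field K] {D : ChevalleyDatum} {T : Tbl} {hG : T.Good3 D} {Γ : Type*} [Group Γ]
  {wit : ℕ → ℕ × ℕ}

namespace Sys

variable (S : Sys hG K Γ)

/-- The relation (R3). -/
def R3 : Prop := ∀ {r : ℕ}, r < D.nroots → ∀ {a b : K}, a ≠ 0 → b ≠ 0 → S.hb r a * S.hb r b = S.hb r (a * b)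

lemma hb_one {r : ℕ} (hr : r < D.nroots) : S.hb r 1 = 1 := by
  unfold hb
  rw [← S.nb_inv hr]
  simp

lemma nb_mul_nb {r : ℕ} (hr : r < D.nroots) (x y : K) : S.nb r x * S.nb r (-y) = S.hb r x * (S.hb r y)⁻¹ := by
  rw [S.nb_eq_hb_mul hr x, ← S.nb_inv hr y, S.nb_eq_hb_mul hr y]
  group

variable {S}

lemma hb_conj_hb (hW : StHyp T wit) {r s : ℕ} (hr : r < D.nroots) (hs : s < D.nroots) {t v : K} (ht : t ≠ 0) (hv : v ≠ 0) :
    S.hb r t * S.hb s v * (S.hb r t)⁻¹ = S.hb s (t ^ D.pairing r s * v) * (S.hb s (t ^ D.pairing r s))⁻¹ := by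
  have e : S.hb r t * S.hb s v * (S.hb r t)⁻¹ =
      (S.hb r t * S.nb s v * (S.hb r t)⁻¹) * (S.hb r t * S.nb s (-1) * (S.hb r t)⁻¹) := by
    show S.hb r t * (S.nb s v * S.nb s (-1)) * (S.hb r t)⁻¹ = _
    group
  rw [e, S.hb_conj_nb hW hr hs ht hv, S.hb_conj_nb hW hr hs ht (neg_ne_zero.2 one_ne_zero), mul_neg, mul_one,
    S.nb_mul_nb hs]

lemma hb_comm (h3 : S.R3) (hW : StHyp T wit) {r s : ℕ} (hr : r < D.nroots) (hs : s < D.nroots) {t v : K} (ht : t ≠ 0)
    (hv : v ≠ 0) : Commute (S.hb r t) (S.hb s v) := by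
  have h1 := hb_conj_hb (S := S) hW hr hs ht hv
  have hc : t ^ D.pairing r s ≠ 0 := zpow_ne_zero _ ht
  rw [← h3 hs hc hv, h3 hs hc hv, mul_comm _ v, ← h3 hs hv hc, mul_inv_cancel_right] at h1
  show S.hb r t * S.hb s v = S.hb s v * S.hb r t
  rw [mul_inv_eq_iff_eq_mul] at h1
  exact h1

/-- The one-parameter subgroups of the torus. -/
noncomputable def hbHom (h3 : S.R3) (i : Fin D.rank) : Kˣ →* Γ where
  toFun a := S.hb (D.simple i.val) a
  map_one' := S.hb_one (hG.simple_lt i.2)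
  map_mul' a b := by
    rw [Units.val_mul]
    exact (h3 (hG.simple_lt i.2) a.ne_zero b.ne_zero).symm

/-- The map to the torus. -/
noncomputable def torus (h3 : S.R3) (hW : StHyp T wit) : (Fin D.rank → Kˣ) →* Γ :=
  MonoidHom.noncommPiCoprod (hbHom h3) (fun i j _ a b =>
    hb_comm h3 hW (hG.simple_lt i.2) (hG.simple_lt j.2) a.ne_zero b.ne_zero)

lemma torus_single (h3 : S.R3) (hW : StHyp T wit) (i : Fin D.rank) (a : Kˣ) :
    torus h3 hW (Pi.mulSingle i a) = S.hb (D.simple i.val) a :=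
  MonoidHom.noncommPiCoprod_mulSingle _ _ _

lemma Hb_le_range (h3 : S.R3) (hW : StHyp T wit) : S.Hb ≤ (torus h3 hW).range := by
  unfold Hb
  refine (Subgroup.closure_le _).2 ?_
  rintro _ ⟨i, t, hi, ht, rfl⟩
  exact ⟨Pi.mulSingle ⟨i, hi⟩ (Units.mk0 t ht), torus_single h3 hW _ _⟩

/-- The character of the torus at a root. -/
noncomputable def torChar (s : ℕ) : (Fin D.rank → Kˣ) →* Kˣ :=
  ∏ i : Fin D.rank, (zpowGroupHom (D.pairing (D.simple i.val) s)).comp (Pi.evalMonoidHom _ i)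

lemma torChar_apply (s : ℕ) (c : Fin D.rank → Kˣ) :
    torChar (K := K) (D := D) s c = ∏ i : Fin D.rank, c i ^ D.pairing (D.simple i.val) s := by
  simp [torChar, MonoidHom.finset_prod_apply]

lemma torChar_single (s : ℕ) (i : Fin D.rank) (a : Kˣ) :
    torChar (K := K) (D := D) s (Pi.mulSingle i a) = a ^ D.pairing (D.simple i.val) s := by
  rw [torChar_apply, Finset.prod_eq_single i]
  · simp
  · intro j _ hj
    simp [Pi.mulSingle_eq_of_ne hj]
  · intro hi
    exact absurd (Finset.mem_univ i) hi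

/-- The action of the torus on the letters. -/
lemma torus_conj_y (h3 : S.R3) (hW : StHyp T wit) {s : ℕ} (hs : s < D.nroots) (c : Fin D.rank → Kˣ) (u : K) :
    torus h3 hW c * S.y s u * (torus h3 hW c)⁻¹ = S.y s ((torChar s c : Kˣ) * u) := by
  classical
  have key : ∀ A : Finset (Fin D.rank), ∀ u : K,
      torus h3 hW (∏ i ∈ A, Pi.mulSingle i (c i)) * S.y s u * (torus h3 hW (∏ i ∈ A, Pi.mulSingle i (c i)))⁻¹ =
        S.y s ((torChar s (∏ i ∈ A, Pi.mulSingle i (c i)) : Kˣ) * u) := by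
    intro A
    induction A using Finset.induction_on with
    | empty =>
      intro u
      simp
    | insert a A ha ih =>
      intro u
      rw [Finset.prod_insert ha, map_mul, map_mul, torus_single]
      have e : ∀ p q y : Γ, (p * q) * y * (p * q)⁻¹ = p * (q * y * q⁻¹) * p⁻¹ := fun p q y => by group
      rw [e, ih, S.hb_conj_y hW (hG.simple_lt a.2) hs (c a).ne_zero, torChar_single, Units.val_mul, mul_assoc,
        Units.val_zpow_eq_zpow_val]
  have e := key Finset.univ u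
  rw [Finset.univ_prod_mulSingle] at e
  exact e

/-- The characters at the simple roots. -/
lemma torChar_simple (hG : T.Good3 D) {j : ℕ} (hj : j < D.rank) (c : Fin D.rank → Kˣ) :
    torChar (D.simple j) c = ∏ i : Fin D.rank, c i ^ T.cart i.val (T.simple j) := by
  rw [torChar_apply]
  apply Finset.prod_congr rfl
  intro i _
  rw [hG.correct.simple_eq j hj, hG.correct.cart_eq i.val _ i.2 (hG.simple_lt hj), hG.pairing_simple i.2 (hG.simple_lt hj)]

/-- Elements of the torus in the kernel. -/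
lemma actZ_of_θ (h3 : S.R3) (hW : StHyp T wit) {c : Fin D.rank → Kˣ} (h : S.θ (torus h3 hW c) = 1) :
    actZ (fun j i : Fin D.rank => T.cart i.val (T.simple j.val)) c = 1 := by
  funext j
  have hs := hG.simple_lt j.2
  have h1 := torus_conj_y (S := S) h3 hW hs c 1
  have h2 := congrArg S.θ h1
  rw [map_mul, map_mul, map_inv, h, S.θ_y hs, S.θ_y hs] at h2
  simp only [one_mul, inv_one, mul_one] at h2
  have h4 : (1 : K) = (torChar (D.simple j.val) c : Kˣ) := by
    have := congrArg (fun g : GL D.Idx K => (g : Matrix D.Idx D.Idx K)) h2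
    simp only [Tbl.Good.xU_coe] at this
    exact hG.x_inj hs this
  simp only [actZ, Pi.one_apply]
  rw [← torChar_simple hG j.2 c]
  exact (Units.ext h4).symm

/-- The kernel lies in the image of the kernel of the Cartan matrix. -/
lemma ker_eq_torus (h3 : S.R3) (hW : StHyp T wit) {z : Γ} (hz : S.θ z = 1) :
    ∃ c : Fin D.rank → Kˣ, z = torus h3 hW c ∧ actZ (fun j i : Fin D.rank => T.cart i.val (T.simple j.val)) c = 1 := by
  obtain ⟨c, rfl⟩ := Hb_le_range h3 hW (S.ker_le_Hb hW hz)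
  exact ⟨c, rfl, actZ_of_θ h3 hW hz⟩

end Sys

/-- An integer matrix with trivial Smith form acts injectively. -/
theorem smith_one_inj {M : Type*} [CommGroup M] {ι : Type*} [Fintype ι] [DecidableEq ι]
    {C P Q Q' : ι → ι → ℤ}
    (hQ : ∀ i j, ∑ k, Q i k * Q' k j = if i = j then 1 else 0)
    (hS : ∀ i j, ∑ k, (∑ a, P i a * C a k) * Q k j = if i = j then 1 else 0) {c : ι → M} (h : actZ C c = 1) : c = 1 := by
  have eQQ' : ∀ c : ι → M, actZ Q (actZ Q' c) = c := fun c => by
    rw [actZ_comp (E := fun i j => if i = j then 1 else 0) hQ, actZ_delta (fun _ _ => rfl)]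
  have eS : ∀ c : ι → M, actZ P (actZ C (actZ Q c)) = c := by
    intro c
    have h1 : actZ P (actZ C (actZ Q c)) = actZ (fun i k => ∑ a, P i a * C a k) (actZ Q c) :=
      actZ_comp (fun _ _ => rfl) _
    rw [h1, actZ_comp (E := fun i j => if i = j then 1 else 0) hS, actZ_delta (fun _ _ => rfl)]
  have h1 := eS (actZ Q' c)
  rw [eQQ', h] at h1
  have h2 : actZ P (1 : ι → M) = 1 := by
    funext i
    simp [actZ]
  rw [h2] at h1
  rw [← eQQ' c, ← h1]
  funext i
  simp [actZ]

lemma canSys_hb (hG : T.Good3 D) (R : Set (FreeGroup (Fin D.nroots × K))) (hAB : D.steinbergRelsAB K ⊆ R)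
    (hR : ∀ g ∈ R, FreeGroup.lift (genF hG K) g = 1) (r : ℕ) (t : K) :
    (canSys hG R hAB hR).hb r t = PresentedGroup.mk R (D.stH r t) :=
  presSys_hb hG R hAB _ (fun hr t => by rw [presθ_mk, lift_stX hG hr]) r t

/-- The relation (R3) in Steinberg's group. -/
theorem canSys_R3 (hG : T.Good3 D) (hAB : D.steinbergRelsAB K ⊆ D.steinbergRels K) :
    (canSys (K := K) hG (D.steinbergRels K) hAB (lift_rels hG)).R3 := by
  intro r hr a b ha hb
  have h : PresentedGroup.mk (D.steinbergRels K) (D.stH r a * D.stH r b * (D.stH r (a * b))⁻¹) = 1 :=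
    PresentedGroup.one_of_mem (Or.inr ⟨r, a, b, hr, ha, hb, rfl⟩)
  rw [map_mul, map_inv, mul_inv_eq_one, map_mul] at h
  have e : ∀ t : K, (canSys (K := K) hG (D.steinbergRels K) hAB (lift_rels hG)).hb r t =
      PresentedGroup.mk (D.steinbergRels K) (D.stH r t) := fun t => canSys_hb hG _ hAB _ r t
  rw [e, e, e, h]

namespace Tbl

/-- The kernel for a trivial Smith form. -/
theorem actZ_eq_one {M : Type*} [CommGroup M] (hG : T.Good3 D) {P P' Q Q' : ℕ → ℕ → ℤ}
    (h : T.chkSmith P P' Q Q' (fun _ => 1) = true) {c : Fin D.rank → M}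
    (hc : actZ (fun j i : Fin D.rank => T.cart i.val (T.simple j.val)) c = 1) : c = 1 := by
  have hl := hG.correct.l_eq
  have hchk : ∀ i j : Fin D.rank, _ := fun i j =>
    allBelow_spec (allBelow_spec h i.val (by rw [hl]; exact i.2)) j.val (by rw [hl]; exact j.2)
  simp only [Bool.and_eq_true] at hchk
  have hconv : ∀ (l : ℕ) (f : ℕ → ℤ), ∑ k : Fin l, f k.val = sumF l f := sum_fin_eq_sumF
  refine smith_one_inj (C := fun j i => T.cart i.val (T.simple j.val))
    (P := fun i j => P i.val j.val)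
    (Q := fun i j => Q i.val j.val) (Q' := fun i j => Q' i.val j.val) ?_ ?_ hc
  · intro i j
    rw [← deltaZ_fin, hconv D.rank (fun k => Q i.val k * Q' k j.val)]
    have e := intEq_spec (hchk i j).2.2.1
    rw [hl] at e
    exact e
  · intro i j
    have h1 := intEq_spec (hchk i j).2.2.2.2
    rw [hl] at h1
    rw [← deltaZ_fin]
    have h2 : deltaZ i.val j.val = deltaZ i.val j.val * ((1 : ℕ) : ℤ) := by simp
    rw [h2, ← h1, ← hconv D.rank]
    apply Finset.sum_congr rfl
    intro k _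
    congr 1
    exact hconv D.rank (fun a => P i.val a * T.cart k.val (T.simple a))

end Tbl

end Cfsg.Agent.Lib.St
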