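/-
Over a finite field the relation (R3) follows from (R1) and (R2).
-/
import Cfsg.Agent.Lib.St.R3
import Cfsg.Agent.Lib.Chev.Rank1All

set_option autoImplicit false

namespace Cfsg.Agent.Lib.St

open Cfsg Cfsg.Lie Cfsg.Agent.Lib.Chev

variable {K : Type*} [Field K] {D : ChevalleyDatum} {T : Tbl} {hG : T.Good3 D} {Γ : Type*} [Group Γ]
  {wit : ℕ → ℕ × ℕ}

namespace Sys

variable (S : Sys hG K Γ) (hW : StHyp T wit) (hε : T.chkRank1 = true)

include hW hε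

/-- `n̄_r(t)` on `x̄_r(u)`. -/
lemma nb_conj_self {r : ℕ} (hr : r < D.nroots) {t : K} (ht : t ≠ 0) (u : K) :
    S.nb r t * S.y r u * (S.nb r t)⁻¹ = S.y (D.neg r) (-(t⁻¹ * t⁻¹ * u)) := by
  obtain ⟨l, hl, e⟩ := S.nb_eq_Nw hW hr ht
  have hc : -(t⁻¹ * t⁻¹) ≠ 0 := neg_ne_zero.2 (mul_ne_zero (inv_ne_zero ht) (inv_ne_zero ht))
  have h := S.transfer hW hl hr (hG.neg_lt hr) hc (fun u => by
    rw [← e, S.θ_nb hr, hG.nR_conj_x hε r (hG.lt_n hr) hr t u ht, neg_mul]) u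
  rw [← e, neg_mul] at h
  exact h

/-- `n̄_r(t)` on `x̄_{-r}(u)`. -/
lemma nb_conj_neg {r : ℕ} (hr : r < D.nroots) {t : K} (ht : t ≠ 0) (u : K) :
    S.nb r t * S.y (D.neg r) u * (S.nb r t)⁻¹ = S.y r (-(t * t * u)) := by
  have h := S.nb_conj_self hW hε hr (neg_ne_zero.2 ht) (-(t * t * u))
  rw [← S.nb_inv hr, inv_inv] at h
  have e : -((-t)⁻¹ * (-t)⁻¹ * -(t * t * u)) = u := by
    field_simp
  rw [e] at h
  rw [← h]
  group

/-- `h̄_r(a)` on `x̄_r(u)`. -/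
lemma hb_conj_self {r : ℕ} (hr : r < D.nroots) {a : K} (ha : a ≠ 0) (u : K) :
    S.hb r a * S.y r u * (S.hb r a)⁻¹ = S.y r (a * a * u) := by
  unfold hb
  have e : ∀ p q y : Γ, (p * q) * y * (p * q)⁻¹ = p * (q * y * q⁻¹) * p⁻¹ := fun p q y => by group
  rw [e, S.nb_conj_self hW hε hr (neg_ne_zero.2 one_ne_zero), S.nb_conj_neg hW hε hr ha]
  congr 1
  field_simp

/-- `h̄_r(a)` on `x̄_{-r}(u)`. -/
lemma hb_conj_neg {r : ℕ} (hr : r < D.nroots) {a : K} (ha : a ≠ 0) (u : K) :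
    S.hb r a * S.y (D.neg r) u * (S.hb r a)⁻¹ = S.y (D.neg r) (a⁻¹ * a⁻¹ * u) := by
  unfold hb
  have e : ∀ p q y : Γ, (p * q) * y * (p * q)⁻¹ = p * (q * y * q⁻¹) * p⁻¹ := fun p q y => by group
  rw [e, S.nb_conj_neg hW hε hr (neg_ne_zero.2 one_ne_zero), S.nb_conj_self hW hε hr ha]
  congr 1
  ring

/-- `h̄_r(a)` on `n̄_r(b)`. -/
lemma hb_conj_nb_self {r : ℕ} (hr : r < D.nroots) {a b : K} (ha : a ≠ 0) (hb' : b ≠ 0) :
    S.hb r a * S.nb r b * (S.hb r a)⁻¹ = S.nb r (a * a * b) := by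
  unfold nb
  set W := S.hb r a
  have e : W * (S.y r b * S.y (D.neg r) (-b⁻¹) * S.y r b) * W⁻¹ =
      (W * S.y r b * W⁻¹) * (W * S.y (D.neg r) (-b⁻¹) * W⁻¹) * (W * S.y r b * W⁻¹) := by group
  rw [e, S.hb_conj_self hW hε hr ha, S.hb_conj_neg hW hε hr ha]
  congr 2
  field_simp

/-- `h̄_r(a)` on `h̄_r(b)`. -/
lemma hb_conj_hb_self {r : ℕ} (hr : r < D.nroots) {a b : K} (ha : a ≠ 0) (hb' : b ≠ 0) :
    S.hb r a * S.hb r b * (S.hb r a)⁻¹ = S.hb r (a * a * b) * (S.hb r (a * a))⁻¹ := by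
  have e : S.hb r a * S.hb r b * (S.hb r a)⁻¹ =
      (S.hb r a * S.nb r b * (S.hb r a)⁻¹) * (S.hb r a * S.nb r (-1) * (S.hb r a)⁻¹) := by
    show S.hb r a * (S.nb r b * S.nb r (-1)) * (S.hb r a)⁻¹ = _
    group
  rw [e, S.hb_conj_nb_self hW hε hr ha hb', S.hb_conj_nb_self hW hε hr ha (neg_ne_zero.2 one_ne_zero), mul_neg, mul_one,
    S.nb_mul_nb hr]

/-- The fundamental identity in rank one. -/
lemma nb_identity {r : ℕ} (hr : r < D.nroots) {e f : K} (he : e ≠ 0) (hf : f ≠ 0) (hs : e + f ≠ 0) :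
    S.nb r (-(e * f / (e + f))) = S.nb r (e * e / (e + f)) * S.nb r (-e) * S.nb r (-f) := by
  have a1 : e + -(e * e / (e + f)) = e * f / (e + f) := by
    field_simp
    ring
  have a2 : -(f * f / (e + f)) + f = e * f / (e + f) := by
    field_simp
    ring
  set s := e + f with hsdef
  set g := e * f / s with hg
  have hg0 : g ≠ 0 := div_ne_zero (mul_ne_zero he hf) hs
  -- the expression of `x̄_{-r}` by `n̄_r` and `x̄_r`
  have hy : ∀ c : K, c ≠ 0 → S.y (D.neg r) c = S.y r c⁻¹ * S.nb r (-c⁻¹) * S.y r c⁻¹ := by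
    intro c hc
    unfold nb
    have e1 : -(-c⁻¹)⁻¹ = c := by
      field_simp
    rw [e1]
    have e2 : S.y r (-c⁻¹) = (S.y r c⁻¹)⁻¹ := by
      rw [S.y_inv hr]
    rw [e2]
    group
  -- additivity of `x̄_{-r}`
  have hadd : S.y (D.neg r) e⁻¹ * S.y (D.neg r) f⁻¹ = S.y (D.neg r) (g⁻¹) := by
    rw [S.add (hG.neg_lt hr)]
    congr 1
    rw [hg]
    field_simp
    rw [hsdef, add_comm]
  rw [hy e⁻¹ (inv_ne_zero he), hy f⁻¹ (inv_ne_zero hf), hy g⁻¹ (inv_ne_zero hg0), inv_inv, inv_inv, inv_inv] at hadd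
  -- the pieces
  have h1 : S.y r e * S.y r f = S.y r s := S.add hr _ _
  set c := -(e⁻¹ * e⁻¹ * s) with hc
  have h2 : S.nb r (-e) * S.y r s = S.y (D.neg r) c * S.nb r (-e) := by
    have := S.nb_conj_self hW hε hr (neg_ne_zero.2 he) s
    rw [mul_inv_eq_iff_eq_mul] at this
    rw [this, hc]
    congr 3
    field_simp
  have hc0 : c ≠ 0 := neg_ne_zero.2 (mul_ne_zero (mul_ne_zero (inv_ne_zero he) (inv_ne_zero he)) hs)
  have hcinv : c⁻¹ = -(e * e / s) := by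
    rw [hc]
    field_simp
  have hgc : e + c⁻¹ = g := by
    rw [hcinv, hg, a1]
  have h3 : S.y r (-(e * e / s)) * S.nb r (-e) = S.nb r (-e) * S.y (D.neg r) s⁻¹ := by
    have h := S.nb_conj_self hW hε hr he (-(e * e / s))
    have e1 : -(e⁻¹ * e⁻¹ * -(e * e / s)) = s⁻¹ := by
      field_simp
    rw [e1] at h
    rw [← h, S.nb_inv hr]
    have : S.nb r (-e) = (S.nb r e)⁻¹ := (S.nb_inv hr e).symm
    rw [this]
    group
  have h4 : S.y (D.neg r) s⁻¹ * S.nb r (-f) = S.nb r (-f) * S.y r (-(f * f / s)) := by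
    have h := S.nb_conj_neg hW hε hr hf s⁻¹
    have e1 : -(f * f * s⁻¹) = -(f * f / s) := by
      rw [div_eq_mul_inv]
    rw [e1] at h
    rw [← h]
    have : S.nb r (-f) = (S.nb r f)⁻¹ := (S.nb_inv hr f).symm
    rw [this]
    group
  have h5 : S.y r (-(f * f / s)) * S.y r f = S.y r g := by
    rw [S.add hr, a2]
  have key : S.y r e * S.nb r (-e) * S.y r e * (S.y r f * S.nb r (-f) * S.y r f) =
      S.y r g * (S.nb r (e * e / s) * S.nb r (-e) * S.nb r (-f)) * S.y r g := by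
    calc S.y r e * S.nb r (-e) * S.y r e * (S.y r f * S.nb r (-f) * S.y r f)
        = S.y r e * (S.nb r (-e) * (S.y r e * S.y r f)) * S.nb r (-f) * S.y r f := by group
      _ = S.y r e * (S.y (D.neg r) c * S.nb r (-e)) * S.nb r (-f) * S.y r f := by rw [h1, h2]
      _ = S.y r e * (S.y r c⁻¹ * S.nb r (-c⁻¹) * S.y r c⁻¹ * S.nb r (-e)) * S.nb r (-f) * S.y r f := by rw [hy c hc0]
      _ = (S.y r e * S.y r c⁻¹) * S.nb r (-c⁻¹) * (S.y r c⁻¹ * S.nb r (-e)) * S.nb r (-f) * S.y r f := by group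
      _ = S.y r g * S.nb r (e * e / s) * (S.nb r (-e) * S.y (D.neg r) s⁻¹) * S.nb r (-f) * S.y r f := by
          rw [S.add hr, hgc, hcinv, h3, neg_neg]
      _ = S.y r g * S.nb r (e * e / s) * S.nb r (-e) * (S.y (D.neg r) s⁻¹ * S.nb r (-f)) * S.y r f := by group
      _ = S.y r g * S.nb r (e * e / s) * S.nb r (-e) * (S.nb r (-f) * S.y r (-(f * f / s))) * S.y r f := by rw [h4]
      _ = S.y r g * (S.nb r (e * e / s) * S.nb r (-e) * S.nb r (-f)) * (S.y r (-(f * f / s)) * S.y r f) := by group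
      _ = _ := by rw [h5]
  rw [hadd] at key
  exact mul_left_cancel (mul_right_cancel key)

/-- The fundamental identity for `h̄_r`. -/
lemma hb_identity {r : ℕ} (hr : r < D.nroots) {e f : K} (he : e ≠ 0) (hf : f ≠ 0) (hs : e + f ≠ 0) :
    S.hb r (-(e * f / (e + f))) * (S.hb r (-f))⁻¹ = S.hb r (e * e / (e + f)) * (S.hb r e)⁻¹ := by
  have h := S.nb_identity hW hε hr he hf hs
  rw [← S.nb_mul_nb hr, ← S.nb_mul_nb hr, neg_neg]
  rw [h, mul_assoc (S.nb r (e * e / (e + f)) * S.nb r (-e)), ← S.nb_inv hr f, inv_mul_cancel, mul_one]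

omit hε in
/-- The failure of multiplicativity lies in the centre. -/
lemma hb_defect {r : ℕ} (hr : r < D.nroots) {a b : K} (ha : a ≠ 0) (hb' : b ≠ 0) :
    S.hb r a * S.hb r b * (S.hb r (a * b))⁻¹ ∈ Subgroup.center Γ := by
  apply S.ker_le_center hW
  rw [MonoidHom.mem_ker, map_mul, map_mul, map_inv, S.θ_hb hr ha, S.θ_hb hr hb', S.θ_hb hr (mul_ne_zero ha hb'),
    mul_inv_eq_one]
  apply Units.ext
  rw [Units.val_mul, hG.hU_coe, hG.hU_coe, hG.hU_coe]
  exact hG.hMat_mul hr ha hb'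

omit hε in
/-- Over a finite field the `h̄_r(a)` commute. -/
lemma hb_commute [Finite K] {r : ℕ} (hr : r < D.nroots) {a b : K} (ha : a ≠ 0) (hb' : b ≠ 0) :
    Commute (S.hb r a) (S.hb r b) := by
  obtain ⟨g, hg⟩ := IsCyclic.exists_generator (α := Kˣ)
  have hg0 : (g : K) ≠ 0 := g.ne_zero
  have key : ∀ n : ℕ, ∃ z ∈ Subgroup.center Γ, S.hb r ((g : K) ^ n) = S.hb r g ^ n * z := by
    intro n
    induction n with
    | zero => exact ⟨1, Subgroup.one_mem _, by simp [S.hb_one hr]⟩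
    | succ n ih =>
      obtain ⟨z, hz, e⟩ := ih
      have hd := S.hb_defect hW hr (pow_ne_zero n hg0) hg0
      set w := S.hb r ((g : K) ^ n) * S.hb r g * (S.hb r ((g : K) ^ n * g))⁻¹ with hw
      refine ⟨z * w⁻¹, Subgroup.mul_mem _ hz (Subgroup.inv_mem _ hd), ?_⟩
      have e1 : S.hb r ((g : K) ^ (n + 1)) = w⁻¹ * (S.hb r ((g : K) ^ n) * S.hb r g) := by
        rw [hw, pow_succ]
        group
      rw [e1, e, pow_succ]
      have hzc := Subgroup.mem_center_iff.1 hz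
      have hwc := Subgroup.mem_center_iff.1 (Subgroup.inv_mem _ hd)
      have e2 : S.hb r g ^ n * z * S.hb r g = S.hb r g ^ n * S.hb r g * z := by
        rw [mul_assoc, ← hzc (S.hb r g), mul_assoc]
      rw [e2, ← hwc, mul_assoc]
  have hgen : ∀ x : K, x ≠ 0 → ∃ n : ℕ, (g : K) ^ n = x := by
    intro x hx
    have h1 := hg (Units.mk0 x hx)
    have h2 := mem_powers_iff_mem_zpowers.2 h1
    obtain ⟨n, hn⟩ := (Submonoid.mem_powers_iff _ _).1 h2
    refine ⟨n, ?_⟩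
    have := congrArg Units.val hn
    simpa using this
  obtain ⟨n, rfl⟩ := hgen a ha
  obtain ⟨m, rfl⟩ := hgen b hb'
  obtain ⟨z, hz, e⟩ := key n
  obtain ⟨w, hw, e'⟩ := key m
  rw [e, e']
  have hzc := Subgroup.mem_center_iff.1 hz
  have hwc := Subgroup.mem_center_iff.1 hw
  show S.hb r g ^ n * z * (S.hb r g ^ m * w) = S.hb r g ^ m * w * (S.hb r g ^ n * z)
  have hcomm : S.hb r g ^ n * S.hb r g ^ m = S.hb r g ^ m * S.hb r g ^ n := (Commute.refl _).pow_pow n m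
  have hre : ∀ p q u v : Γ, (∀ x, x * u = u * x) → p * u * (q * v) = p * q * (u * v) := by
    intro p q u v hu
    rw [mul_assoc p u, ← mul_assoc u q, ← hu q, mul_assoc q u v, mul_assoc p q]
  rw [hre _ _ _ _ hzc, hre _ _ _ _ hwc, hcomm, hzc w]

/-- Multiplication by a square. -/
lemma hb_square_mul [Finite K] {r : ℕ} (hr : r < D.nroots) {a b : K} (ha : a ≠ 0) (hb' : b ≠ 0) :
    S.hb r (a * a * b) = S.hb r (a * a) * S.hb r b := by
  have h := S.hb_conj_hb_self hW hε hr ha hb'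
  have hc := S.hb_commute hW hr ha hb'
  have hc2 := S.hb_commute hW hr (mul_ne_zero ha ha) hb'
  rw [hc.eq, mul_inv_cancel_right] at h
  rw [eq_mul_inv_iff_mul_eq] at h
  rw [← h, hc2.eq]

/-- The relation (R3) over a finite field. -/
theorem R3_of_finite [Finite K] : S.R3 := by
  classical
  haveI := Fintype.ofFinite K
  intro r hr a b ha hb'
  have hcomm : ∀ {x y : K}, x ≠ 0 → y ≠ 0 → S.hb r x * S.hb r y = S.hb r y * S.hb r x := fun hx hy =>
    (S.hb_commute hW hr hx hy).eq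
  by_cases hsq : ∀ x : K, IsSquare x
  · obtain ⟨c, rfl⟩ := hsq a
    have hc : c ≠ 0 := fun h => ha (by rw [h, mul_zero])
    exact (S.hb_square_mul hW hε hr hc hb').symm
  -- a nonsquare
  push_neg at hsq
  obtain ⟨B, hB⟩ := hsq
  have hB0 : B ≠ 0 := fun h => hB (by rw [h]; exact IsSquare.zero)
  have hchar : ringChar K ≠ 2 := fun h => hB (FiniteField.isSquare_of_char_two h B)
  have hodd : Fintype.card K % 2 = 1 := FiniteField.odd_card_of_char_ne_two hchar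
  obtain ⟨x, y, hxy⟩ := FiniteField.exists_root_sum_quadratic (f := Polynomial.X ^ 2 - Polynomial.C B)
    (g := Polynomial.X ^ 2) (by compute_degree!) (by compute_degree!) hodd
  simp only [Polynomial.eval_sub, Polynomial.eval_pow, Polynomial.eval_X, Polynomial.eval_C] at hxy
  have hBe : B = x * x + y * y := by
    linear_combination -hxy
  have hx0 : x ≠ 0 := fun h => hB ⟨y, by rw [hBe, h]; ring⟩
  have hy0 : y ≠ 0 := fun h => hB ⟨x, by rw [hBe, h]; ring⟩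
  have hC0 : y * y ≠ 0 := mul_ne_zero hy0 hy0
  have hA : B + -(y * y) = x * x := by
    rw [hBe]
    ring
  have hA0 : B + -(y * y) ≠ 0 := by
    rw [hA]
    exact mul_ne_zero hx0 hx0
  have hid := S.hb_identity hW hε hr hB0 (neg_ne_zero.2 hC0) hA0
  have hxi : x⁻¹ ≠ 0 := inv_ne_zero hx0
  have hxi2 : x⁻¹ * x⁻¹ ≠ 0 := mul_ne_zero hxi hxi
  have e1 : -(B * -(y * y) / (B + -(y * y))) = (y * x⁻¹) * (y * x⁻¹) * B := by
    rw [hA]
    field_simp
  have e2 : B * B / (B + -(y * y)) = x⁻¹ * x⁻¹ * (B * B) := by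
    rw [hA]
    field_simp
  rw [e1, e2, neg_neg, S.hb_square_mul hW hε hr (mul_ne_zero hy0 hxi) hB0,
    S.hb_square_mul hW hε hr hxi (mul_ne_zero hB0 hB0)] at hid
  have e3 : y * x⁻¹ * (y * x⁻¹) = y * y * (x⁻¹ * x⁻¹) := by ring
  rw [e3, S.hb_square_mul hW hε hr hy0 hxi2] at hid
  have hBB : S.hb r B * S.hb r B = S.hb r (B * B) := by
    have c1 := hcomm hC0 hxi2
    have c2 := hcomm hC0 hB0
    have c3 : S.hb r (y * y) * S.hb r (x⁻¹ * x⁻¹) * S.hb r B * (S.hb r (y * y))⁻¹ = S.hb r (x⁻¹ * x⁻¹) * S.hb r B := by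
      rw [c1, mul_assoc (S.hb r (x⁻¹ * x⁻¹)), c2]
      group
    rw [c3, mul_assoc, mul_right_inj, eq_mul_inv_iff_mul_eq] at hid
    exact hid
  -- the cases
  have hsqmul : ∀ {c y : K}, c ≠ 0 → y ≠ 0 → S.hb r (c * c * y) = S.hb r (c * c) * S.hb r y := fun hc hy =>
    S.hb_square_mul hW hε hr hc hy
  have hform : ∀ x : K, x ≠ 0 → ¬ IsSquare x → ∃ c : K, c ≠ 0 ∧ x = c * c * B := by
    intro x hx hnx
    have h1 : IsSquare (x * B) := by
      rw [← quadraticChar_one_iff_isSquare (mul_ne_zero hx hB0), map_mul,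
        quadraticChar_neg_one_iff_not_isSquare.2 hnx, quadraticChar_neg_one_iff_not_isSquare.2 hB]
      norm_num
    obtain ⟨d, hd⟩ := h1
    have hd0 : d ≠ 0 := fun h => mul_ne_zero hx hB0 (by rw [hd, h, mul_zero])
    refine ⟨d * B⁻¹, mul_ne_zero hd0 (inv_ne_zero hB0), ?_⟩
    have : d * B⁻¹ * (d * B⁻¹) * B = (d * d) * B⁻¹ := by
      field_simp
    rw [this, ← hd]
    field_simp
  by_cases hsa : IsSquare a
  · obtain ⟨c, rfl⟩ := hsa
    have hc : c ≠ 0 := fun h => ha (by rw [h, mul_zero])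
    exact (hsqmul hc hb').symm
  by_cases hsb : IsSquare b
  · obtain ⟨c, rfl⟩ := hsb
    have hc : c ≠ 0 := fun h => hb' (by rw [h, mul_zero])
    rw [mul_comm a, hsqmul hc ha, hcomm ha hb']
  obtain ⟨c, hc, rfl⟩ := hform a ha hsa
  obtain ⟨d, hd, rfl⟩ := hform b hb' hsb
  have e4 : c * c * B * (d * d * B) = c * d * (c * d) * (B * B) := by ring
  have e5 : c * d * (c * d) = c * c * (d * d) := by ring
  rw [e4, hsqmul (mul_ne_zero hc hd) (mul_ne_zero hB0 hB0), e5, hsqmul hc (mul_ne_zero hd hd), hsqmul hc hB0,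
    hsqmul hd hB0, ← hBB]
  have c1 := hcomm hB0 (mul_ne_zero hd hd)
  calc S.hb r (c * c) * S.hb r B * (S.hb r (d * d) * S.hb r B)
      = S.hb r (c * c) * (S.hb r B * S.hb r (d * d)) * S.hb r B := by group
    _ = _ := by
      rw [c1]
      group

end Sys

end Cfsg.Agent.Lib.St
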