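/-
Central extensions of a group with the relations (R1), (R2): the canonical lifts of the letters.
-/
import Cfsg.Agent.Lib.St.FinR3
import Mathlib.Algebra.Group.Commutator

set_option autoImplicit false

namespace Cfsg.Agent.Lib.St

open Cfsg Cfsg.Lie Cfsg.Agent.Lib.Chev
open scoped commutatorElement

section Comm

variable {E : Type*} [Group E]

lemma cm_mul_central_left {a : E} (ha : ∀ w, w * a = a * w) (x y : E) : ⁅x * a, y⁆ = ⁅x, y⁆ := by
  rw [commutatorElement_def, commutatorElement_def]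
  have e : x * a * y = x * y * a := by rw [mul_assoc, ← ha y, mul_assoc]
  rw [e]
  group

lemma cm_mul_central_right {b : E} (hb : ∀ w, w * b = b * w) (x y : E) : ⁅x, y * b⁆ = ⁅x, y⁆ := by
  rw [commutatorElement_def, commutatorElement_def]
  have e : x * (y * b) * x⁻¹ * (y * b)⁻¹ = x * y * (x⁻¹ * b) * (b⁻¹ * y⁻¹) := by
    rw [hb x⁻¹]
    group
  rw [e]
  group

lemma cm_mul_left {a b c : E} (h : ∀ w, w * ⁅b, c⁆ = ⁅b, c⁆ * w) : ⁅a * b, c⁆ = ⁅a, c⁆ * ⁅b, c⁆ := by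
  have e : ⁅a * b, c⁆ = a * ⁅b, c⁆ * a⁻¹ * ⁅a, c⁆ := by
    simp only [commutatorElement_def]
    group
  rw [e, h a, mul_inv_cancel_right, h ⁅a, c⁆]

lemma cm_mul_right {a b c : E} (h : ∀ w, w * ⁅c, b⁆ = ⁅c, b⁆ * w) : ⁅c, a * b⁆ = ⁅c, a⁆ * ⁅c, b⁆ := by
  have e : ⁅c, a * b⁆ = ⁅c, a⁆ * (a * ⁅c, b⁆ * a⁻¹) := by
    simp only [commutatorElement_def]
    group
  rw [e, h a, mul_inv_cancel_right]

lemma cm_conj (a x y : E) : a * ⁅x, y⁆ * a⁻¹ = ⁅a * x * a⁻¹, a * y * a⁻¹⁆ := by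
  simp only [commutatorElement_def]
  group

lemma cm_eq_one {x y : E} (h : x * y = y * x) : ⁅x, y⁆ = 1 := by
  rw [commutatorElement_def, h]
  group

lemma comm_of_cm {x y : E} (h : ⁅x, y⁆ = 1) : x * y = y * x := by
  rw [commutatorElement_def] at h
  have h1 : x * y * x⁻¹ = y := mul_inv_eq_one.1 h
  rw [← mul_inv_eq_iff_eq_mul]
  exact h1

end Comm

variable {K : Type*} [Field K] {D : ChevalleyDatum} {T : Tbl} {hG : T.Good3 D} {Δ : Type*} [Group Δ]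
  {wit : ℕ → ℕ × ℕ}

/-- A central extension of a group with Steinberg's relations. -/
structure UExt (S : Sys hG K Δ) (E : Type*) [Group E] (wit : ℕ → ℕ × ℕ) where
  hW : StHyp T wit
  hε : T.chkRank1 = true
  p : E →* Δ
  f : Δ → E
  hf : ∀ g, p (f g) = g
  hc : ∀ z, p z = 1 → ∀ w, w * z = z * w
  τ : K
  hτ0 : τ ≠ 0
  hτ2 : τ * τ ≠ 1
  hτ3 : τ * τ * τ ≠ 1

namespace UExt

variable {S : Sys hG K Δ} {E : Type*} [Group E] (X : UExt S E wit)

lemma cm_congr {x x' y y' : E} (h1 : X.p x = X.p x') (h2 : X.p y = X.p y') : ⁅x, y⁆ = ⁅x', y'⁆ := by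
  have e1 : x' = x * (x⁻¹ * x') := by group
  have e2 : y' = y * (y⁻¹ * y') := by group
  have h3 : X.p (x⁻¹ * x') = 1 := by rw [map_mul, map_inv, h1, inv_mul_cancel]
  have h4 : X.p (y⁻¹ * y') = 1 := by rw [map_mul, map_inv, h2, inv_mul_cancel]
  rw [e1, e2, cm_mul_central_left (X.hc _ h3), cm_mul_central_right (X.hc _ h4)]

lemma conj_congr {x x' : E} (h : X.p x = X.p x') (y : E) : x * y * x⁻¹ = x' * y * x'⁻¹ := by
  have e1 : x' = x * (x⁻¹ * x') := by group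
  have h3 : X.p (x⁻¹ * x') = 1 := by rw [map_mul, map_inv, h, inv_mul_cancel]
  set a := x⁻¹ * x'
  rw [e1]
  have : x * a * y * (x * a)⁻¹ = x * (a * y) * a⁻¹ * x⁻¹ := by group
  rw [this, ← X.hc a h3 y]
  group

lemma central_of {z : E} (h : X.p z = 1) (w : E) : w * z = z * w := X.hc z h w

/-- The constant `(τ² - 1)⁻¹`. -/
noncomputable def c : K := (X.τ * X.τ - 1)⁻¹

lemma mul_c : (X.τ * X.τ - 1) * X.c = 1 := mul_inv_cancel₀ (sub_ne_zero.2 X.hτ2)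

/-- Each letter is a commutator. -/
lemma perf {r : ℕ} (hr : r < D.nroots) (u : K) : S.y r u = ⁅S.hb r X.τ, S.y r (X.c * u)⁆ := by
  rw [commutatorElement_def, S.hb_conj_self X.hW X.hε hr X.hτ0, S.y_inv hr, S.add hr]
  congr 1
  have := X.mul_c
  linear_combination (-u) * this

/-- The canonical lift of a letter. -/
noncomputable def Y (r : ℕ) (u : K) : E := ⁅X.f (S.hb r X.τ), X.f (S.y r (X.c * u))⁆

lemma p_Y {r : ℕ} (hr : r < D.nroots) (u : K) : X.p (X.Y r u) = S.y r u := by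
  unfold Y
  rw [map_commutatorElement, X.hf, X.hf, ← X.perf hr]

/-- A lift of a central element is central. -/
lemma lift_center {ζ : E} (hz : X.p ζ ∈ Subgroup.center Δ) (w : E) : w * ζ = ζ * w := by
  have hz' := Subgroup.mem_center_iff.1 hz
  have hφc : ∀ x, X.p ⁅ζ, x⁆ = 1 := fun x => by
    rw [map_commutatorElement]
    exact cm_eq_one (hz' _).symm
  let φ : E →* E := MonoidHom.mk' (fun x => ⁅ζ, x⁆) (fun a b => cm_mul_right (X.hc _ (hφc b)))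
  have hφ1 : ∀ a b, φ ⁅a, b⁆ = 1 := fun a b => by
    rw [map_commutatorElement]
    exact cm_eq_one (X.hc _ (hφc a) _).symm
  have hφ2 : ∀ a, X.p a = 1 → φ a = 1 := fun a ha => cm_eq_one (X.hc _ ha _)
  have hQ : ∀ g, ∀ x, X.p x = g → φ x = 1 := by
    intro g
    have hg : g ∈ (⊤ : Subgroup Δ) := Subgroup.mem_top g
    rw [← S.gen] at hg
    induction hg using Subgroup.closure_induction with
    | mem g hg =>
      obtain ⟨r, t, hr, rfl⟩ := hg
      intro x hx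
      have e : x = X.Y r t * ((X.Y r t)⁻¹ * x) := by group
      have h1 : X.p ((X.Y r t)⁻¹ * x) = 1 := by
        rw [map_mul, map_inv, X.p_Y hr, hx, inv_mul_cancel]
      rw [e, map_mul, hφ2 _ h1, mul_one]
      exact hφ1 _ _
    | one => exact fun x hx => hφ2 x hx
    | mul a b _ _ ha hb =>
      intro x hx
      have e : x = X.f a * ((X.f a)⁻¹ * x) := by group
      rw [e, map_mul, ha _ (X.hf a), hb _ (by rw [map_mul, map_inv, hx, X.hf]; group), mul_one]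
    | inv a _ ha =>
      intro x hx
      have h1 := ha x⁻¹ (by rw [map_inv, hx, inv_inv])
      rw [map_inv] at h1
      exact inv_eq_one.1 h1
  exact (comm_of_cm (hQ _ w rfl)).symm

/-- The lifts of the letters of a root commute. -/
def Ab (r : ℕ) : Prop :=
  ∀ (x x' : E) (u v : K), X.p x = S.y r u → X.p x' = S.y r v → x * x' = x' * x

lemma Y_add {r : ℕ} (hr : r < D.nroots) (h : X.Ab r) (u v : K) : X.Y r u * X.Y r v = X.Y r (u + v) := by
  unfold Y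
  set g := X.f (S.hb r X.τ) with hg
  set a := X.f (S.y r (X.c * u)) with ha
  set b := X.f (S.y r (X.c * v)) with hb'
  have hab : X.p (a * b) = X.p (X.f (S.y r (X.c * (u + v)))) := by
    rw [map_mul, ha, hb', X.hf, X.hf, X.hf, S.add hr, mul_add]
  rw [← X.cm_congr rfl hab]
  have pa : X.p a = S.y r (X.c * u) := X.hf _
  have pb : X.p b = S.y r (X.c * v) := X.hf _
  have pb' : X.p (g * b * g⁻¹) = S.y r (X.τ * X.τ * (X.c * v)) := by
    rw [map_mul, map_mul, map_inv, hg, X.hf, pb, S.hb_conj_self X.hW X.hε hr X.hτ0]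
  have c1 : a * (g * b * g⁻¹) = (g * b * g⁻¹) * a := h _ _ _ _ pa pb'
  have c2 : a * b = b * a := h _ _ _ _ pa pb
  set b' := g * b * g⁻¹ with hb''
  have c1' : a⁻¹ * b' = b' * a⁻¹ := by
    rw [inv_mul_eq_iff_eq_mul, ← mul_assoc, c1, mul_inv_cancel_right]
  have c2' : a⁻¹ * b⁻¹ = b⁻¹ * a⁻¹ := by
    rw [← mul_inv_rev, ← mul_inv_rev, c2]
  simp only [commutatorElement_def]
  calc g * a * g⁻¹ * a⁻¹ * (g * b * g⁻¹ * b⁻¹) = (g * a * g⁻¹) * (a⁻¹ * b') * b⁻¹ := by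
        rw [hb'']
        group
    _ = (g * a * g⁻¹) * b' * (a⁻¹ * b⁻¹) := by
        rw [c1']
        group
    _ = (g * a * g⁻¹) * b' * (b⁻¹ * a⁻¹) := by rw [c2']
    _ = _ := by
        rw [hb'']
        group

lemma Y_zero {r : ℕ} (hr : r < D.nroots) (h : X.Ab r) : X.Y r 0 = 1 := by
  have h1 := X.Y_add hr h 0 0
  rw [add_zero] at h1
  exact mul_eq_left.1 h1

lemma Y_neg {r : ℕ} (hr : r < D.nroots) (h : X.Ab r) (u : K) : (X.Y r u)⁻¹ = X.Y r (-u) := by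
  rw [inv_eq_iff_mul_eq_one, X.Y_add hr h, add_neg_cancel, X.Y_zero hr h]

/-- Action on the canonical lifts. -/
lemma Y_act {r : ℕ} {g : Δ} {μ : K} (hμ : ∀ v, g * S.y r v * g⁻¹ = S.y r (μ * v))
    (hg : ⁅g, S.hb r X.τ⁆ ∈ Subgroup.center Δ) (u : K) :
    X.f g * X.Y r u * (X.f g)⁻¹ = X.Y r (μ * u) := by
  unfold Y
  rw [cm_conj]
  set a := X.f g with ha
  set h := X.f (S.hb r X.τ) with hh
  set b := X.f (S.y r (X.c * u)) with hb'
  have hξ : X.p ⁅a, h⁆ ∈ Subgroup.center Δ := by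
    rw [map_commutatorElement, ha, hh, X.hf, X.hf]
    exact hg
  have hc := X.lift_center hξ
  have e1 : a * h * a⁻¹ = h * ⁅a, h⁆ := by
    rw [hc h, commutatorElement_def]
    group
  rw [e1, cm_mul_central_left hc]
  apply X.cm_congr rfl
  rw [map_mul, map_mul, map_inv, ha, hb', X.hf, X.hf, X.hf, hμ]
  congr 1
  ring

/-- Commutators with a lift. -/
lemma cm_Y {r : ℕ} (hr : r < D.nroots) (h : X.Ab r) {g : Δ} {μ : K} (hμ : ∀ v, g * S.y r v * g⁻¹ = S.y r (μ * v))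
    (hg : ⁅g, S.hb r X.τ⁆ ∈ Subgroup.center Δ) {x : E} {κ : K} (hx : X.p x = S.y r κ) :
    ⁅X.f g, x⁆ = X.Y r ((μ - 1) * κ) := by
  have e : ⁅X.f g, x⁆ = ⁅X.f g, X.Y r κ⁆ := X.cm_congr rfl (by rw [hx, X.p_Y hr])
  rw [e, commutatorElement_def, X.Y_act hμ hg, X.Y_neg hr h, X.Y_add hr h]
  congr 1
  ring

/-- Elements permuting the letters permute the lifts. -/
lemma Y_conj_N {q q' : ℕ} (hq : q < D.nroots) (hq' : q' < D.nroots) (h : X.Ab q') {n : Δ} {c' : K} (hc' : c' ≠ 0)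
    (hn : ∀ v, n * S.y q v * n⁻¹ = S.y q' (c' * v))
    (hg : ⁅n * S.hb q X.τ * n⁻¹, S.hb q' X.τ⁆ ∈ Subgroup.center Δ) (u : K) :
    X.f n * X.Y q u * (X.f n)⁻¹ = X.Y q' (c' * u) := by
  unfold Y
  rw [cm_conj]
  set g' := n * S.hb q X.τ * n⁻¹ with hg'
  have e1 : ⁅X.f n * X.f (S.hb q X.τ) * (X.f n)⁻¹, X.f n * X.f (S.y q (X.c * u)) * (X.f n)⁻¹⁆ =
      ⁅X.f g', X.f n * X.f (S.y q (X.c * u)) * (X.f n)⁻¹⁆ := by
    apply X.cm_congr _ rfl
    rw [map_mul, map_mul, map_inv, X.hf, X.hf, X.hf]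
  have hμ : ∀ v, g' * S.y q' v * g'⁻¹ = S.y q' (X.τ * X.τ * v) := by
    intro v
    have e2 : S.y q' v = n * S.y q (c'⁻¹ * v) * n⁻¹ := by
      rw [hn, ← mul_assoc, mul_inv_cancel₀ hc', one_mul]
    have e3 : g' * (n * S.y q (c'⁻¹ * v) * n⁻¹) * g'⁻¹ =
        n * (S.hb q X.τ * S.y q (c'⁻¹ * v) * (S.hb q X.τ)⁻¹) * n⁻¹ := by
      rw [hg']
      group
    rw [e2, e3, S.hb_conj_self X.hW X.hε hq X.hτ0, hn]
    congr 1
    field_simp
  have hx : X.p (X.f n * X.f (S.y q (X.c * u)) * (X.f n)⁻¹) = S.y q' (c' * (X.c * u)) := by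
    rw [map_mul, map_mul, map_inv, X.hf, X.hf, hn]
  rw [e1, X.cm_Y hq' h hμ hg hx]
  congr 1
  have := X.mul_c
  linear_combination (c' * u) * this

include X in
/-- Elements of `H̄` commute modulo the centre. -/
lemma Hb_cm_center {a b : Δ} (ha : a ∈ S.Hb) (hb' : b ∈ S.Hb) : ⁅a, b⁆ ∈ Subgroup.center Δ := by
  apply S.ker_le_center X.hW
  rw [MonoidHom.mem_ker, map_commutatorElement]
  exact cm_eq_one (diagSub_comm (hG.diagonalSubgroup_le (S.θ_Hb ha)) (hG.diagonalSubgroup_le (S.θ_Hb hb')))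

/-- The action of `h̄_q(t)` on the lifts. -/
lemma Y_hb {q r : ℕ} (hq : q < D.nroots) (hr : r < D.nroots) {t : K} (ht : t ≠ 0) (u : K) :
    X.f (S.hb q t) * X.Y r u * (X.f (S.hb q t))⁻¹ = X.Y r (t ^ D.pairing q r * u) :=
  X.Y_act (fun v => S.hb_conj_y X.hW hq hr ht v)
    (X.Hb_cm_center (S.hb_mem X.hW hq ht) (S.hb_mem X.hW hr X.hτ0)) u

/-- The action of a word on the lifts. -/
lemma Y_Nw (hAb : ∀ r, r < D.nroots → X.Ab r) {l : List (ℕ × K)} (hl : Sys.Vld D l) {q : ℕ} (hq : q < D.nroots) :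
    ∃ c' : K, c' ≠ 0 ∧ ∀ u, X.f (S.Nw l) * X.Y q u * (X.f (S.Nw l))⁻¹ = X.Y (wperm T (l.map Prod.fst) q) (c' * u) := by
  obtain ⟨c', hc', e⟩ := S.conj_Nw X.hW hl hq
  have hw := hG.wperm_lt (Sys.Vld.fst X.hW hl) hq
  refine ⟨c', hc', fun u => X.Y_conj_N hq hw (hAb _ hw) hc' e ?_ u⟩
  exact X.Hb_cm_center (S.conj_Hb_Nw X.hW hl (S.hb_mem X.hW hq X.hτ0)) (S.hb_mem X.hW hw X.hτ0)

end UExt

end Cfsg.Agent.Lib.St
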