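/-
Central extensions of a group with the relations (R1), (R2), with no hypothesis on the field: the Hall--Witt arguments.
-/
import Cfsg.Agent.Lib.St.Univ1

set_option autoImplicit false

namespace Cfsg.Agent.Lib.St

open Cfsg Cfsg.Lie Cfsg.Agent.Lib.Chev
open scoped commutatorElement

/-- The Hall--Witt identity in a special case. -/
lemma hw_identity {E : Type*} [Group E] {p A B : E} (h1 : p * B = B * p) (h2 : ⁅p, A⁆ * ⁅A, B⁆ = ⁅A, B⁆ * ⁅p, A⁆)
    (h3 : ⁅⁅p, A⁆, B⁆ * ⁅A, B⁆ = ⁅A, B⁆ * ⁅⁅p, A⁆, B⁆) : ⁅p, ⁅A, B⁆⁆ = ⁅⁅p, A⁆, B⁆ := by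
  have e0 : p * B * p⁻¹ = B := by
    rw [h1]
    group
  have e1 : p * A * p⁻¹ = ⁅p, A⁆ * A := by
    rw [commutatorElement_def]
    group
  have e2 : p * ⁅A, B⁆ * p⁻¹ = ⁅⁅p, A⁆ * A, B⁆ := by
    rw [cm_conj, e0, e1]
  have e3 : ⁅⁅p, A⁆ * A, B⁆ = ⁅p, A⁆ * ⁅A, B⁆ * ⁅p, A⁆⁻¹ * ⁅⁅p, A⁆, B⁆ := by
    generalize ⁅p, A⁆ = g
    simp only [commutatorElement_def]
    group
  rw [commutatorElement_def p ⁅A, B⁆, e2, e3, h2, mul_inv_cancel_right]
  have e4 : ⁅A, B⁆ * ⁅⁅p, A⁆, B⁆ * ⁅A, B⁆⁻¹ = ⁅⁅p, A⁆, B⁆ := by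
    rw [← h3, mul_inv_cancel_right]
  exact e4

variable {K : Type*} [Field K] {D : ChevalleyDatum} {T : Tbl} {hG : T.Good3 D} {Δ : Type*} [Group Δ]
  {wit : ℕ → ℕ × ℕ}

/-- A central extension of a group with Steinberg's relations. -/
structure HExt (S : Sys hG K Δ) (E : Type*) [Group E] (wit : ℕ → ℕ × ℕ) where
  hW : StHyp T wit
  p : E →* Δ
  f : Δ → E
  hf : ∀ g, p (f g) = g
  hc : ∀ z, p z = 1 → ∀ w, w * z = z * w

namespace Sys

variable (S : Sys hG K Δ)

/-- Commuting letters. -/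
def DC (r s : ℕ) : Prop := ∀ u v : K, S.y r u * S.y s v = S.y s v * S.y r u

lemma DC_self {r : ℕ} (hr : r < D.nroots) : S.DC r r := fun u v => by
  rw [S.add hr, S.add hr, add_comm]

lemma DC_of_nil {r s : ℕ} (hr : r < D.nroots) (hs : s < D.nroots) (h1 : s ≠ r) (h2 : s ≠ D.neg r)
    (ht : D.commTerms r s = []) : S.DC r s := fun u v => by
  have h3 := S.comm hr hs h1 h2 u v
  have e : D.commWord K r s u v = [] := by
    unfold ChevalleyDatum.commWord
    rw [ht]
    rfl
  rw [e] at h3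
  simp only [List.map_nil, List.prod_nil] at h3
  have h4 : (S.y r u * S.y s v)⁻¹ * (S.y s v * S.y r u) = 1 := by
    rw [← h3]
    group
  exact inv_mul_eq_one.1 h4

/-- A decomposition of a root. -/
def Dec (q a b : ℕ) : Prop :=
  q < D.nroots ∧ a < D.nroots ∧ b < D.nroots ∧ a ≠ b ∧ a ≠ D.neg b ∧
    ∃ c : K, c ≠ 0 ∧ ∀ t u : K, ⁅S.y a t, S.y b u⁆ = S.y q (c * t * u)

/-- The commutator relation in the bracket notation. -/
lemma cm_y {a b : ℕ} (ha : a < D.nroots) (hb : b < D.nroots) (h1 : a ≠ b) (h2 : a ≠ D.neg b) (t u : K) :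
    ⁅S.y a t, S.y b u⁆ = S.yw (D.commWord K b a (-u) (-t)) := by
  have h3 := S.comm hb ha h1 h2 (-u) (-t)
  have e1 : S.y a (-t) = (S.y a t)⁻¹ := (S.y_inv ha t).symm
  have e2 : S.y b (-u) = (S.y b u)⁻¹ := (S.y_inv hb u).symm
  rw [e1, e2, inv_inv, inv_inv] at h3
  rw [commutatorElement_def]
  exact h3

lemma dec_of_terms {q a b : ℕ} {C : ℤ} (hq : q < D.nroots) (ha : a < D.nroots) (hb : b < D.nroots) (h1 : a ≠ b)
    (h2 : a ≠ D.neg b) (ht : D.commTerms b a = [(q, C, 1, 1)]) (hC : C = 1 ∨ C = -1) : S.Dec q a b := by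
  refine ⟨hq, ha, hb, h1, h2, -(C : K), ?_, fun t u => ?_⟩
  · rcases hC with rfl | rfl <;> simp
  · rw [S.cm_y ha hb h1 h2]
    unfold ChevalleyDatum.commWord
    rw [ht]
    simp only [List.map_cons, List.map_nil, pow_one, Sys.yw_cons, Sys.yw_nil, mul_one]
    congr 1
    ring

end Sys

namespace HExt

variable {S : Sys hG K Δ} {E : Type*} [Group E] (X : HExt S E wit)

lemma cm_congr {x x' y y' : E} (h1 : X.p x = X.p x') (h2 : X.p y = X.p y') : ⁅x, y⁆ = ⁅x', y'⁆ := by
  have e1 : x' = x * (x⁻¹ * x') := by group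
  have e2 : y' = y * (y⁻¹ * y') := by group
  have h3 : X.p (x⁻¹ * x') = 1 := by rw [map_mul, map_inv, h1, inv_mul_cancel]
  have h4 : X.p (y⁻¹ * y') = 1 := by rw [map_mul, map_inv, h2, inv_mul_cancel]
  rw [e1, e2, cm_mul_central_left (X.hc _ h3), cm_mul_central_right (X.hc _ h4)]

/-- Lifts of the letters of two roots commute. -/
def LC (r s : ℕ) : Prop :=
  ∀ (x x' : E) (u v : K), X.p x = S.y r u → X.p x' = S.y s v → x * x' = x' * x

lemma LC.symm {X : HExt S E wit} {r s : ℕ} (h : X.LC r s) : X.LC s r :=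
  fun x x' u v hx hx' => (h x' x v u hx' hx).symm

/-- A lift commuting with the generators of a commutator. -/
lemma lc_of_dec {s q a b : ℕ} (hd : S.Dec q a b) (h1 : S.DC s a) (h2 : S.DC s b) : X.LC s q := by
  obtain ⟨_, ha, hb, _, _, c, hc, hcomm⟩ := hd
  intro x x' u v hx hx'
  obtain ⟨A, hA⟩ : ∃ A : E, A = X.f (S.y a (c⁻¹ * v)) := ⟨_, rfl⟩
  obtain ⟨B, hB⟩ : ∃ B : E, B = X.f (S.y b 1) := ⟨_, rfl⟩
  have pA : X.p A = S.y a (c⁻¹ * v) := by rw [hA, X.hf]
  have pB : X.p B = S.y b 1 := by rw [hB, X.hf]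
  have e1 : x * ⁅A, B⁆ * x⁻¹ = ⁅A, B⁆ := by
    rw [cm_conj]
    apply X.cm_congr
    · rw [map_mul, map_mul, map_inv, hx, pA, h1 u, mul_inv_cancel_right]
    · rw [map_mul, map_mul, map_inv, hx, pB, h2 u, mul_inv_cancel_right]
  have e2 : X.p ⁅A, B⁆ = X.p x' := by
    rw [map_commutatorElement, pA, pB, hcomm, hx']
    congr 1
    field_simp
  obtain ⟨z, rfl⟩ : ∃ z, x' = ⁅A, B⁆ * z := ⟨⁅A, B⁆⁻¹ * x', by group⟩
  have h3 : X.p z = 1 := by
    rw [map_mul] at e2
    exact (mul_eq_left.1 e2.symm)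
  rw [← mul_assoc, mul_inv_eq_iff_eq_mul.1 e1, mul_assoc, X.hc z h3 x, mul_assoc]

/-- Conjugation by a lift of `n̄_{p_i}(1)`. -/
lemma p_conj (i : ℕ) (hi : i < D.rank) {x : E} {r : ℕ} {u : K} (hr : r < D.nroots) (hx : X.p x = S.y r u) :
    X.p (X.f (S.nb (D.simple i) 1) * x * (X.f (S.nb (D.simple i) 1))⁻¹) = S.y (T.refl i r) (((T.eps i r : ℤ) : K) * u) := by
  rw [map_mul, map_mul, map_inv, X.hf, hx, S.conj_nb1 X.hW hi hr]

/-- Invariance under the Weyl group. -/
lemma lc_refl {i r s : ℕ} (hi : i < D.rank) (hr : r < D.nroots) (hs : s < D.nroots)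
    (h : X.LC (T.refl i r) (T.refl i s)) : X.LC r s := by
  intro x x' u v hx hx'
  have h1 := h _ _ _ _ (X.p_conj i hi hr hx) (X.p_conj i hi hs hx')
  generalize X.f (S.nb (D.simple i) 1) = η at h1
  have e : ∀ a b : E, (η * a * η⁻¹) * (η * b * η⁻¹) = η * (a * b) * η⁻¹ := fun a b => by group
  rw [e, e] at h1
  exact mul_left_cancel (mul_right_cancel h1)

/-- All pairs of commuting letters, from the base pairs. -/
theorem lc_all (hb : ∀ r s, r < D.nroots → s < D.nroots → s ≠ r → s ≠ D.neg r → D.commTerms r s = [] → ¬ T.pick r s < T.l →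
      X.LC r s) {r s : ℕ} (hr : r < D.nroots) (hs : s < D.nroots) (h1 : s ≠ r) (h2 : s ≠ D.neg r)
    (ht : D.commTerms r s = []) : X.LC r s := by
  have hT := hG.correct
  have key : ∀ d r s, r < D.nroots → s < D.nroots → s ≠ r → s ≠ D.neg r → D.commTerms r s = [] →
      (D.nroots - r) * (D.nroots + 1) + (D.nroots - s) = d → X.LC r s := by
    intro d
    induction d using Nat.strong_induction_on with
    | _ d ih =>
      intro r s hr hs h1 h2 ht hd
      have h3 : or (Nat.beq s r) (Nat.beq s (T.neg r)) = false := by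
        rw [Tbl.beq_false h1, Tbl.beq_false (by rw [hT.neg_eq r hr]; exact h2)]
        rfl
      by_cases hi : T.pick r s < T.l
      · have hp := allBelow_spec (allBelow_spec hG.comm r (hG.lt_n hr)) s (hG.lt_n hs)
        unfold Tbl.pairOK at hp
        rw [h3, Bool.false_or, Tbl.blt_true hi, cond_true, Bool.and_eq_true] at hp
        obtain ⟨h4, h5⟩ := hp
        have hi' := hG.l_lt hi
        set i := T.pick r s
        have hF := hG.facts
        have hwr := hG.refl_lt' hi' hr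
        have hws := hG.refl_lt' hi' hs
        have h6 : (D.nroots - T.refl i r) * (D.nroots + 1) + (D.nroots - T.refl i s) < d := by
          rw [Bool.or_eq_true, Bool.and_eq_true] at h4
          rw [← hd]
          rcases h4 with h4 | ⟨h41, h42⟩
          · have h6 : r < T.refl i r := Nat.le_of_ble_eq_true h4
            have h7 : (D.nroots - T.refl i r + 1) * (D.nroots + 1) ≤
                (D.nroots - r) * (D.nroots + 1) :=
              Nat.mul_le_mul_right _ (by omega)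
            have h8 : (D.nroots - T.refl i r + 1) * (D.nroots + 1) =
                (D.nroots - T.refl i r) * (D.nroots + 1) + (D.nroots + 1) := by ring
            omega
          · have h6 : s < T.refl i s := Nat.le_of_ble_eq_true h42
            have h7 : T.refl i r = r := Nat.eq_of_beq_eq_true h41
            rw [h7]
            omega
        have h7 : T.refl i s ≠ T.refl i r := by
          intro h
          apply h1
          have := congrArg (T.refl i) h
          rwa [hF.refl_refl i s hi (hG.lt_n hs), hF.refl_refl i r hi (hG.lt_n hr)] at this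
        have h8 : T.refl i s ≠ D.neg (T.refl i r) := by
          intro h
          apply h2
          rw [← hT.neg_eq _ hwr, ← hF.refl_neg i r hi (hG.lt_n hr)] at h
          have := congrArg (T.refl i) h
          rw [hF.refl_refl i s hi (hG.lt_n hs), hF.refl_refl i _ hi (hF.neg_lt r (hG.lt_n hr))] at this
          rw [← hT.neg_eq r hr]
          exact this
        have h9 : D.commTerms (T.refl i r) (T.refl i s) = [] := by
          have h10 := of_decide_eq_true h5
          rw [Tbl.commT_eq hT hG.sane hr hs, ← Tbl.commF_eq] at ht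
          rw [ht, Tbl.transf, mapF_eq] at h10
          rw [Tbl.commT_eq hT hG.sane hwr hws, ← Tbl.commF_eq]
          exact List.map_eq_nil_iff.1 h10.symm
        exact X.lc_refl hi' hr hs (ih _ h6 _ _ hwr hws h7 h8 h9 rfl)
      · exact hb r s hr hs h1 h2 ht hi
  exact key _ r s hr hs h1 h2 ht rfl

/-- The lifts of the letters of a root commute, from the dominant roots. -/
theorem ab_all (hb : ∀ r, r < D.nroots → ¬ T.pickA r < T.l → X.LC r r) {r : ℕ} (hr : r < D.nroots) : X.LC r r := by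
  refine hG.toGood2.toGood.root_induction (fun r => r < D.nroots → X.LC r r) (fun r hr' h _ => hb r (hG.n_lt hr') h) ?_
    r (hG.lt_n hr) hr
  intro i r hi hr' h _
  have hi' := hG.l_lt hi
  have hr2 := hG.n_lt hr'
  have hw := hG.refl_lt' hi' hr2
  refine X.lc_refl hi' hw hw ?_
  rw [(hG.facts).refl_refl i r hi hr']
  exact h hr2

end HExt

end Cfsg.Agent.Lib.St
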