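/-
Central extensions of a group with the relations (R1), (R2): the canonical lifts satisfy the relations on
the positive roots.
-/
import Cfsg.Agent.Lib.St.Univ1

set_option autoImplicit false

namespace Cfsg.Agent.Lib.St

open Cfsg Cfsg.Lie Cfsg.Agent.Lib.Chev
open scoped commutatorElement

variable {K : Type*} [Field K] {D : ChevalleyDatum} {T : Tbl} {hG : T.Good3 D} {Δ : Type*} [Group Δ]
  {wit : ℕ → ℕ × ℕ}

namespace UExt

variable {S : Sys hG K Δ} {E : Type*} [Group E] (X : UExt S E wit)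

/-- The word in the lifts. -/
noncomputable def YW (l : List (ℕ × K)) : E := (l.map fun p => X.Y p.1 p.2).prod

@[simp] lemma YW_nil : X.YW [] = 1 := rfl

@[simp] lemma YW_cons (p : ℕ × K) (l : List (ℕ × K)) : X.YW (p :: l) = X.Y p.1 p.2 * X.YW l := by
  simp [YW]

lemma p_YW {l : List (ℕ × K)} (hl : ∀ p ∈ l, p.1 < D.nroots) : X.p (X.YW l) = S.yw l := by
  induction l with
  | nil => simp
  | cons p l ih =>
    rw [YW_cons, map_mul, X.p_Y (hl p (by simp)), ih fun q hq => hl q (List.mem_cons_of_mem _ hq), Sys.yw_cons]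

/-- The subgroup generated by the lifts of a list of roots. -/
noncomputable def VY (L : List ℕ) : Subgroup E := Subgroup.closure {g | ∃ r ∈ L, ∃ t : K, g = X.Y r t}

lemma mem_VY {L : List ℕ} {r : ℕ} (h : r ∈ L) (t : K) : X.Y r t ∈ X.VY L :=
  Subgroup.subset_closure ⟨r, h, t, rfl⟩

lemma YW_mem {L : List ℕ} {l : List (ℕ × K)} (h : ∀ p ∈ l, p.1 ∈ L) : X.YW l ∈ X.VY L := by
  induction l with
  | nil => exact Subgroup.one_mem _
  | cons p l ih =>
    rw [YW_cons]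
    exact Subgroup.mul_mem _ (X.mem_VY (h p (by simp)) _) (ih fun q hq => h q (List.mem_cons_of_mem _ hq))

lemma p_VY {L : List ℕ} (hL : ∀ s ∈ L, s < D.nroots) {x : E} (hx : x ∈ X.VY L) : X.p x ∈ S.V L := by
  have h : X.VY L ≤ (S.V L).comap X.p := by
    refine (Subgroup.closure_le _).2 ?_
    rintro _ ⟨r, hr, t, rfl⟩
    show X.p (X.Y r t) ∈ S.V L
    rw [X.p_Y (hL r hr)]
    exact S.mem_V hr t
  exact h hx

/-- The powers of `τ`. -/
lemma τ_zpow {d : ℤ} (h0 : d ≠ 0) (h3 : |d| ≤ 3) : X.τ ^ d ≠ 1 := by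
  have hτ0 := X.hτ0
  have hτ1 : X.τ ≠ 1 := by
    intro h
    apply X.hτ2
    rw [h, mul_one]
  have hτ2 := X.hτ2
  have hτ3 := X.hτ3
  have hm : d = 1 ∨ d = 2 ∨ d = 3 ∨ d = -1 ∨ d = -2 ∨ d = -3 := by
    rw [abs_le] at h3
    omega
  rcases hm with rfl | rfl | rfl | rfl | rfl | rfl
  · simpa using hτ1
  · intro h
    apply hτ2
    rw [← h]
    norm_cast
    rw [pow_two]
  · intro h
    apply hτ3
    rw [← h]
    norm_cast
    ring
  · intro h
    apply hτ1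
    simpa using h
  · intro h
    apply hτ2
    have h1 : X.τ ^ (-2 : ℤ) = (X.τ * X.τ)⁻¹ := by
      rw [zpow_neg]
      congr 1
      norm_cast
      rw [pow_two]
    rw [h1] at h
    exact inv_eq_one.1 h
  · intro h
    apply hτ3
    have h1 : X.τ ^ (-3 : ℤ) = (X.τ * X.τ * X.τ)⁻¹ := by
      rw [zpow_neg]
      congr 1
      norm_cast
      ring
    rw [h1] at h
    exact inv_eq_one.1 h

/-- The key step: the conjugate of a lift by another lift lies in the subgroup of the later lifts. -/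
lemma conj_step (hAb : ∀ r, r < D.nroots → X.Ab r) {r s : ℕ} {L : List ℕ} (hr : r < D.nroots) (hs : s < D.nroots)
    (h1 : s ≠ r) (h2 : s ≠ D.neg r) (hsL : s ∈ L) (hterms : ∀ c ∈ D.commTerms r s, c.1 ∈ L)
    (hL : ∀ s' ∈ L, s' < D.nroots) (hinj : ∀ x ∈ X.VY L, X.p x = 1 → x = 1) {q : ℕ} (hq : q < D.nroots)
    (hq0 : D.pairing q r = 0) (hd : X.τ ^ D.pairing q s ≠ 1) (t u : K) :
    (X.Y r t)⁻¹ * X.Y s u * X.Y r t ∈ X.VY L := by
  have eq_of_p : ∀ a ∈ X.VY L, ∀ b ∈ X.VY L, X.p a = X.p b → a = b := by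
    intro a ha b hb' e
    have h3 := hinj (a * b⁻¹) (Subgroup.mul_mem _ ha (Subgroup.inv_mem _ hb')) (by
      rw [map_mul, map_inv, e, mul_inv_cancel])
    exact mul_inv_eq_one.1 h3
  obtain ⟨μ, hμdef⟩ : ∃ μ : K, μ = X.τ ^ D.pairing q s := ⟨_, rfl⟩
  have hμ1 : μ ≠ 1 := by rwa [hμdef]
  obtain ⟨w, hw⟩ : ∃ w : K → E, ∀ u, w u = X.Y s u * X.YW (D.commWord K r s t u) := ⟨_, fun _ => rfl⟩
  obtain ⟨m, hm⟩ : ∃ m : K → E, ∀ u, m u = (X.Y r t)⁻¹ * X.Y s u * X.Y r t := ⟨_, fun _ => rfl⟩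
  have hw_mem : ∀ u, w u ∈ X.VY L := by
    intro u
    rw [hw]
    refine Subgroup.mul_mem _ (X.mem_VY hsL u) (X.YW_mem fun p hp => ?_)
    simp only [ChevalleyDatum.commWord, List.mem_map] at hp
    obtain ⟨c, hc, rfl⟩ := hp
    exact hterms c hc
  have p_m : ∀ u, X.p (m u) = (S.y r t)⁻¹ * S.y s u * S.y r t := by
    intro u
    rw [hm, map_mul, map_mul, map_inv, X.p_Y hr, X.p_Y hs]
  have p_w : ∀ u, X.p (w u) = (S.y r t)⁻¹ * S.y s u * S.y r t := by
    intro u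
    rw [hw, map_mul, X.p_Y hs, X.p_YW (commWord_range hG hr hs t u), S.conj_y hr hs h1 h2]
  obtain ⟨ζ, hζ⟩ : ∃ ζ : K → E, ∀ u, ζ u = (w u)⁻¹ * m u := ⟨_, fun _ => rfl⟩
  have hmw : ∀ u, m u = w u * ζ u := by
    intro u
    rw [hζ]
    group
  have hζ1 : ∀ u, X.p (ζ u) = 1 := by
    intro u
    rw [hζ, map_mul, map_inv, p_m, p_w, inv_mul_cancel]
  have hζc : ∀ u x, x * ζ u = ζ u * x := fun u => X.hc _ (hζ1 u)
  have hw_add : ∀ u u', w (u + u') = w u * w u' := by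
    intro u u'
    refine eq_of_p _ (hw_mem _) _ (Subgroup.mul_mem _ (hw_mem _) (hw_mem _)) ?_
    rw [map_mul, p_w, p_w, p_w, ← S.add hs]
    group
  have hm_add : ∀ u u', m (u + u') = m u * m u' := by
    intro u u'
    rw [hm, hm, hm, ← X.Y_add hs (hAb s hs)]
    group
  have hζ_add : ∀ u u', ζ (u + u') = ζ u * ζ u' := by
    intro u u'
    have e := hm_add u u'
    have e2 : w u * ζ u * (w u' * ζ u') = w u * w u' * (ζ u * ζ u') := by
      calc w u * ζ u * (w u' * ζ u') = w u * (ζ u * w u') * ζ u' := by group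
        _ = w u * (w u' * ζ u) * ζ u' := by rw [hζc u (w u')]
        _ = _ := by group
    rw [hmw, hmw, hmw, hw_add, e2] at e
    exact mul_left_cancel e
  -- the torus
  obtain ⟨η, hη⟩ : ∃ η : E, η = X.f (S.hb q X.τ) := ⟨_, rfl⟩
  have hηp : X.p η = S.hb q X.τ := by rw [hη, X.hf]
  have hηY : ∀ s', s' < D.nroots → ∀ u, η * X.Y s' u * η⁻¹ = X.Y s' (X.τ ^ D.pairing q s' * u) := by
    intro s' hs' u
    rw [hη]
    exact X.Y_hb hq hs' X.hτ0 u
  have hηV : ∀ x ∈ X.VY L, η * x * η⁻¹ ∈ X.VY L := by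
    intro x hx
    induction hx using Subgroup.closure_induction with
    | mem x hx =>
      obtain ⟨s', hs', u, rfl⟩ := hx
      rw [hηY s' (hL s' hs')]
      exact X.mem_VY hs' _
    | one => simp [Subgroup.one_mem]
    | mul a b _ _ ha hb' =>
      have e : η * (a * b) * η⁻¹ = (η * a * η⁻¹) * (η * b * η⁻¹) := by group
      rw [e]
      exact Subgroup.mul_mem _ ha hb'
    | inv a _ ha =>
      have e : η * a⁻¹ * η⁻¹ = (η * a * η⁻¹)⁻¹ := by group
      rw [e]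
      exact Subgroup.inv_mem _ ha
  have hhb_r : S.hb q X.τ * S.y r t * (S.hb q X.τ)⁻¹ = S.y r t := by
    rw [S.hb_conj_y X.hW hq hr X.hτ0, hq0, zpow_zero, one_mul]
  have hw_eta : ∀ u, η * w u * η⁻¹ = w (μ * u) := by
    intro u
    refine eq_of_p _ (hηV _ (hw_mem u)) _ (hw_mem _) ?_
    rw [map_mul, map_mul, map_inv, p_w, p_w, hηp]
    have e : S.hb q X.τ * ((S.y r t)⁻¹ * S.y s u * S.y r t) * (S.hb q X.τ)⁻¹ =
        (S.hb q X.τ * S.y r t * (S.hb q X.τ)⁻¹)⁻¹ * (S.hb q X.τ * S.y s u * (S.hb q X.τ)⁻¹) *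
          (S.hb q X.τ * S.y r t * (S.hb q X.τ)⁻¹) := by group
    rw [e, hhb_r, S.hb_conj_y X.hW hq hs X.hτ0, hμdef]
  have hm_eta : ∀ u, η * m u * η⁻¹ = m (μ * u) := by
    intro u
    have e : η * ((X.Y r t)⁻¹ * X.Y s u * X.Y r t) * η⁻¹ =
        (η * X.Y r t * η⁻¹)⁻¹ * (η * X.Y s u * η⁻¹) * (η * X.Y r t * η⁻¹) := by group
    rw [hm, hm, e, hηY r hr, hηY s hs, hq0, zpow_zero, one_mul, hμdef]
  have hζ_eta : ∀ u, ζ (μ * u) = ζ u := by
    intro u
    have e := hm_eta u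
    rw [hmw, hmw] at e
    have e2 : η * (w u * ζ u) * η⁻¹ = (η * w u * η⁻¹) * ζ u := by
      calc η * (w u * ζ u) * η⁻¹ = η * w u * (ζ u * η⁻¹) := by group
        _ = η * w u * (η⁻¹ * ζ u) := by rw [hζc u η⁻¹]
        _ = _ := by group
    rw [e2, hw_eta] at e
    exact (mul_left_cancel e).symm
  have hζ0 : ζ 0 = 1 := by
    have e := hζ_add 0 0
    rw [add_zero] at e
    exact mul_eq_left.1 e.symm
  have hζ_neg : ∀ u, ζ (-u) = (ζ u)⁻¹ := by
    intro u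
    rw [eq_inv_iff_mul_eq_one, ← hζ_add, neg_add_cancel, hζ0]
  have hζ_triv : ∀ u, ζ ((μ - 1) * u) = 1 := by
    intro u
    have e : (μ - 1) * u = μ * u + -u := by ring
    rw [e, hζ_add, hζ_eta, hζ_neg, mul_inv_cancel]
  have hμ2 : μ - 1 ≠ 0 := sub_ne_zero.2 hμ1
  have hζall : ζ u = 1 := by
    have e : u = (μ - 1) * ((μ - 1)⁻¹ * u) := by
      rw [← mul_assoc, mul_inv_cancel₀ hμ2, one_mul]
    rw [e]
    exact hζ_triv _
  have e3 := hmw u
  rw [hζall, mul_one, hm] at e3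
  rw [e3]
  exact hw_mem u

/-- Stability under conjugation. -/
lemma conj_VY (hAb : ∀ r, r < D.nroots → X.Ab r) {r : ℕ} {L : List ℕ} (hr : r < D.nroots)
    (hL : ∀ s' ∈ L, s' < D.nroots) (hch : ∀ s ∈ L, s ≠ r ∧ s ≠ D.neg r ∧ ∀ c ∈ D.commTerms r s, c.1 ∈ L)
    (hinj : ∀ x ∈ X.VY L, X.p x = 1 → x = 1)
    (hq : ∀ s ∈ L, ∃ q, q < D.nroots ∧ D.pairing q r = 0 ∧ X.τ ^ D.pairing q s ≠ 1) (t : K) {v : E} (hv : v ∈ X.VY L) :
    (X.Y r t)⁻¹ * v * X.Y r t ∈ X.VY L := by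
  induction hv using Subgroup.closure_induction with
  | mem x hx =>
    obtain ⟨s, hs, u, rfl⟩ := hx
    obtain ⟨q, h1, h2, h3⟩ := hq s hs
    obtain ⟨h4, h5, h6⟩ := hch s hs
    exact X.conj_step hAb hr (hL s hs) h4 h5 hs h6 hL hinj h1 h2 h3 t u
  | one => simp [Subgroup.one_mem]
  | mul a b _ _ ha hb' =>
    have e : (X.Y r t)⁻¹ * (a * b) * X.Y r t = ((X.Y r t)⁻¹ * a * X.Y r t) * ((X.Y r t)⁻¹ * b * X.Y r t) := by group
    rw [e]
    exact Subgroup.mul_mem _ ha hb'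
  | inv a _ ha =>
    have e : (X.Y r t)⁻¹ * a⁻¹ * X.Y r t = ((X.Y r t)⁻¹ * a * X.Y r t)⁻¹ := by group
    rw [e]
    exact Subgroup.inv_mem _ ha

/-- Splitting off the first letter. -/
lemma VY_split (hAb : ∀ r, r < D.nroots → X.Ab r) {r : ℕ} {L : List ℕ} (hr : r < D.nroots)
    (hconj : ∀ t, ∀ v ∈ X.VY L, (X.Y r t)⁻¹ * v * X.Y r t ∈ X.VY L) {g : E} (hg : g ∈ X.VY (r :: L)) :
    ∃ a : K, ∃ v ∈ X.VY L, g = X.Y r a * v := by
  have h0 := X.Y_zero hr (hAb r hr)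
  have hY := X.Y_add hr (hAb r hr)
  have hN := X.Y_neg hr (hAb r hr)
  induction hg using Subgroup.closure_induction with
  | mem x hx =>
    obtain ⟨s, hs, u, rfl⟩ := hx
    rcases List.mem_cons.1 hs with rfl | hs'
    · exact ⟨u, 1, Subgroup.one_mem _, by simp⟩
    · exact ⟨0, _, X.mem_VY hs' u, by rw [h0, one_mul]⟩
  | one => exact ⟨0, 1, Subgroup.one_mem _, by rw [h0, one_mul]⟩
  | mul a b _ _ ha hb' =>
    obtain ⟨a₁, v₁, hv₁, rfl⟩ := ha
    obtain ⟨a₂, v₂, hv₂, rfl⟩ := hb'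
    refine ⟨a₁ + a₂, ((X.Y r a₂)⁻¹ * v₁ * X.Y r a₂) * v₂, Subgroup.mul_mem _ (hconj _ _ hv₁) hv₂, ?_⟩
    rw [← hY]
    group
  | inv a _ ha =>
    obtain ⟨a₁, v₁, hv₁, rfl⟩ := ha
    have h1 := hconj (-a₁) _ (Subgroup.inv_mem _ hv₁)
    rw [← hN, inv_inv] at h1
    refine ⟨-a₁, _, h1, ?_⟩
    rw [← hN]
    group

include X in
/-- The first coordinate of a relation in the positive roots. -/
lemma coord_zero {r : ℕ} {L : List ℕ} (hr : r < D.nroots) (hrp : D.nroots / 2 ≤ r) (hc : ChainOK D (r :: L))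
    (hL : ∀ s ∈ L, D.nroots / 2 ≤ s ∧ s < D.nroots) {a : K} {v : Δ} (hv : v ∈ S.V L) (h : S.y r a * v = 1) : a = 0 := by
  obtain ⟨b, rfl⟩ := S.exists_nf hc.2 (fun s hs => (hL s hs).2) hv
  have e : S.y r a * S.yw (L.map fun r => (r, b r)) = S.yw ((r, a) :: L.map fun r => (r, b r)) := by
    rw [Sys.yw_cons]
  rw [e] at h
  have hl : ∀ p ∈ ((r, a) :: L.map fun r => (r, b r)), D.nroots / 2 ≤ p.1 ∧ p.1 < D.nroots := by
    intro p hp
    rcases List.mem_cons.1 hp with rfl | hp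
    · exact ⟨hrp, hr⟩
    · obtain ⟨s, hs, rfl⟩ := List.mem_map.1 hp
      exact hL s hs
  have h1 := congrArg S.θ h
  rw [S.θ_yw _ fun p hp => (hl p hp).2, map_one] at h1
  have h2 := xl_unique hG _ hl ?_ h1 (r, a) (by simp)
  · exact h2
  · simp only [List.map_cons, List.map_map]
    have : (Prod.fst ∘ fun r : ℕ => (r, b r)) = id := rfl
    rw [this, List.map_id]
    exact hc.nodup

/-- Injectivity on the subgroup of a longer list. -/
lemma VY_inj_cons (hAb : ∀ r, r < D.nroots → X.Ab r) {r : ℕ} {L : List ℕ} (hr : r < D.nroots)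
    (hrp : D.nroots / 2 ≤ r) (hc : ChainOK D (r :: L))
    (hLp : ∀ s ∈ L, D.nroots / 2 ≤ s ∧ s < D.nroots)
    (hinj : ∀ x ∈ X.VY L, X.p x = 1 → x = 1)
    (hq : ∀ s ∈ L, ∃ q, q < D.nroots ∧ D.pairing q r = 0 ∧ X.τ ^ D.pairing q s ≠ 1) :
    ∀ x ∈ X.VY (r :: L), X.p x = 1 → x = 1 := by
  intro x hx h1
  have hL : ∀ s ∈ L, s < D.nroots := fun s hs => (hLp s hs).2
  obtain ⟨a, v, hv, rfl⟩ := X.VY_split hAb hr (fun t v hv => X.conj_VY hAb hr hL hc.1 hinj hq t hv) hx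
  rw [map_mul, X.p_Y hr] at h1
  have ha := X.coord_zero hr hrp hc hLp (X.p_VY hL hv) h1
  subst ha
  rw [S.y_zero hr, one_mul] at h1
  rw [X.Y_zero hr (hAb r hr), one_mul]
  exact hinj v hv h1

/-- Injectivity on the subgroup of the lifts of the positive roots. -/
theorem VY_range (hAb : ∀ r, r < D.nroots → X.Ab r)
    (hq : ∀ r s, D.nroots / 2 ≤ r → r < s → s < D.nroots → ∃ q, q < D.nroots ∧ D.pairing q r = 0 ∧ X.τ ^ D.pairing q s ≠ 1)
    (m k : ℕ) (hk : D.nroots / 2 ≤ k) (hm : k + m = D.nroots) :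
    ∀ x ∈ X.VY (List.range' k m), X.p x = 1 → x = 1 := by
  induction m generalizing k with
  | zero =>
    intro x hx _
    have h0 : X.VY (List.range' k 0) = ⊥ := by
      rw [eq_bot_iff]
      refine (Subgroup.closure_le _).2 ?_
      rintro _ ⟨r, hr, _, _⟩
      simp at hr
    rw [h0] at hx
    simpa using hx
  | succ m ih =>
    rw [List.range'_succ]
    have hkn : k < D.nroots := by omega
    have hmem : ∀ s ∈ List.range' (k + 1) m, k + 1 ≤ s ∧ s < D.nroots := by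
      intro s hs
      rw [List.mem_range'_1] at hs
      omega
    refine X.VY_inj_cons hAb hkn hk ?_ (fun s hs => ?_) (ih (k + 1) (by omega) (by omega)) (fun s hs => ?_)
    · have := chain_range hG (m + 1) k hk hm
      rwa [List.range'_succ] at this
    · have := hmem s hs
      omega
    · have := hmem s hs
      exact hq k s hk (by omega) this.2

end UExt

end Cfsg.Agent.Lib.St
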