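/-
Central extensions of a group with the relations (R1), (R2): all the relations for the canonical lifts.
-/
import Cfsg.Agent.Lib.St.Univ2

set_option autoImplicit false

namespace Cfsg.Agent.Lib.St

open Cfsg Cfsg.Lie Cfsg.Agent.Lib.Chev
open scoped commutatorElement

end Cfsg.Agent.Lib.St

namespace Cfsg.Agent.Lib.Chev.Tbl

/-- Nonzero and small. -/
noncomputable def smallNZ (d : ℤ) : Bool := and (not (intZero d)) (Nat.ble (Int.natAbs d) 3)

/-- The first family of checks for universality. -/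
noncomputable def chkU1 (T : Tbl) : Bool :=
  allBelow T.n fun r => or (Nat.blt r T.half) <| allBelow T.n fun s => or (Nat.ble s r) <|
    Nat.blt (firstI T.n fun q => and (intZero (T.pairT q r)) (smallNZ (T.pairT q s))) T.n

/-- The second family of checks for universality. -/
noncomputable def chkU2 (T : Tbl) (ex : ℕ → Bool) : Bool :=
  allBelow T.n fun r => or (ex r) <|
    Nat.blt (firstI T.n fun q => Nat.beq (Int.natAbs (T.pairT q r)) 1) T.n

/-- The third family of checks for universality. -/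
noncomputable def chkU3 (T : Tbl) (bw : ℕ → ℕ → List ℕ) : Bool :=
  allBelow T.n fun r => allBelow T.n fun s =>
    or (or (Nat.beq s r) (Nat.beq s (T.neg r))) <|
    or (Nat.blt (T.pick r s) T.l) <|
    and (allF (fun i => Nat.blt i T.l) (bw r s)) <|
    and (Nat.ble T.half (T.wpermF (bw r s) r)) <|
    and (Nat.ble T.half (T.wpermF (bw r s) s)) <|
    allF (fun c => Nat.ble T.half (T.wpermF (bw r s) c.1)) (T.commF r s)

end Cfsg.Agent.Lib.Chev.Tbl

namespace Cfsg.Agent.Lib.St

open Cfsg Cfsg.Lie Cfsg.Agent.Lib.Chev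
open scoped commutatorElement

variable {K : Type*} [Field K] {D : ChevalleyDatum} {T : Tbl}

/-- Words making a pair of roots positive. -/
theorem exists_word (hG : T.Good3 D) {bw : ℕ → ℕ → List ℕ} (hb : T.chkU3 bw = true) {r s : ℕ} (hr : r < D.nroots)
    (hs : s < D.nroots) (h1 : s ≠ r) (h2 : s ≠ D.neg r) :
    ∃ l : List ℕ, (∀ i ∈ l, i < D.rank) ∧ D.nroots / 2 ≤ wperm T l r ∧ D.nroots / 2 ≤ wperm T l s ∧
      ∀ c ∈ D.commTerms r s, D.nroots / 2 ≤ wperm T l c.1 := by
  have hT := hG.correct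
  have key : ∀ d r s, r < D.nroots → s < D.nroots → s ≠ r → s ≠ D.neg r →
      (D.nroots - r) * (D.nroots + 1) + (D.nroots - s) = d →
      ∃ l : List ℕ, (∀ i ∈ l, i < D.rank) ∧ D.nroots / 2 ≤ wperm T l r ∧ D.nroots / 2 ≤ wperm T l s ∧
        ∀ c ∈ D.commTerms r s, D.nroots / 2 ≤ wperm T l c.1 := by
    intro d
    induction d using Nat.strong_induction_on with
    | _ d ih =>
      intro r s hr hs h1 h2 hd
      have h3 : or (Nat.beq s r) (Nat.beq s (T.neg r)) = false := by
        rw [Tbl.beq_false h1, Tbl.beq_false (by rw [hT.neg_eq r hr]; exact h2)]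
        rfl
      by_cases hi : T.pick r s < T.l
      · have hp := allBelow_spec (allBelow_spec hG.comm r (hG.lt_n hr)) s (hG.lt_n hs)
        unfold Tbl.pairOK at hp
        rw [h3, Bool.false_or, Tbl.blt_true hi, cond_true, Bool.and_eq_true] at hp
        obtain ⟨h4, h5⟩ := hp
        have hi' := hG.l_lt hi
        set i := T.pick r s
        have hF := hG.facts
        have hwr := hG.refl_lt' hi' hr
        have hws := hG.refl_lt' hi' hs
        have h6 : (D.nroots - T.refl i r) * (D.nroots + 1) + (D.nroots - T.refl i s) < d := by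
          rw [Bool.or_eq_true, Bool.and_eq_true] at h4
          rw [← hd]
          rcases h4 with h4 | ⟨h41, h42⟩
          · have h6 : r < T.refl i r := Nat.le_of_ble_eq_true h4
            have h7 : (D.nroots - T.refl i r + 1) * (D.nroots + 1) ≤
                (D.nroots - r) * (D.nroots + 1) :=
              Nat.mul_le_mul_right _ (by omega)
            have h8 : (D.nroots - T.refl i r + 1) * (D.nroots + 1) =
                (D.nroots - T.refl i r) * (D.nroots + 1) + (D.nroots + 1) := by ring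
            omega
          · have h6 : s < T.refl i s := Nat.le_of_ble_eq_true h42
            have h7 : T.refl i r = r := Nat.eq_of_beq_eq_true h41
            rw [h7]
            omega
        have h7 : T.refl i s ≠ T.refl i r := by
          intro h
          apply h1
          have := congrArg (T.refl i) h
          rwa [hF.refl_refl i s hi (hG.lt_n hs), hF.refl_refl i r hi (hG.lt_n hr)] at this
        have h8 : T.refl i s ≠ D.neg (T.refl i r) := by
          intro h
          apply h2
          rw [← hT.neg_eq _ hwr, ← hF.refl_neg i r hi (hG.lt_n hr)] at h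
          have := congrArg (T.refl i) h
          rw [hF.refl_refl i s hi (hG.lt_n hs), hF.refl_refl i _ hi (hF.neg_lt r (hG.lt_n hr))] at this
          rw [← hT.neg_eq r hr]
          exact this
        obtain ⟨l, hl, hl1, hl2, hl3⟩ := ih _ h6 _ _ hwr hws h7 h8 rfl
        refine ⟨l ++ [i], ?_, ?_, ?_, ?_⟩
        · intro j hj
          rcases List.mem_append.1 hj with hj | hj
          · exact hl j hj
          · simp only [List.mem_singleton] at hj
            rw [hj]
            exact hi'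
        · rw [wperm_append]
          exact hl1
        · rw [wperm_append]
          exact hl2
        · intro c hc
          rw [wperm_append]
          have h9 := of_decide_eq_true h5
          rw [Tbl.commT_eq hT hG.sane hr hs, ← Tbl.commF_eq, h9, Tbl.transf, mapF_eq, List.mem_map] at hc
          obtain ⟨c', hc', rfl⟩ := hc
          have h10 : c' ∈ D.commTerms (T.refl i r) (T.refl i s) := by
            rw [Tbl.commT_eq hT hG.sane hwr hws, ← Tbl.commF_eq]
            exact hc'
          have h11 := hG.commTerms_lt hwr hws c' h10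
          have h12 := hl3 c' h10
          simp only [wperm_cons, wperm_nil]
          rw [hF.refl_refl i _ hi (hG.lt_n h11)]
          exact h12
      · have hp := allBelow_spec (allBelow_spec hb r (hG.lt_n hr)) s (hG.lt_n hs)
        simp only [h3, Tbl.blt_false hi, Bool.false_or, Bool.and_eq_true, foldrF_eq, Tbl.wpermF] at hp
        obtain ⟨h4, h5, h6, h7⟩ := hp
        refine ⟨bw r s, ?_, ?_, ?_, ?_⟩
        · intro j hj
          exact hG.l_lt (Nat.le_of_ble_eq_true (allF_spec h4 j hj))
        · rw [← hG.half_eq]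
          exact Nat.le_of_ble_eq_true h5
        · rw [← hG.half_eq]
          exact Nat.le_of_ble_eq_true h6
        · intro c hc
          rw [Tbl.commT_eq hT hG.sane hr hs, ← Tbl.commF_eq] at hc
          have := allF_spec h7 c hc
          rw [← hG.half_eq]
          simpa [foldrF_eq, Tbl.wpermF, wperm] using Nat.le_of_ble_eq_true this
  exact key _ r s hr hs h1 h2 rfl

variable {hG : T.Good3 D} {Δ : Type*} [Group Δ] {wit : ℕ → ℕ × ℕ}

namespace UExt

variable {S : Sys hG K Δ} {E : Type*} [Group E] (X : UExt S E wit)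

/-- The action of a word in the `n̄_{p_i}(1)` on the lifts. -/
lemma Y_Np (hAb : ∀ r, r < D.nroots → X.Ab r) {l : List ℕ} (hl : ∀ i ∈ l, i < D.rank) {q : ℕ} (hq : q < D.nroots) :
    ∃ c' : K, c' ≠ 0 ∧ ∀ u, X.f (S.Np l) * X.Y q u * (X.f (S.Np l))⁻¹ = X.Y (wperm T l q) (c' * u) := by
  have h := X.Y_Nw hAb (Sys.Np_vld hl) hq
  have e : (l.map fun i => (i, (1 : K))).map Prod.fst = l := by
    rw [List.map_map]
    exact List.map_id l
  rw [e] at h
  exact h

/-- The relations of the lifts, given a word making the roots positive. -/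
lemma comm_of_word (hAb : ∀ r, r < D.nroots → X.Ab r)
    (hq : ∀ r s, D.nroots / 2 ≤ r → r < s → s < D.nroots → ∃ q, q < D.nroots ∧ D.pairing q r = 0 ∧ X.τ ^ D.pairing q s ≠ 1)
    {r s : ℕ} (hr : r < D.nroots) (hs : s < D.nroots) (h1 : s ≠ r) (h2 : s ≠ D.neg r)
    {l : List ℕ} (hl : ∀ i ∈ l, i < D.rank) (hrp : D.nroots / 2 ≤ wperm T l r) (hsp : D.nroots / 2 ≤ wperm T l s)
    (hcp : ∀ c ∈ D.commTerms r s, D.nroots / 2 ≤ wperm T l c.1) (t u : K) :
    (X.Y s u)⁻¹ * (X.Y r t)⁻¹ * X.Y s u * X.Y r t = X.YW (D.commWord K r s t u) := by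
  have hinj := X.VY_range hAb hq (D.nroots / 2) (D.nroots / 2) le_rfl (half_add hG)
  obtain ⟨η, hη⟩ : ∃ η : E, η = X.f (S.Np l) := ⟨_, rfl⟩
  have hmem : ∀ q, q < D.nroots → D.nroots / 2 ≤ wperm T l q → ∀ v, η * X.Y q v * η⁻¹ ∈ X.VY (List.range' (D.nroots / 2) (D.nroots / 2)) := by
    intro q hq' hq2 v
    obtain ⟨c', _, e⟩ := X.Y_Np hAb hl hq'
    rw [hη, e]
    apply X.mem_VY
    rw [List.mem_range'_1]
    have := hG.wperm_lt hl hq'
    have := half_add hG
    omega
  have hA : η * ((X.Y s u)⁻¹ * (X.Y r t)⁻¹ * X.Y s u * X.Y r t) * η⁻¹ ∈ X.VY (List.range' (D.nroots / 2) (D.nroots / 2)) := by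
    have e : η * ((X.Y s u)⁻¹ * (X.Y r t)⁻¹ * X.Y s u * X.Y r t) * η⁻¹ =
        (η * X.Y s u * η⁻¹)⁻¹ * (η * X.Y r t * η⁻¹)⁻¹ * (η * X.Y s u * η⁻¹) * (η * X.Y r t * η⁻¹) := by group
    rw [e]
    have m1 := hmem s hs hsp u
    have m2 := hmem r hr hrp t
    exact Subgroup.mul_mem _ (Subgroup.mul_mem _ (Subgroup.mul_mem _ (Subgroup.inv_mem _ m1) (Subgroup.inv_mem _ m2)) m1) m2
  have hB : ∀ w : List (ℕ × K), (∀ p ∈ w, p.1 < D.nroots ∧ D.nroots / 2 ≤ wperm T l p.1) →
      η * X.YW w * η⁻¹ ∈ X.VY (List.range' (D.nroots / 2) (D.nroots / 2)) := by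
    intro w
    induction w with
    | nil => simp [Subgroup.one_mem]
    | cons p w ih =>
      intro hw
      have e : η * X.YW (p :: w) * η⁻¹ = (η * X.Y p.1 p.2 * η⁻¹) * (η * X.YW w * η⁻¹) := by
        rw [YW_cons]
        group
      rw [e]
      obtain ⟨h3, h4⟩ := hw p (by simp)
      exact Subgroup.mul_mem _ (hmem _ h3 h4 _) (ih fun q hq => hw q (List.mem_cons_of_mem _ hq))
  have hB' := hB (D.commWord K r s t u) (by
    intro p hp
    simp only [ChevalleyDatum.commWord, List.mem_map] at hp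
    obtain ⟨c, hc, rfl⟩ := hp
    exact ⟨hG.commTerms_lt hr hs c hc, hcp c hc⟩)
  have hp : X.p ((X.Y s u)⁻¹ * (X.Y r t)⁻¹ * X.Y s u * X.Y r t) = X.p (X.YW (D.commWord K r s t u)) := by
    rw [X.p_YW (commWord_range hG hr hs t u)]
    simp only [map_mul, map_inv, X.p_Y hr, X.p_Y hs]
    exact S.comm hr hs h1 h2 t u
  have hc : ∀ a b : E, X.p a = X.p b → X.p (η * a * η⁻¹) = X.p (η * b * η⁻¹) := fun a b e => by
    simp only [map_mul, map_inv, e]
  have h3 := hinj _ (Subgroup.mul_mem _ hA (Subgroup.inv_mem _ hB')) (by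
    rw [map_mul, map_inv, hc _ _ hp, mul_inv_cancel])
  rw [mul_inv_eq_one] at h3
  have h4 : ∀ a b : E, η * a * η⁻¹ = η * b * η⁻¹ → a = b := by
    intro a b e
    have := mul_right_cancel e
    exact mul_left_cancel this
  exact h4 _ _ h3

/-- The section of the central extension, given the relations for the canonical lifts. -/
theorem comm_all (hAb : ∀ r, r < D.nroots → X.Ab r)
    (hq : ∀ r s, D.nroots / 2 ≤ r → r < s → s < D.nroots → ∃ q, q < D.nroots ∧ D.pairing q r = 0 ∧ X.τ ^ D.pairing q s ≠ 1)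
    {bw : ℕ → ℕ → List ℕ} (hb : T.chkU3 bw = true)
    {r s : ℕ} (hr : r < D.nroots) (hs : s < D.nroots) (h1 : s ≠ r) (h2 : s ≠ D.neg r) (t u : K) :
    (X.Y s u)⁻¹ * (X.Y r t)⁻¹ * X.Y s u * X.Y r t = X.YW (D.commWord K r s t u) := by
  obtain ⟨l, hl, h3, h4, h5⟩ := exists_word hG hb hr hs h1 h2
  exact X.comm_of_word hAb hq hr hs h1 h2 hl h3 h4 h5 t u

/-- From the check to the witnesses. -/
lemma hq_of_chk (h : T.chkU1 = true) :
    ∀ r s, D.nroots / 2 ≤ r → r < s → s < D.nroots → ∃ q, q < D.nroots ∧ D.pairing q r = 0 ∧ X.τ ^ D.pairing q s ≠ 1 := by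
  intro r s hr hrs hs
  have hrn : r < D.nroots := by omega
  have h1 := allBelow_spec h r (hG.lt_n hrn)
  rw [Bool.or_eq_true, Tbl.blt_false (by rw [hG.half_eq]; omega)] at h1
  have h2 := allBelow_spec (h1.resolve_left (by simp)) s (hG.lt_n hs)
  rw [Bool.or_eq_true] at h2
  have h3 : Nat.ble s r = false := by
    cases h4 : Nat.ble s r with
    | false => rfl
    | true =>
      have := Nat.le_of_ble_eq_true h4
      omega
  rw [h3] at h2
  have h4 := Nat.le_of_ble_eq_true (h2.resolve_left (by simp))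
  obtain ⟨Q, hQ1, h5⟩ : ∃ Q, Q < T.n ∧ (intZero (T.pairT Q r) && Tbl.smallNZ (T.pairT Q s)) = true :=
    ⟨_, h4, firstI_spec h4⟩
  rw [Bool.and_eq_true] at h5
  have hq := hG.n_lt hQ1
  refine ⟨Q, hq, ?_, ?_⟩
  · rw [← hG.pairT_eq hq hrn]
    exact intZero_spec h5.1
  · have h6 := h5.2
    unfold Tbl.smallNZ at h6
    rw [Bool.and_eq_true, Bool.not_eq_true', hG.pairT_eq hq hs] at h6
    refine X.τ_zpow ?_ ?_
    · intro h7
      rw [h7] at h6
      exact absurd h6.1 (by decide)
    · have h8 := Nat.le_of_ble_eq_true h6.2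
      rw [Int.abs_eq_natAbs]
      omega

end UExt

end Cfsg.Agent.Lib.St
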