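/-
The group of a system is perfect.
-/
import Cfsg.Agent.Lib.St.Univ3
import Cfsg.Agent.Lib.St.HW1
import Cfsg.Agent.Lib.Chev.Rank1All
import Cfsg.Agent.Lib.St.TAll

set_option autoImplicit false

namespace Cfsg.Agent.Lib.St

open Cfsg Cfsg.Lie Cfsg.Agent.Lib.Chev
open scoped commutatorElement

variable {K : Type*} [Field K] {D : ChevalleyDatum} {T : Tbl} {hG : T.Good3 D} {Γ : Type*} [Group Γ]
  {wit : ℕ → ℕ × ℕ}

namespace Sys

variable {S : Sys hG K Γ}

/-- All letters are in the commutator subgroup if the simple ones are. -/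
theorem perf_simple (hW : StHyp T wit) (h : ∀ i, i < D.rank → ∀ t, S.y (D.simple i) t ∈ commutator Γ) :
    commutator Γ = ⊤ := by
  have hT := hG.correct
  have key : ∀ r, r < T.n → r < D.nroots → ∀ t : K, S.y r t ∈ commutator Γ := by
    refine hG.root_induction_simple _ (fun i hi _ t => ?_) (fun i r hi hr ih hr' t => ?_)
    · rw [hT.simple_eq i (hG.l_lt hi)]
      exact h i (hG.l_lt hi) t
    · have hi' := hG.l_lt hi
      have hrr := hG.n_lt hr
      have h1 := S.conj_nb1 hW hi' hrr (((T.eps i r : ℤ) : K) * t)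
      have e : ((T.eps i r : ℤ) : K) * (((T.eps i r : ℤ) : K) * t) = t := by
        rw [← mul_assoc, hG.eps_mul_self hi' hrr, one_mul]
      rw [e] at h1
      rw [← h1]
      have hn : (commutator Γ).Normal := inferInstance
      exact hn.conj_mem _ (ih hrr _) _
  rw [eq_top_iff, ← S.gen, Subgroup.closure_le]
  rintro _ ⟨r, t, hr, rfl⟩
  exact key r (hG.lt_n hr) hr t

/-- A commutator with one term. -/
lemma y_mem_of_pair {k r s : ℕ} (hk : k < D.nroots) (h : T.perfPair k r s = true) (τ : K) :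
    S.y k τ ∈ commutator Γ := by
  have hT := hG.correct
  unfold Tbl.perfPair at h
  simp only [Bool.and_eq_true, Bool.not_eq_true'] at h
  obtain ⟨h1, h2, h3, h4, h5⟩ := h
  have hr : r < D.nroots := hG.n_lt (Nat.le_of_ble_eq_true h1)
  have hs : s < D.nroots := hG.n_lt (Nat.le_of_ble_eq_true h2)
  have hsr : s ≠ r := Nat.ne_of_beq_eq_false h3
  have hsn : s ≠ D.neg r := by
    rw [← hT.neg_eq r hr]
    exact Nat.ne_of_beq_eq_false h4
  have hc : T.commF r s = D.commTerms r s := by
    rw [Tbl.commT_eq hT hG.sane hr hs, ← Tbl.commF_eq]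
  cases hL : T.commF r s with
  | nil => rw [hL] at h5; exact absurd h5 (by simp [Tbl.singleTerm])
  | cons c L =>
    rw [hL] at h5 hc
    have h5' : (and (isNilF L) <| and (Nat.beq c.1 k) <| and (Tbl.isUnitZ c.2.1) <|
      and (Nat.beq c.2.2.1 1) (Nat.beq c.2.2.2 1)) = true := h5
    simp only [Bool.and_eq_true] at h5'
    obtain ⟨h6, h7, h8, h9, h10⟩ := h5'
    have hLnil : L = [] := by
      cases L with
      | nil => rfl
      | cons a b => exact absurd h6 (by simp [isNilF])
    subst hLnil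
    have hck : c.1 = k := Nat.eq_of_beq_eq_true h7
    have hi : c.2.2.1 = 1 := Nat.eq_of_beq_eq_true h9
    have hj : c.2.2.2 = 1 := Nat.eq_of_beq_eq_true h10
    have hu : ((c.2.1 : ℤ) : K) * (c.2.1 : ℤ) = 1 := by
      unfold Tbl.isUnitZ at h8
      rw [Bool.or_eq_true] at h8
      rcases h8 with h8 | h8 <;> rw [intEq_spec h8] <;> simp
    have hcc : c = (k, c.2.1, 1, 1) := Prod.ext hck (Prod.ext rfl (Prod.ext hi hj))
    have hC : c.2.1 = 1 ∨ c.2.1 = -1 := by
      unfold Tbl.isUnitZ at h8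
      rw [Bool.or_eq_true] at h8
      rcases h8 with h8 | h8
      · exact Or.inl (intEq_spec h8)
      · exact Or.inr (intEq_spec h8)
    have hd : S.Dec k s r := S.dec_of_terms hk hs hr hsr hsn (by rw [← hc, hcc]) hC
    obtain ⟨_, _, _, _, _, d, hd0, e⟩ := hd
    have e1 : S.y k τ = ⁅S.y s (d⁻¹ * τ), S.y r 1⁆ := by
      rw [e]
      congr 1
      field_simp
    rw [e1]
    exact Subgroup.commutator_mem_commutator (Subgroup.mem_top _) (Subgroup.mem_top _)

/-- Perfectness from the table of commutators. -/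
theorem perf_A (S : Sys hG K Γ) (hW : StHyp T wit) {pf : List (ℕ × ℕ)} (h : T.chkPerfA pf = true) : commutator Γ = ⊤ := by
  refine perf_simple (S := S) hW fun i hi t => ?_
  have h1 := allBelow_spec h i (hG.lt_l hi)
  have h2 : T.perfPair (T.simple i) (pf.getD i (0, 0)).1 (pf.getD i (0, 0)).2 = true := h1
  rw [hG.correct.simple_eq i hi] at h2
  exact y_mem_of_pair (hG.simple_lt hi) h2 t

/-- A letter is a commutator with a torus element. -/
lemma y_mem_of_pairing {r s : ℕ} (hr : r < D.nroots) (hs : s < D.nroots) (hW : StHyp T wit) (hp : D.pairing r s = 1 ∨ D.pairing r s = -1)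
    {a : K} (ha : a ≠ 0) (ha1 : a ≠ 1) (t : K) : S.y s t ∈ commutator Γ := by
  have h1 := S.hb_conj_y hW hr hs ha
  set e := a ^ D.pairing r s with he
  have he1 : e - 1 ≠ 0 := by
    rcases hp with hp | hp
    · rw [he, hp, zpow_one]
      exact sub_ne_zero.2 ha1
    · rw [he, hp, zpow_neg_one]
      intro h
      have h2 : a⁻¹ = 1 := sub_eq_zero.1 h
      exact ha1 (inv_eq_one.1 h2)
  have e1 : S.y s t = ⁅S.hb r a, S.y s ((e - 1)⁻¹ * t)⁆ := by
    rw [commutatorElement_def, h1, S.y_inv hs, S.add hs]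
    congr 1
    have : (e - 1) * (e - 1)⁻¹ = 1 := mul_inv_cancel₀ he1
    linear_combination (-t) * this
  rw [e1]
  exact Subgroup.commutator_mem_commutator (Subgroup.mem_top _) (Subgroup.mem_top _)

/-- Perfectness from the table of pairings. -/
theorem perf_H (S : Sys hG K Γ) (hW : StHyp T wit) {pf : List ℕ} (h : T.chkPerfH pf = true) {a : K} (ha : a ≠ 0) (ha1 : a ≠ 1) :
    commutator Γ = ⊤ := by
  refine perf_simple (S := S) hW fun i hi t => ?_
  have h1 := allBelow_spec h i (hG.lt_l hi)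
  have h2 : (and (Nat.blt (pf.getD i 0) T.n) (Tbl.isUnitZ (T.pairT (pf.getD i 0) (T.simple i)))) = true := h1
  rw [Bool.and_eq_true] at h2
  have hr : pf.getD i 0 < D.nroots := hG.n_lt (Nat.le_of_ble_eq_true h2.1)
  have h3 := h2.2
  rw [hG.pairT_eq hr (by rw [hG.correct.simple_eq i hi]; exact hG.simple_lt hi), hG.correct.simple_eq i hi] at h3
  unfold Tbl.isUnitZ at h3
  rw [Bool.or_eq_true] at h3
  refine y_mem_of_pairing hr (hG.simple_lt hi) hW ?_ ha ha1 t
  rcases h3 with h3 | h3
  · exact Or.inl (intEq_spec h3)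
  · exact Or.inr (intEq_spec h3)

/-- A two-term commutator. -/
lemma y_mem_of_two {i m j r s : ℕ} (hW : StHyp T wit) (hi : i < D.rank) (h : T.perfTwo i m j r s = true)
    (hprev : ∀ (_ : m < D.rank) (t : K), S.y (D.simple m) t ∈ commutator Γ) (τ : K) :
    S.y (D.simple i) τ ∈ commutator Γ := by
  have hT := hG.correct
  unfold Tbl.perfTwo at h
  simp only [Bool.and_eq_true, Bool.not_eq_true'] at h
  obtain ⟨h1, h2, h3, h4, h5, h6, h7, h8⟩ := h
  have hr : r < D.nroots := hG.n_lt (Nat.le_of_ble_eq_true h1)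
  have hs : s < D.nroots := hG.n_lt (Nat.le_of_ble_eq_true h2)
  have hm : m < D.rank := hG.l_lt (Nat.le_of_ble_eq_true h5)
  have hj : j < D.rank := hG.l_lt (Nat.le_of_ble_eq_true h6)
  have hsr : s ≠ r := Nat.ne_of_beq_eq_false h3
  have hsn : s ≠ D.neg r := by
    rw [← hT.neg_eq r hr]
    exact Nat.ne_of_beq_eq_false h4
  have hc : T.commF r s = D.commTerms r s := by
    rw [Tbl.commT_eq hT hG.sane hr hs, ← Tbl.commF_eq]
  cases hL : T.commF r s with
  | nil => rw [hL] at h8; exact absurd h8 (by simp)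
  | cons c L =>
    rw [hL] at h8 hc
    simp only [Bool.and_eq_true] at h8
    obtain ⟨a1, a2, a3, a4, a5⟩ := h8
    cases L with
    | nil => exact absurd a5 (by simp)
    | cons c' L' =>
      simp only [Bool.and_eq_true] at a5
      obtain ⟨b1, b2, b3, b4, b5⟩ := a5
      have hL' : L' = [] := by
        cases L' with
        | nil => rfl
        | cons a b => exact absurd b1 (by simp [isNilF])
      subst hL'
      have hk : c.1 = T.refl j (T.simple m) := Nat.eq_of_beq_eq_true a1
      have hk' : c'.1 = T.simple i := Nat.eq_of_beq_eq_true b2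
      have e1 : c.2.2.1 = 1 := Nat.eq_of_beq_eq_true a3
      have e2 : c.2.2.2 = 1 := Nat.eq_of_beq_eq_true a4
      have e3 : c'.2.2.1 = 2 := Nat.eq_of_beq_eq_true b4
      have e4 : c'.2.2.2 = 1 := Nat.eq_of_beq_eq_true b5
      have hu : ((c'.2.1 : ℤ) : K) * (c'.2.1 : ℤ) = 1 := by
        unfold Tbl.isUnitZ at b3
        rw [Bool.or_eq_true] at b3
        rcases b3 with h8 | h8 <;> rw [intEq_spec h8] <;> simp
      rw [hT.simple_eq m hm] at hk
      rw [hT.simple_eq i hi] at hk'
      have hm' := hG.simple_lt hm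
      have hk1 : T.refl j (D.simple m) < D.nroots := hG.refl_lt' hj hm'
      set u : K := ((c'.2.1 : ℤ) : K) * τ with hu'
      set v : K := ((c.2.1 : ℤ) : K) * (-1) * u with hv
      have e0 := S.comm hr hs hsr hsn 1 u
      unfold ChevalleyDatum.commWord at e0
      rw [← hc] at e0
      simp only [List.map_cons, List.map_nil, List.prod_cons, List.prod_nil, mul_one] at e0
      rw [hk, hk', e1, e2, e3, e4] at e0
      have e5 : ((c.2.1 : ℤ) : K) * (-1) ^ 1 * u ^ 1 = v := by
        simp [hv]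
      have e6 : ((c'.2.1 : ℤ) : K) * (-1) ^ 2 * u ^ 1 = τ := by
        simp only [hu', pow_one, neg_sq, one_pow, mul_one]
        rw [← mul_assoc, hu, one_mul]
      rw [e5, e6] at e0
      have e7 : S.y (D.simple i) τ = (S.y (T.refl j (D.simple m)) v)⁻¹ * ⁅(S.y s u)⁻¹, (S.y r 1)⁻¹⁆ := by
        rw [commutatorElement_def, inv_inv, inv_inv, e0]
        group
      rw [e7]
      refine Subgroup.mul_mem _ (Subgroup.inv_mem _ ?_)
        (Subgroup.commutator_mem_commutator (Subgroup.mem_top _) (Subgroup.mem_top _))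
      have h9 := S.conj_nb1 hW hj hm' (((T.eps j (D.simple m) : ℤ) : K) * v)
      have e8 : ((T.eps j (D.simple m) : ℤ) : K) * (((T.eps j (D.simple m) : ℤ) : K) * v) = v := by
        rw [← mul_assoc, hG.eps_mul_self hj hm', one_mul]
      rw [e8] at h9
      rw [← h9]
      have hn : (commutator Γ).Normal := inferInstance
      exact hn.conj_mem _ (hprev hm _) _

/-- Perfectness for a datum of rank two from a pairing and a two-term commutator. -/
theorem perf_two (S : Sys hG K Γ) (hW : StHyp T wit) (hl : D.rank = 2) {rr j r s : ℕ}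
    (h0 : and (Nat.blt rr T.n) (Tbl.isUnitZ (T.pairT rr (T.simple 0))) = true)
    (h1 : T.perfTwo 1 0 j r s = true) {a : K} (ha : a ≠ 0) (ha1 : a ≠ 1) :
    commutator Γ = ⊤ := by
  have key0 : ∀ (_ : 0 < D.rank) (t : K), S.y (D.simple 0) t ∈ commutator Γ := by
    intro hm t
    rw [Bool.and_eq_true] at h0
    have hr : rr < D.nroots := hG.n_lt (Nat.le_of_ble_eq_true h0.1)
    have h3 := h0.2
    rw [hG.pairT_eq hr (by rw [hG.correct.simple_eq 0 hm]; exact hG.simple_lt hm), hG.correct.simple_eq 0 hm] at h3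
    unfold Tbl.isUnitZ at h3
    rw [Bool.or_eq_true] at h3
    refine y_mem_of_pairing hr (hG.simple_lt hm) hW ?_ ha ha1 t
    rcases h3 with h3 | h3
    · exact Or.inl (intEq_spec h3)
    · exact Or.inr (intEq_spec h3)
  refine perf_simple (S := S) hW fun i hi t => ?_
  have hi2 : i = 0 ∨ i = 1 := by omega
  rcases hi2 with rfl | rfl
  · exact key0 hi t
  · exact y_mem_of_two hW hi h1 key0 t

end Sys

/-- The group of a system is perfect. -/
theorem perf_all {D : ChevalleyDatum} (hD : D ∈ [chevG2, chevB2, chevD4, chevF4, chevE6, chevE7, chevE8])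
    (hK : D ∈ [chevB2, chevG2] → ∃ x : K, x ≠ 0 ∧ x ≠ 1) :
    ∃ (T : Tbl) (wit : ℕ → ℕ × ℕ) (hG : T.Good3 D), StHyp T wit ∧ ∀ {Γ : Type*} [Group Γ] (_ : Sys hG K Γ), commutator Γ = ⊤ := by
  simp only [List.mem_cons, List.not_mem_nil, or_false] at hD
  rcases hD with rfl | rfl | rfl | rfl | rfl | rfl | rfl
  · obtain ⟨a, ha, ha1⟩ := hK (by simp)
    exact ⟨_, _, good3G2, stHypG2, fun S => Sys.perf_H S stHypG2 digG2_perfH ha ha1⟩
  · obtain ⟨a, ha, ha1⟩ := hK (by simp)
    exact ⟨_, _, good3B2, stHypB2, fun S => Sys.perf_two S stHypB2 rfl digB2_perfH0 digB2_perfTwo ha ha1⟩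
  · exact ⟨_, _, good3D4, stHypD4, fun S => Sys.perf_A S stHypD4 digD4_perfA⟩
  · exact ⟨_, _, good3F4, stHypF4, fun S => Sys.perf_A S stHypF4 digF4_perfA⟩
  · exact ⟨_, _, good3E6, stHypE6, fun S => Sys.perf_A S stHypE6 digE6_perfA⟩
  · exact ⟨_, _, good3E7, stHypE7, fun S => Sys.perf_A S stHypE7 digE7_perfA⟩
  · exact ⟨_, _, good3E8, stHypE8, fun S => Sys.perf_A S stHypE8 digE8_perfA⟩

end Cfsg.Agent.Lib.St
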