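/-
Central extensions of a group with the relations (R1), (R2), with no hypothesis on the field: the lifts.
-/
import Cfsg.Agent.Lib.St.HW1

set_option autoImplicit false

namespace Cfsg.Agent.Lib.St

open Cfsg Cfsg.Lie Cfsg.Agent.Lib.Chev
open scoped commutatorElement

variable {K : Type*} [Field K] {D : ChevalleyDatum} {T : Tbl} {hG : T.Good3 D} {Δ : Type*} [Group Δ]
  {wit : ℕ → ℕ × ℕ}

namespace Sys

variable (S : Sys hG K Δ)

lemma y_inj {r : ℕ} (hr : r < D.nroots) {t u : K} (h : S.y r t = S.y r u) : t = u := by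
  have h1 := congrArg S.θ h
  rw [S.θ_y hr, S.θ_y hr] at h1
  have h2 := congrArg (fun g : GL D.Idx K => (g : Matrix D.Idx D.Idx K)) h1
  simp only [Tbl.Good.xU_coe] at h2
  exact hG.x_inj hr h2

/-- Reflecting a decomposition. -/
lemma Dec.refl {S : Sys hG K Δ} (hW : StHyp T wit) {q a b i : ℕ} (hi : i < D.rank) (h : S.Dec q a b) :
    S.Dec (T.refl i q) (T.refl i a) (T.refl i b) := by
  obtain ⟨hq, ha, hb, hab, hab', c, hc, hcomm⟩ := h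
  have hF := hG.facts
  have hT := hG.correct
  have hn : ∀ {r : ℕ} (_ : r < D.nroots) (u : K), S.nb (D.simple i) 1 * S.y r u * (S.nb (D.simple i) 1)⁻¹ =
      S.y (T.refl i r) (((T.eps i r : ℤ) : K) * u) := fun hr u => S.conj_nb1 hW hi hr u
  have hi' := hG.lt_l hi
  have hwb := hG.refl_lt' hi hb
  refine ⟨hG.refl_lt' hi hq, hG.refl_lt' hi ha, hwb, ?_, ?_,
    ((T.eps i q : ℤ) : K) * c * ((T.eps i a : ℤ) : K) * ((T.eps i b : ℤ) : K), ?_, fun t u => ?_⟩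
  · intro h
    apply hab
    have := congrArg (T.refl i) h
    rwa [hF.refl_refl i a hi' (hG.lt_n ha), hF.refl_refl i b hi' (hG.lt_n hb)] at this
  · intro h
    apply hab'
    rw [← hT.neg_eq _ hwb, ← hF.refl_neg i b hi' (hG.lt_n hb)] at h
    have := congrArg (T.refl i) h
    rw [hF.refl_refl i a hi' (hG.lt_n ha), hF.refl_refl i _ hi' (hF.neg_lt b (hG.lt_n hb))] at this
    rw [← hT.neg_eq b hb]
    exact this
  · exact mul_ne_zero (mul_ne_zero (mul_ne_zero (hG.eps_ne hi hq) hc) (hG.eps_ne hi ha)) (hG.eps_ne hi hb)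
  · have e1 := hG.eps_mul_self (F := K) hi ha
    have e2 := hG.eps_mul_self (F := K) hi hb
    have h1 := hcomm (((T.eps i a : ℤ) : K) * t) (((T.eps i b : ℤ) : K) * u)
    have h2 := congrArg (fun g => S.nb (D.simple i) 1 * g * (S.nb (D.simple i) 1)⁻¹) h1
    rw [cm_conj, hn ha, hn hb, hn hq, ← mul_assoc, ← mul_assoc, e1, e2, one_mul, one_mul] at h2
    rw [h2]
    congr 1
    ring

end Sys

namespace HExt

variable {S : Sys hG K Δ} {E : Type*} [Group E] (X : HExt S E wit)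

/-- The move. -/
lemma move {a a' δ b b' q : ℕ} (hd1 : S.Dec a' a δ) (hd2 : S.Dec b δ b') (hd3 : S.Dec q a' b') (h3 : X.LC a b')
    (h4 : X.LC a' b) (h5 : X.LC q b) :
    ∃ c₁ c₂ : K, c₁ ≠ 0 ∧ c₂ ≠ 0 ∧ ∀ t x d : K,
      ⁅X.f (S.y a t), X.f (S.y b (c₂ * x * d))⁆ = ⁅X.f (S.y a' (c₁ * t * x)), X.f (S.y b' d)⁆ := by
  obtain ⟨_, _, _, _, _, c₁, hc₁, e₁⟩ := hd1
  obtain ⟨_, _, _, _, _, c₂, hc₂, e₂⟩ := hd2
  obtain ⟨_, _, _, _, _, c₃, _, e₃⟩ := hd3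
  refine ⟨c₁, c₂, hc₁, hc₂, fun t x d => ?_⟩
  obtain ⟨p, hp⟩ : ∃ p : E, p = X.f (S.y a t) := ⟨_, rfl⟩
  obtain ⟨A, hA⟩ : ∃ A : E, A = X.f (S.y δ x) := ⟨_, rfl⟩
  obtain ⟨B, hB⟩ : ∃ B : E, B = X.f (S.y b' d) := ⟨_, rfl⟩
  have pp : X.p p = S.y a t := by rw [hp, X.hf]
  have pA : X.p A = S.y δ x := by rw [hA, X.hf]
  have pB : X.p B = S.y b' d := by rw [hB, X.hf]
  have pAB : X.p ⁅A, B⁆ = S.y b (c₂ * x * d) := by
    rw [map_commutatorElement, pA, pB, e₂]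
  have ppA : X.p ⁅p, A⁆ = S.y a' (c₁ * t * x) := by
    rw [map_commutatorElement, pp, pA, e₁]
  have ppAB : X.p ⁅⁅p, A⁆, B⁆ = S.y q (c₃ * (c₁ * t * x) * d) := by
    rw [map_commutatorElement, ppA, pB, e₃]
  have e1 : ⁅X.f (S.y a t), X.f (S.y b (c₂ * x * d))⁆ = ⁅p, ⁅A, B⁆⁆ :=
    X.cm_congr (by rw [hp]) (by rw [X.hf, pAB])
  have e2 : ⁅X.f (S.y a' (c₁ * t * x)), X.f (S.y b' d)⁆ = ⁅⁅p, A⁆, B⁆ :=
    X.cm_congr (by rw [X.hf, ppA]) (by rw [hB])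
  rw [e1, e2]
  exact hw_identity (h3 _ _ _ _ pp pB) (h4 _ _ _ _ ppA pAB) (h5 _ _ _ _ ppAB pAB)

/-- The bilinear form of the move. -/
lemma move' {a a' δ b b' q : ℕ} (hd1 : S.Dec a' a δ) (hd2 : S.Dec b δ b') (hd3 : S.Dec q a' b') (h3 : X.LC a b')
    (h4 : X.LC a' b) (h5 : X.LC q b) :
    ∃ κ : K, κ ≠ 0 ∧ ∀ t u : K, ⁅X.f (S.y a t), X.f (S.y b u)⁆ = ⁅X.f (S.y a' (κ * (t * u))), X.f (S.y b' 1)⁆ := by
  obtain ⟨c₁, c₂, hc₁, hc₂, e⟩ := X.move hd1 hd2 hd3 h3 h4 h5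
  refine ⟨c₁ * c₂⁻¹, mul_ne_zero hc₁ (inv_ne_zero hc₂), fun t u => ?_⟩
  have h := e t (c₂⁻¹ * u) 1
  have e1 : c₂ * (c₂⁻¹ * u) * 1 = u := by
    field_simp
  have e2 : c₁ * t * (c₂⁻¹ * u) = c₁ * c₂⁻¹ * (t * u) := by ring
  rwa [e1, e2] at h

/-- All decompositions of a root give the same lift. -/
def Uq (q : ℕ) : Prop :=
  ∀ a b a' b', S.Dec q a b → S.Dec q a' b' → ∀ t u t' u' : K, ⁅S.y a t, S.y b u⁆ = ⁅S.y a' t', S.y b' u'⁆ →
    ⁅X.f (S.y a t), X.f (S.y b u)⁆ = ⁅X.f (S.y a' t'), X.f (S.y b' u')⁆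

/-- From the comparison with a base decomposition. -/
lemma uq_of_base {q a₀ b₀ : ℕ} (hbase : S.Dec q a₀ b₀)
    (h : ∀ a b, S.Dec q a b → ∃ κ : K, κ ≠ 0 ∧ ∀ t u : K,
      ⁅X.f (S.y a t), X.f (S.y b u)⁆ = ⁅X.f (S.y a₀ (κ * (t * u))), X.f (S.y b₀ 1)⁆) : X.Uq q := by
  intro a b a' b' h1 h2 t u t' u' he
  obtain ⟨κ, _, e⟩ := h a b h1
  obtain ⟨κ', _, e'⟩ := h a' b' h2
  rw [e, e']
  have h3 := congrArg X.p (e t u)
  have h4 := congrArg X.p (e' t' u')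
  simp only [map_commutatorElement, X.hf] at h3 h4
  obtain ⟨hq, _, _, _, _, c₀, hc₀, e₀⟩ := hbase
  rw [he, h4, e₀, e₀] at h3
  have h5 := S.y_inj hq h3
  have h6 : κ' * (t' * u') = κ * (t * u) := by
    have := mul_left_cancel₀ hc₀ (by simpa [mul_assoc] using h5 : c₀ * (κ' * (t' * u') * 1) = c₀ * (κ * (t * u) * 1))
    simpa using this
  rw [h6]

/-- Invariance under the Weyl group. -/
lemma uq_refl {i q : ℕ} (hi : i < D.rank) (hq : q < D.nroots) (h : X.Uq q) : X.Uq (T.refl i q) := by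
  intro a b a' b' h1 h2 t u t' u' he
  have hF := hG.facts
  have hrr : ∀ {r : ℕ}, r < D.nroots → T.refl i (T.refl i r) = r := fun {r} hr =>
    hF.refl_refl i r (hG.lt_l hi) (hG.lt_n hr)
  have d1 := Sys.Dec.refl X.hW hi h1
  have d2 := Sys.Dec.refl X.hW hi h2
  rw [hrr hq] at d1 d2
  have ha := h1.2.1
  have hb := h1.2.2.1
  have ha' := h2.2.1
  have hb' := h2.2.2.1
  have hn : ∀ {r : ℕ} (_ : r < D.nroots) (u : K), S.nb (D.simple i) 1 * S.y r u * (S.nb (D.simple i) 1)⁻¹ =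
      S.y (T.refl i r) (((T.eps i r : ℤ) : K) * u) := fun hr u => S.conj_nb1 X.hW hi hr u
  have h3 := congrArg (fun g => S.nb (D.simple i) 1 * g * (S.nb (D.simple i) 1)⁻¹) he
  rw [cm_conj, cm_conj, hn ha, hn hb, hn ha', hn hb'] at h3
  have h4 := h _ _ _ _ d1 d2 _ _ _ _ h3
  obtain ⟨η, hη⟩ : ∃ η : E, η = X.f (S.nb (D.simple i) 1) := ⟨_, rfl⟩
  have hpη : X.p η = S.nb (D.simple i) 1 := by rw [hη, X.hf]
  have hc : ∀ {r : ℕ} (_ : r < D.nroots) (u : K),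
      X.p (η * X.f (S.y r u) * η⁻¹) = X.p (X.f (S.y (T.refl i r) (((T.eps i r : ℤ) : K) * u))) := fun hr u => by
    rw [map_mul, map_mul, map_inv, X.hf, X.hf, hpη, hn hr]
  have e1 : η * ⁅X.f (S.y a t), X.f (S.y b u)⁆ * η⁻¹ =
      ⁅X.f (S.y (T.refl i a) (((T.eps i a : ℤ) : K) * t)), X.f (S.y (T.refl i b) (((T.eps i b : ℤ) : K) * u))⁆ := by
    rw [cm_conj]
    exact X.cm_congr (hc ha t) (hc hb u)
  have e2 : η * ⁅X.f (S.y a' t'), X.f (S.y b' u')⁆ * η⁻¹ =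
      ⁅X.f (S.y (T.refl i a') (((T.eps i a' : ℤ) : K) * t')), X.f (S.y (T.refl i b') (((T.eps i b' : ℤ) : K) * u'))⁆ := by
    rw [cm_conj]
    exact X.cm_congr (hc ha' t') (hc hb' u')
  rw [← e1, ← e2] at h4
  exact mul_left_cancel (mul_right_cancel h4)

/-- All roots, from the dominant ones. -/
theorem uq_all (hb : ∀ r, r < D.nroots → ¬ T.pickA r < T.l → X.Uq r) {r : ℕ} (hr : r < D.nroots) : X.Uq r := by
  refine hG.toGood2.toGood.root_induction (fun r => r < D.nroots → X.Uq r) (fun r hr' h _ => hb r (hG.n_lt hr') h) ?_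
    r (hG.lt_n hr) hr
  intro i r hi hr' h _
  have hr2 := hG.n_lt hr'
  exact X.uq_refl (hG.l_lt hi) hr2 (h hr2)

/-- The canonical lifts. -/
theorem exists_Y (hU : ∀ q, q < D.nroots → X.Uq q) (hex : ∀ q, q < D.nroots → ∃ a b, S.Dec q a b) :
    ∃ Y : ℕ → K → E, ∀ q, q < D.nroots → (∀ w, X.p (Y q w) = S.y q w) ∧
      ∀ a b (t u w : K), S.Dec q a b → ⁅S.y a t, S.y b u⁆ = S.y q w → ⁅X.f (S.y a t), X.f (S.y b u)⁆ = Y q w := by
  have key : ∀ (q : ℕ) (w : K), ∃ x : E, q < D.nroots → X.p x = S.y q w ∧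
      ∀ a b (t u : K), S.Dec q a b → ⁅S.y a t, S.y b u⁆ = S.y q w → ⁅X.f (S.y a t), X.f (S.y b u)⁆ = x := by
    intro q w
    by_cases hq : q < D.nroots
    · obtain ⟨a₀, b₀, h0⟩ := hex q hq
      obtain ⟨_, _, _, _, _, c₀, hc₀, e₀⟩ := id h0
      have e1 : ⁅S.y a₀ (c₀⁻¹ * w), S.y b₀ 1⁆ = S.y q w := by
        rw [e₀]
        congr 1
        field_simp
      refine ⟨⁅X.f (S.y a₀ (c₀⁻¹ * w)), X.f (S.y b₀ 1)⁆, fun _ => ⟨?_, ?_⟩⟩
      · rw [map_commutatorElement, X.hf, X.hf, e1]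
      · intro a b t u h1 h2
        exact hU q hq _ _ _ _ h1 h0 _ _ _ _ (h2.trans e1.symm)
    · exact ⟨1, fun h => absurd h hq⟩
  choose Y hY using key
  exact ⟨Y, fun q hq => ⟨fun w => (hY q w hq).1, fun a b t u w h1 h2 => (hY q w hq).2 a b t u h1 h2⟩⟩

end HExt

end Cfsg.Agent.Lib.St
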