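/-
Central extensions of a group with the relations (R1), (R2): the lifts of the letters of a root commute.
-/
import Cfsg.Agent.Lib.St.Univ3
import Mathlib.GroupTheory.Subgroup.Center

set_option autoImplicit false

namespace Cfsg.Agent.Lib.St

open Cfsg Cfsg.Lie Cfsg.Agent.Lib.Chev
open scoped commutatorElement

/-- Bi-additive maps invariant under the scalars vanish. -/
theorem biadd_trivial {K : Type*} [Field K] {M : Type*} [AddCommGroup M] (B : K → K → M)
    (h1 : ∀ u u' v, B (u + u') v = B u v + B u' v) (h2 : ∀ u v v', B u (v + v') = B u v + B u v')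
    (h3 : ∀ l, l ≠ 0 → ∀ u v, B (l * u) (l * v) = B u v) {x : K} (hx0 : x ≠ 0) (hx1 : 1 + x ≠ 0)
    (hx2 : 1 + x + x * x ≠ 0) (u v : K) : B u v = 0 := by
  have key : ∀ a, a ≠ 0 → B 1 (a * (1 + x + x * x)) = 0 := by
    intro a ha
    have hp : a * x * (1 + x) ≠ 0 := mul_ne_zero (mul_ne_zero ha hx0) hx1
    have hq : a * (1 + x) ≠ 0 := mul_ne_zero ha hx1
    have hr : a * x ≠ 0 := mul_ne_zero ha hx0
    have e1 : B (a * x * (1 + x))⁻¹ 1 = B 1 (a * x * (1 + x)) := by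
      have := h3 _ hp (a * x * (1 + x))⁻¹ 1
      rw [mul_inv_cancel₀ hp, mul_one] at this
      exact this.symm
    have e2 : B (a * (1 + x))⁻¹ 1 = B 1 (a * (1 + x)) := by
      have := h3 _ hq (a * (1 + x))⁻¹ 1
      rw [mul_inv_cancel₀ hq, mul_one] at this
      exact this.symm
    have e3 : B (a * x)⁻¹ 1 = B 1 (a * x) := by
      have := h3 _ hr (a * x)⁻¹ 1
      rw [mul_inv_cancel₀ hr, mul_one] at this
      exact this.symm
    have e4 : (a * x * (1 + x))⁻¹ + (a * (1 + x))⁻¹ = (a * x)⁻¹ := by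
      field_simp
    have e5 := h1 (a * x * (1 + x))⁻¹ (a * (1 + x))⁻¹ 1
    rw [e4, e3, e1, e2] at e5
    have e6 : a * x * (1 + x) = a * x + a * x * x := by ring
    have e7 : a * (1 + x) = a + a * x := by ring
    rw [e6, e7, h2, h2] at e5
    have e8 : a * (1 + x + x * x) = a + a * x + a * x * x := by ring
    rw [e8, h2, h2]
    have e9 : B 1 a + B 1 (a * x) + B 1 (a * x * x) + B 1 (a * x) = B 1 (a * x) := by
      calc B 1 a + B 1 (a * x) + B 1 (a * x * x) + B 1 (a * x)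
          = B 1 (a * x) + B 1 (a * x * x) + (B 1 a + B 1 (a * x)) := by abel
        _ = B 1 (a * x) := e5.symm
    exact add_eq_right.1 e9
  have hg : ∀ t, B 1 t = 0 := by
    intro t
    by_cases ht : t = 0
    · subst ht
      have := h2 1 0 0
      rw [add_zero] at this
      exact left_eq_add.1 this
    · have e : t = (t * (1 + x + x * x)⁻¹) * (1 + x + x * x) := by
        rw [mul_assoc, inv_mul_cancel₀ hx2, mul_one]
      rw [e]
      exact key _ (mul_ne_zero ht (inv_ne_zero hx2))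
  by_cases hu : u = 0
  · subst hu
    have := h1 0 0 v
    rw [add_zero] at this
    exact left_eq_add.1 this
  · have := h3 u⁻¹ (inv_ne_zero hu) u v
    rw [inv_mul_cancel₀ hu] at this
    rw [← this]
    exact hg _

variable {K : Type*} [Field K] {D : ChevalleyDatum} {T : Tbl} {hG : T.Good3 D} {Δ : Type*} [Group Δ] {wit : ℕ → ℕ × ℕ}

namespace UExt

variable {S : Sys hG K Δ} {E : Type*} [Group E] (X : UExt S E wit)

/-- The lifts of a root commute if the scalars act fully. -/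
lemma Ab_of_q {r q : ℕ} (hr : r < D.nroots) (hq : q < D.nroots) (hd : D.pairing q r = 1 ∨ D.pairing q r = -1) :
    X.Ab r := by
  have hF : ∀ u, X.p (X.f (S.y r u)) = S.y r u := fun u => X.hf _
  have hcomm : ∀ u v, S.y r u * S.y r v = S.y r v * S.y r u := fun u v => by
    rw [S.add hr, S.add hr, add_comm]
  have hcc : ∀ a b : E, ∀ u v, X.p a = S.y r u → X.p b = S.y r v → X.p ⁅a, b⁆ = 1 := by
    intro a b u v ha hb
    rw [map_commutatorElement, ha, hb]
    exact cm_eq_one (hcomm u v)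
  have hmem : ∀ u v, ⁅X.f (S.y r u), X.f (S.y r v)⁆ ∈ Subgroup.center E := fun u v =>
    Subgroup.mem_center_iff.2 (X.hc _ (hcc _ _ u v (hF u) (hF v)))
  let B : K → K → Additive (Subgroup.center E) := fun u v => Additive.ofMul ⟨_, hmem u v⟩
  have h1 : ∀ u u' v, B (u + u') v = B u v + B u' v := by
    intro u u' v
    apply Additive.toMul.injective
    apply Subtype.ext
    show ⁅X.f (S.y r (u + u')), X.f (S.y r v)⁆ = ⁅X.f (S.y r u), X.f (S.y r v)⁆ * ⁅X.f (S.y r u'), X.f (S.y r v)⁆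
    rw [← cm_mul_left (X.hc _ (hcc _ _ u' v (hF u') (hF v)))]
    apply X.cm_congr _ rfl
    rw [map_mul, hF, hF, hF, S.add hr]
  have h2 : ∀ u v v', B u (v + v') = B u v + B u v' := by
    intro u v v'
    apply Additive.toMul.injective
    apply Subtype.ext
    show ⁅X.f (S.y r u), X.f (S.y r (v + v'))⁆ = ⁅X.f (S.y r u), X.f (S.y r v)⁆ * ⁅X.f (S.y r u), X.f (S.y r v')⁆
    rw [← cm_mul_right (X.hc _ (hcc _ _ u v' (hF u) (hF v')))]
    apply X.cm_congr rfl
    rw [map_mul, hF, hF, hF, S.add hr]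
  have h3 : ∀ l : K, l ≠ 0 → ∀ u v, B (l * u) (l * v) = B u v := by
    intro l hl u v
    apply Additive.toMul.injective
    apply Subtype.ext
    show ⁅X.f (S.y r (l * u)), X.f (S.y r (l * v))⁆ = ⁅X.f (S.y r u), X.f (S.y r v)⁆
    obtain ⟨L, hL0, hL⟩ : ∃ L : K, L ≠ 0 ∧ L ^ D.pairing q r = l := by
      refine ⟨l ^ D.pairing q r, zpow_ne_zero _ hl, ?_⟩
      rw [← zpow_mul]
      rcases hd with h | h <;> rw [h] <;> simp
    have hc : ∀ w, S.hb q L * S.y r w * (S.hb q L)⁻¹ = S.y r (l * w) := by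
      intro w
      rw [S.hb_conj_y X.hW hq hr hL0, hL]
    obtain ⟨η, hη⟩ : ∃ η : E, η = X.f (S.hb q L) := ⟨_, rfl⟩
    have hηp : X.p η = S.hb q L := by rw [hη, X.hf]
    have e1 : ⁅X.f (S.y r (l * u)), X.f (S.y r (l * v))⁆ =
        ⁅η * X.f (S.y r u) * η⁻¹, η * X.f (S.y r v) * η⁻¹⁆ := by
      apply X.cm_congr
      · rw [map_mul, map_mul, map_inv, hF, hF, hηp, hc]
      · rw [map_mul, map_mul, map_inv, hF, hF, hηp, hc]
    rw [e1, ← cm_conj, X.hc _ (hcc _ _ u v (hF u) (hF v)) η]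
    group
  have hτ1 : X.τ ≠ 1 := by
    intro h
    apply X.hτ2
    rw [h, mul_one]
  have hx1 : 1 + X.τ ≠ 0 := by
    intro h
    apply X.hτ2
    have : X.τ = -1 := by linear_combination h
    rw [this]
    ring
  have hx2 : 1 + X.τ + X.τ * X.τ ≠ 0 := by
    intro h
    apply X.hτ3
    linear_combination (X.τ - 1) * h
  letI : CommGroup (Subgroup.center E) :=
    { (inferInstance : Group (Subgroup.center E)) with
      mul_comm := fun a b => Subtype.ext ((Subgroup.mem_center_iff.1 b.2) a.1) }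
  have h0 := biadd_trivial B h1 h2 h3 X.hτ0 hx1 hx2
  intro x x' u v hx hx'
  have e : ⁅x, x'⁆ = ⁅X.f (S.y r u), X.f (S.y r v)⁆ := X.cm_congr (by rw [hx, hF]) (by rw [hx', hF])
  have e2 : ⁅X.f (S.y r u), X.f (S.y r v)⁆ = 1 := by
    have := h0 u v
    have h4 := congrArg (fun z : Additive (Subgroup.center E) => ((Additive.toMul z : Subgroup.center E) : E)) this
    exact h4
  exact comm_of_cm (by rw [e, e2])

/-- Lifts of commuting letters commute, given a suitable element of the torus. -/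
lemma lift_comm {r s q : ℕ} (hr : r < D.nroots) (hs : s < D.nroots) (hq : q < D.nroots)
    (hcomm : ∀ u v, S.y r u * S.y s v = S.y s v * S.y r u) (hq0 : D.pairing q r = 0)
    (hd : X.τ ^ D.pairing q s ≠ 1) {x x' : E} {u v : K} (hx : X.p x = S.y r u) (hx' : X.p x' = S.y s v) : x * x' = x' * x := by
  obtain ⟨μ, hμdef⟩ : ∃ μ : K, μ = X.τ ^ D.pairing q s := ⟨_, rfl⟩
  have hμ1 : μ ≠ 1 := by rwa [hμdef]
  have hμ2 : μ - 1 ≠ 0 := sub_ne_zero.2 hμ1
  obtain ⟨η, hη⟩ : ∃ η : E, η = X.f (S.hb q X.τ) := ⟨_, rfl⟩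
  have hηp : X.p η = S.hb q X.τ := by rw [hη, X.hf]
  obtain ⟨v', hv'⟩ : ∃ v' : K, v' = (μ - 1)⁻¹ * v := ⟨_, rfl⟩
  obtain ⟨a, ha⟩ : ∃ a : E, a = X.f (S.y s v') := ⟨_, rfl⟩
  have hap : X.p a = S.y s v' := by rw [ha, X.hf]
  have hcc : ∀ b w, X.p b = S.y s w → ∀ c, c * ⁅x, b⁆ = ⁅x, b⁆ * c := by
    intro b w hb
    apply X.hc
    rw [map_commutatorElement, hx, hb]
    exact cm_eq_one (hcomm u w)
  have hainv : X.p a⁻¹ = S.y s (-v') := by rw [map_inv, hap, S.y_inv hs]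
  have e1 : ⁅x, x'⁆ = ⁅x, (η * a * η⁻¹) * a⁻¹⁆ := by
    apply X.cm_congr rfl
    rw [hx', map_mul, map_mul, map_mul, map_inv, map_inv, hηp, hap, S.hb_conj_y X.hW hq hs X.hτ0, ← hμdef, S.y_inv hs, S.add hs]
    congr 1
    rw [hv']
    field_simp
    ring
  have e2 : ⁅x, η * a * η⁻¹⁆ = ⁅x, a⁆ := by
    have e3 : ⁅x, η * a * η⁻¹⁆ = ⁅η * x * η⁻¹, η * a * η⁻¹⁆ := by
      apply X.cm_congr _ rfl
      rw [map_mul, map_mul, map_inv, hηp, hx, S.hb_conj_y X.hW hq hr X.hτ0, hq0, zpow_zero, one_mul]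
    rw [e3, ← cm_conj, hcc a v' hap η]
    group
  have e4 : ⁅x, a⁆ * ⁅x, a⁻¹⁆ = 1 := by
    rw [← cm_mul_right (hcc _ _ hainv), mul_inv_cancel]
    simp [commutatorElement_def]
  refine comm_of_cm ?_
  rw [e1, cm_mul_right (hcc _ _ hainv), e2, e4]

/-- The subgroup of the elements of `Δ` with lifts commuting with a given element. -/
def Cx (x : E) : Subgroup Δ := (Subgroup.centralizer {x}).map X.p

lemma mem_Cx {x : E} {g : Δ} : g ∈ X.Cx x ↔ ∀ x', X.p x' = g → x * x' = x' * x := by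
  constructor
  · rintro ⟨y, hy, rfl⟩ x' hx'
    have hy' : x * y = y * x := Subgroup.mem_centralizer_iff.1 hy x (by simp)
    obtain ⟨a, rfl⟩ : ∃ a, x' = y * a := ⟨y⁻¹ * x', by group⟩
    have h3 : X.p a = 1 := by
      rw [map_mul] at hx'
      exact mul_eq_left.1 hx'
    have hc := X.hc _ h3
    rw [← mul_assoc, hy', mul_assoc, hc x, mul_assoc]
  · intro h
    refine ⟨X.f g, ?_, X.hf g⟩
    show X.f g ∈ Subgroup.centralizer {x}
    rw [Subgroup.mem_centralizer_iff]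
    intro y hy
    rw [Set.mem_singleton_iff] at hy
    subst hy
    exact h _ (X.hf g)

/-- Hall--Witt for a pair of roots whose commutator involves the root as second term. -/
lemma Ab_of_hw {r β γ δ : ℕ} {c₁ c₂ : ℤ} (hr : r < D.nroots) (hβ : β < D.nroots) (hγ : γ < D.nroots) (hδ : δ < D.nroots)
    (h1 : γ ≠ β) (h2 : γ ≠ D.neg β) (ht : D.commTerms β γ = [(δ, c₁, 1, 1), (r, c₂, 2, 1)]) (hc₂ : c₂ = 1 ∨ c₂ = -1)
    (Lβ : ∀ (x x' : E) (u v : K), X.p x = S.y r u → X.p x' = S.y β v → x * x' = x' * x)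
    (Lγ : ∀ (x x' : E) (u v : K), X.p x = S.y r u → X.p x' = S.y γ v → x * x' = x' * x)
    (Lδ : ∀ (x x' : E) (u v : K), X.p x = S.y r u → X.p x' = S.y δ v → x * x' = x' * x) : X.Ab r := by
  intro x x' u v hx hx'
  have hβQ : ∀ w, S.y β w ∈ X.Cx x := fun w => (X.mem_Cx).2 fun y hy => Lβ x y u w hx hy
  have hγQ : ∀ w, S.y γ w ∈ X.Cx x := fun w => (X.mem_Cx).2 fun y hy => Lγ x y u w hx hy
  have hδQ : ∀ w, S.y δ w ∈ X.Cx x := fun w => (X.mem_Cx).2 fun y hy => Lδ x y u w hx hy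
  have hcc : ((c₂ : ℤ) : K) * ((c₂ : ℤ) : K) = 1 := by
    rcases hc₂ with rfl | rfl <;> simp
  have key := S.comm hβ hγ h1 h2 1 ((c₂ : K) * v)
  have e : D.commWord K β γ 1 ((c₂ : K) * v) = [(δ, (c₁ : K) * (-1) ^ 1 * ((c₂ : K) * v) ^ 1), (r, v)] := by
    unfold ChevalleyDatum.commWord
    rw [ht]
    simp only [List.map_cons, List.map_nil, pow_one, List.cons.injEq, Prod.mk.injEq, true_and, and_true]
    rw [neg_one_sq, mul_one, ← mul_assoc, hcc, one_mul]
  rw [e] at key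
  simp only [List.map_cons, List.map_nil, List.prod_cons, List.prod_nil, mul_one] at key
  have h3 : S.y r v = (S.y δ ((c₁ : K) * (-1) ^ 1 * ((c₂ : K) * v) ^ 1))⁻¹ *
      ((S.y γ ((c₂ : K) * v))⁻¹ * (S.y β 1)⁻¹ * S.y γ ((c₂ : K) * v) * S.y β 1) := by
    rw [key]
    group
  have h4 : S.y r v ∈ X.Cx x := by
    rw [h3]
    refine Subgroup.mul_mem _ (Subgroup.inv_mem _ (hδQ _)) ?_
    exact Subgroup.mul_mem _ (Subgroup.mul_mem _ (Subgroup.mul_mem _ (Subgroup.inv_mem _ (hγQ _)) (Subgroup.inv_mem _ (hβQ _))) (hγQ _)) (hβQ _)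
  exact (X.mem_Cx).1 h4 x' hx'

end UExt

end Cfsg.Agent.Lib.St
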