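/-
The section of a central extension of the group of (R1), (R2).
-/
import Cfsg.Agent.Lib.St.Univ4

set_option autoImplicit false

namespace Cfsg.Agent.Lib.St

open Cfsg Cfsg.Lie Cfsg.Agent.Lib.Chev
open scoped commutatorElement

variable {K : Type*} [Field K] {D : ChevalleyDatum} {T : Tbl} {wit : ℕ → ℕ × ℕ}

/-- Commutators in a central extension. -/
lemma cm_congr_gen {E G : Type*} [Group E] [Group G] {π : E →* G} (hc : π.ker ≤ Subgroup.center E) {x x' y y' : E}
    (h1 : π x = π x') (h2 : π y = π y') : ⁅x, y⁆ = ⁅x', y'⁆ := by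
  have e1 : x' = x * (x⁻¹ * x') := by group
  have e2 : y' = y * (y⁻¹ * y') := by group
  have h3 : x⁻¹ * x' ∈ π.ker := by rw [MonoidHom.mem_ker, map_mul, map_inv, h1, inv_mul_cancel]
  have h4 : y⁻¹ * y' ∈ π.ker := by rw [MonoidHom.mem_ker, map_mul, map_inv, h2, inv_mul_cancel]
  rw [e1, e2, cm_mul_central_left (Subgroup.mem_center_iff.1 (hc h3)), cm_mul_central_right (Subgroup.mem_center_iff.1 (hc h4))]

/-- The parameter `τ`. -/
lemma exists_tau (h : ∃ s : Finset K, 4 < s.card) : ∃ τ : K, τ ≠ 0 ∧ τ * τ ≠ 1 ∧ τ * τ * τ ≠ 1 := by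
  classical
  by_cases hfin : Finite K
  · haveI := hfin
    haveI := Fintype.ofFinite K
    obtain ⟨g, hg⟩ := IsCyclic.exists_generator (α := Kˣ)
    have hord : orderOf g = Nat.card Kˣ := orderOf_eq_card_of_forall_mem_zpowers hg
    obtain ⟨s, hs⟩ := h
    have h1 : s.card ≤ Fintype.card K := Finset.card_le_univ s
    have h2 : Fintype.card Kˣ = Fintype.card K - 1 := Fintype.card_units K
    have h3 : 4 ≤ orderOf g := by
      rw [hord, Nat.card_eq_fintype_card, h2]
      omega
    refine ⟨g, g.ne_zero, ?_, ?_⟩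
    · intro h
      have h4 : g ^ 2 = 1 := Units.ext (by rw [Units.val_pow_eq_pow_val, Units.val_one, pow_two]; exact h)
      have := Nat.le_of_dvd (by norm_num) (orderOf_dvd_of_pow_eq_one h4)
      omega
    · intro h
      have h4 : g ^ 3 = 1 := Units.ext (by
        rw [Units.val_pow_eq_pow_val, Units.val_one]
        rw [← h]
        ring)
      have := Nat.le_of_dvd (by norm_num) (orderOf_dvd_of_pow_eq_one h4)
      omega
  · haveI : Infinite K := not_finite_iff_infinite.1 hfin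
    obtain ⟨t, ht⟩ := Infinite.exists_notMem_finset (insert (0 : K) (Polynomial.nthRoots 6 (1 : K)).toFinset)
    rw [Finset.mem_insert, not_or, Multiset.mem_toFinset, Polynomial.mem_nthRoots (by norm_num)] at ht
    refine ⟨t, ht.1, ?_, ?_⟩
    · intro h
      apply ht.2
      calc t ^ 6 = (t * t) ^ 3 := by ring
        _ = 1 := by rw [h, one_pow]
    · intro h
      apply ht.2
      calc t ^ 6 = (t * t * t) ^ 2 := by ring
        _ = 1 := by rw [h, one_pow]

section Section

variable {hG : T.Good3 D} {E : Type*} [Group E]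

/-- The images of the generators. -/
noncomputable def secF {S : Sys hG K (D.SteinbergCover K)} (X : UExt S E wit) : Fin D.nroots × K → E := fun p => X.Y p.1.1 p.2

variable {S : Sys hG K (D.SteinbergCover K)} (X : UExt S E wit)

lemma lift_stX' {r : ℕ} (hr : r < D.nroots) (t : K) : FreeGroup.lift (secF X) (D.stX r t) = X.Y r t := by
  unfold ChevalleyDatum.stX
  rw [dif_pos hr, FreeGroup.lift_apply_of]
  rfl

lemma lift_stWord' (w : List (ℕ × K)) (hw : ∀ p ∈ w, p.1 < D.nroots) :
    FreeGroup.lift (secF X) (D.stWord w) = X.YW w := by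
  induction w with
  | nil => simp [ChevalleyDatum.stWord]
  | cons p w ih =>
    have hp := hw p (by simp)
    have e : D.stWord (p :: w) = D.stX p.1 p.2 * D.stWord w := by
      simp [ChevalleyDatum.stWord]
    rw [e, map_mul, lift_stX' X hp, ih fun q hq => hw q (List.mem_cons_of_mem _ hq), UExt.YW_cons]

/-- The relators hold for the lifts. -/
lemma lift_sec (hAb : ∀ r, r < D.nroots → X.Ab r)
    (hq : ∀ r s, D.nroots / 2 ≤ r → r < s → s < D.nroots → ∃ q, q < D.nroots ∧ D.pairing q r = 0 ∧ X.τ ^ D.pairing q s ≠ 1)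
    {bw : ℕ → ℕ → List ℕ} (hb : T.chkU3 bw = true) :
    ∀ g ∈ D.steinbergRelsAB K, FreeGroup.lift (secF X) g = 1 := by
  rintro g (⟨r, t₁, t₂, hr, rfl⟩ | ⟨r, s, t, u, hr, hs, h1, h2, rfl⟩)
  · simp only [map_mul, map_inv, lift_stX' X hr, X.Y_add hr (hAb r hr), mul_inv_cancel]
  · simp only [map_mul, map_inv, lift_stX' X hr, lift_stX' X hs, lift_stWord' X _ (commWord_range hG hr hs t u)]
    rw [mul_inv_eq_one]
    exact X.comm_all hAb hq hb hr hs h1 h2 t u

/-- The section. -/
noncomputable def secHom (hAb : ∀ r, r < D.nroots → X.Ab r)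
    (hq : ∀ r s, D.nroots / 2 ≤ r → r < s → s < D.nroots → ∃ q, q < D.nroots ∧ D.pairing q r = 0 ∧ X.τ ^ D.pairing q s ≠ 1)
    {bw : ℕ → ℕ → List ℕ} (hb : T.chkU3 bw = true) : D.SteinbergCover K →* E :=
  PresentedGroup.toGroup (lift_sec X hAb hq hb)

lemma secHom_spec (hS : ∀ (p : Fin D.nroots × K), S.y p.1.1 p.2 = PresentedGroup.of p) (hAb : ∀ r, r < D.nroots → X.Ab r)
    (hq : ∀ r s, D.nroots / 2 ≤ r → r < s → s < D.nroots → ∃ q, q < D.nroots ∧ D.pairing q r = 0 ∧ X.τ ^ D.pairing q s ≠ 1)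
    {bw : ℕ → ℕ → List ℕ} (hb : T.chkU3 bw = true) : X.p.comp (secHom X hAb hq hb) = MonoidHom.id _ := by
  apply PresentedGroup.ext
  intro p
  simp only [MonoidHom.comp_apply, MonoidHom.id_apply, secHom, PresentedGroup.toGroup.of]
  show X.p (X.Y p.1.1 p.2) = _
  rw [X.p_Y p.1.2, hS]

end Section

end Cfsg.Agent.Lib.St
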