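/-
Central extensions of a group with the relations (R1), (R2), with no hypothesis on the field: the checks and the lifts.
-/
import Cfsg.Agent.Lib.St.HW2
import Cfsg.Agent.Lib.St.UnivSec

set_option autoImplicit false

namespace Cfsg.Agent.Lib.Chev.Tbl

/-- The head of a list of terms. -/
noncomputable def headQ (l : List (ℕ × ℤ × ℕ × ℕ)) : ℕ :=
  List.rec (motive := fun _ => ℕ) 0 (fun a _ _ => a.1) l

/-- The commutator has one term, of coefficient ±1. -/
noncomputable def single1 (l : List (ℕ × ℤ × ℕ × ℕ)) (q : ℕ) : Bool :=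
  or (decide (l = [(q, 1, 1, 1)])) (decide (l = [(q, -1, 1, 1)]))

/-- The shape of the commutators of the simply laced types. -/
noncomputable def shape1 (l : List (ℕ × ℤ × ℕ × ℕ)) : Bool :=
  or (isNilF l) (single1 l (headQ l))

variable (T : Tbl)

/-- A decomposition of a root. -/
noncomputable def decW (q a b : ℕ) : Bool :=
  and (not (Nat.beq a b)) (and (not (Nat.beq a (T.neg b))) (single1 (T.commF b a) q))

/-- Commuting letters. -/
noncomputable def lcP (x y : ℕ) : Bool :=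
  or (Nat.beq x y) (and (not (Nat.beq y (T.neg x))) (isNilF (T.commF x y)))

/-- A decomposition whose terms commute with `s`. -/
noncomputable def lcB (s q a b : ℕ) : Bool :=
  and (T.decW q a b) (and (T.lcP s a) (T.lcP s b))

/-- There is a decomposition of `q` whose terms commute with `s`. -/
noncomputable def findLC (s q : ℕ) : Bool :=
  Nat.blt (firstI T.n fun a => Nat.blt (firstI T.n fun b => T.lcB s q a b) T.n) T.n

/-- All the commutators have the shape of the simply laced types. -/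
noncomputable def chkC1 : Bool :=
  allBelow T.n fun r => allBelow T.n fun s => or (or (Nat.beq s r) (Nat.beq s (T.neg r))) (shape1 (T.commF r s))

/-- The dominant roots. -/
noncomputable def chkB0 : Bool :=
  allBelow T.n fun r => or (Nat.blt (T.pickA r) T.l) (T.findLC r r)

/-- The base pairs. -/
noncomputable def chkB1 : Bool :=
  allBelow T.n fun r => or (Nat.blt (T.pickA r) T.l) <| allBelow T.n fun s =>
    or (or (Nat.beq s r) (Nat.beq s (T.neg r))) <| or (Nat.blt (T.pickB r s) T.l) <|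
    or (not (isNilF (T.commF r s))) <| or (T.findLC r s) (T.findLC s r)

/-- A move. -/
noncomputable def moveOK (q a₀ b₀ a b : ℕ) (m : ℕ × ℕ × ℕ) : Bool :=
  and (Nat.blt m.1 T.n) <| and (Nat.blt m.2.1 T.n) <| and (Nat.blt m.2.2 T.n) <|
  and (T.decW m.2.1 a m.1) <| and (T.decW b m.1 m.2.2) <| and (T.decW q m.2.1 m.2.2) <|
  and (T.lcP a m.2.2) <| and (T.lcP m.2.1 b) <| and (T.lcP q b) <|
  or (and (Nat.beq a a₀) (Nat.beq b b₀)) (Nat.blt m.2.1 a)

/-- Lookup of a move. -/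
noncomputable def mvOf (mv : List (ℕ × ℕ × ℕ × ℕ)) (a : ℕ) : ℕ × ℕ × ℕ :=
  foldrF (fun e acc => cond (Nat.beq e.1 a) e.2 acc) (0, 0, 0) mv

/-- All moves. -/
noncomputable def chkMove (q a₀ b₀ : ℕ) (mv : List (ℕ × ℕ × ℕ × ℕ)) : Bool :=
  allBelow T.n fun a => allBelow T.n fun b => or (not (T.decW q a b)) (T.moveOK q a₀ b₀ a b (mvOf mv a))

/-- All the checks. -/
noncomputable def chkHW (ρ a₀ b₀ : ℕ) (mv : List (ℕ × ℕ × ℕ × ℕ)) : Bool :=
  and (allBelow T.n fun r => or (Nat.blt (T.pickA r) T.l) (Nat.beq r ρ)) <|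
  and (Nat.blt ρ T.n) <| and (Nat.blt a₀ T.n) <| and (Nat.blt b₀ T.n) <|
  and (T.decW ρ a₀ b₀) <| and (T.lcP a₀ ρ) <| and T.chkC1 <| and T.chkB0 <| and T.chkB1 <| T.chkMove ρ a₀ b₀ mv

variable {T}

lemma isNilF_spec {α : Type*} {l : List α} (h : isNilF l = true) : l = [] := by
  cases l with
  | nil => rfl
  | cons a l => exact absurd h (by simp [isNilF])

lemma isNilF_nil {α : Type*} : isNilF ([] : List α) = true := rfl

lemma single1_spec {l : List (ℕ × ℤ × ℕ × ℕ)} {q : ℕ} (h : single1 l q = true) :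
    ∃ C : ℤ, l = [(q, C, 1, 1)] ∧ (C = 1 ∨ C = -1) := by
  unfold single1 at h
  rw [Bool.or_eq_true, decide_eq_true_eq, decide_eq_true_eq] at h
  rcases h with h | h
  · exact ⟨1, h, Or.inl rfl⟩
  · exact ⟨-1, h, Or.inr rfl⟩

lemma shape1_spec {l : List (ℕ × ℤ × ℕ × ℕ)} (h : shape1 l = true) :
    l = [] ∨ ∃ (q : ℕ) (C : ℤ), l = [(q, C, 1, 1)] ∧ (C = 1 ∨ C = -1) := by
  unfold shape1 at h
  rw [Bool.or_eq_true] at h
  rcases h with h | h
  · exact Or.inl (isNilF_spec h)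
  · exact Or.inr ⟨_, single1_spec h⟩

lemma single1_of {q : ℕ} {C : ℤ} (h : C = 1 ∨ C = -1) : single1 [(q, C, 1, 1)] q = true := by
  unfold single1
  rcases h with rfl | rfl <;> simp

/-- Splitting the checks. -/
lemma chkHW_spec {ρ a₀ b₀ : ℕ} {mv : List (ℕ × ℕ × ℕ × ℕ)} (h : T.chkHW ρ a₀ b₀ mv = true) :
    (allBelow T.n fun r => or (Nat.blt (T.pickA r) T.l) (Nat.beq r ρ)) = true ∧ ρ < T.n ∧ a₀ < T.n ∧ b₀ < T.n ∧
      T.decW ρ a₀ b₀ = true ∧ T.lcP a₀ ρ = true ∧ T.chkC1 = true ∧ T.chkB0 = true ∧ T.chkB1 = true ∧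
      T.chkMove ρ a₀ b₀ mv = true := by
  unfold chkHW at h
  simp only [Bool.and_eq_true] at h
  obtain ⟨h1, h2, h3, h4, h5, h6, h7, h8, h9, h10⟩ := h
  exact ⟨h1, Nat.le_of_ble_eq_true h2, Nat.le_of_ble_eq_true h3, Nat.le_of_ble_eq_true h4, h5, h6, h7, h8, h9, h10⟩

lemma moveOK_spec {q a₀ b₀ a b : ℕ} {m : ℕ × ℕ × ℕ} (h : T.moveOK q a₀ b₀ a b m = true) :
    m.1 < T.n ∧ m.2.1 < T.n ∧ m.2.2 < T.n ∧ T.decW m.2.1 a m.1 = true ∧ T.decW b m.1 m.2.2 = true ∧
      T.decW q m.2.1 m.2.2 = true ∧ T.lcP a m.2.2 = true ∧ T.lcP m.2.1 b = true ∧ T.lcP q b = true ∧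
      ((a = a₀ ∧ b = b₀) ∨ m.2.1 < a) := by
  unfold moveOK at h
  simp only [Bool.and_eq_true, Bool.or_eq_true] at h
  obtain ⟨h1, h2, h3, h4, h5, h6, h7, h8, h9, h10⟩ := h
  refine ⟨Nat.le_of_ble_eq_true h1, Nat.le_of_ble_eq_true h2, Nat.le_of_ble_eq_true h3, h4, h5, h6, h7, h8, h9, ?_⟩
  rcases h10 with ⟨h11, h12⟩ | h11
  · exact Or.inl ⟨Nat.eq_of_beq_eq_true h11, Nat.eq_of_beq_eq_true h12⟩
  · exact Or.inr (Nat.le_of_ble_eq_true h11)

end Cfsg.Agent.Lib.Chev.Tbl

namespace Cfsg.Agent.Lib.St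

open Cfsg Cfsg.Lie Cfsg.Agent.Lib.Chev
open scoped commutatorElement

variable {K : Type*} [Field K] {D : ChevalleyDatum} {T : Tbl} {hG : T.Good3 D} {Δ : Type*} [Group Δ]
  {wit : ℕ → ℕ × ℕ}

namespace Sys

variable (S : Sys hG K Δ)

/-- From the table to the decompositions. -/
lemma dec_of_decW {q a b : ℕ} (hq : q < D.nroots) (ha : a < D.nroots) (hb : b < D.nroots) (h : T.decW q a b = true) :
    S.Dec q a b := by
  have hT := hG.correct
  unfold Tbl.decW at h
  simp only [Bool.and_eq_true, Bool.not_eq_true'] at h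
  obtain ⟨h1, h2, h3⟩ := h
  obtain ⟨C, e, hC⟩ := Tbl.single1_spec h3
  have h4 : D.commTerms b a = [(q, C, 1, 1)] := by
    rw [Tbl.commT_eq hT hG.sane hb ha, ← Tbl.commF_eq, e]
  refine S.dec_of_terms hq ha hb (Nat.ne_of_beq_eq_false h1) ?_ h4 hC
  rw [← hT.neg_eq b hb]
  exact Nat.ne_of_beq_eq_false h2

/-- From the decompositions to the table. -/
lemma decW_of_dec (hC : T.chkC1 = true) {q a b : ℕ} (h : S.Dec q a b) : T.decW q a b = true := by
  have hT := hG.correct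
  obtain ⟨hq, ha, hb, h1, h2, c, hc, e⟩ := h
  have h3 := allBelow_spec (allBelow_spec hC b (hG.lt_n hb)) a (hG.lt_n ha)
  have h4 : Nat.beq a b = false := Tbl.beq_false h1
  have h5 : Nat.beq a (T.neg b) = false := Tbl.beq_false (by rw [hT.neg_eq b hb]; exact h2)
  rw [h4, h5] at h3
  simp only [Bool.or_false, Bool.false_or] at h3
  have e1 := e 1 1
  rw [S.cm_y ha hb h1 h2, mul_one, mul_one] at e1
  have e2 : T.commF b a = D.commTerms b a := by
    rw [Tbl.commT_eq hT hG.sane hb ha, ← Tbl.commF_eq]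
  unfold ChevalleyDatum.commWord at e1
  rw [← e2] at e1
  have hy : ∀ {r r' : ℕ} {t t' : K}, r < D.nroots → r' < D.nroots → t ≠ 0 → S.y r t = S.y r' t' → r = r' := by
    intro r r' t t' hr hr' ht h
    have h6 := congrArg S.θ h
    rw [S.θ_y hr, S.θ_y hr'] at h6
    have h7 := congrArg (fun g : GL D.Idx K => (g : Matrix D.Idx D.Idx K)) h6
    simp only [Tbl.Good.xU_coe] at h7
    exact hG.x_root_unique hr hr' ht h7
  rcases Tbl.shape1_spec h3 with h6 | ⟨q', C, h6, hC'⟩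
  · rw [h6] at e1
    simp only [List.map_nil, Sys.yw_nil] at e1
    exact absurd (S.y_inj hq ((S.y_zero hq).trans e1)).symm hc
  · rw [h6] at e1
    simp only [List.map_cons, List.map_nil, pow_one, Sys.yw_cons, Sys.yw_nil, mul_one] at e1
    have hq' : q' < D.nroots := by
      have := commWord_range hG hb ha (K := K) 1 1
      unfold ChevalleyDatum.commWord at this
      rw [← e2, h6] at this
      simpa using this
    have h7 := hy hq hq' hc e1.symm
    subst h7
    unfold Tbl.decW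
    rw [h4, h5, h6]
    simp only [Bool.not_false, Bool.true_and]
    exact Tbl.single1_of hC'

lemma dc_of_lcP {s a : ℕ} (hs : s < D.nroots) (ha : a < D.nroots) (h : T.lcP s a = true) : S.DC s a := by
  have hT := hG.correct
  unfold Tbl.lcP at h
  rw [Bool.or_eq_true, Bool.and_eq_true, Bool.not_eq_true'] at h
  rcases h with h | ⟨h1, h2⟩
  · have := Nat.eq_of_beq_eq_true h
    subst this
    exact S.DC_self hs
  · by_cases h3 : s = a
    · subst h3
      exact S.DC_self hs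
    · have h4 := Tbl.isNilF_spec h2
      refine S.DC_of_nil hs ha (Ne.symm h3) ?_ ?_
      · rw [← hT.neg_eq s hs]
        exact Nat.ne_of_beq_eq_false h1
      · rw [Tbl.commT_eq hT hG.sane hs ha, ← Tbl.commF_eq, h4]

end Sys

namespace HExt

variable {S : Sys hG K Δ} {E : Type*} [Group E] (X : HExt S E wit)

lemma findLC_spec {s q : ℕ} (hs : s < D.nroots) (hq : q < D.nroots) (h : T.findLC s q = true) : X.LC s q := by
  unfold Tbl.findLC at h
  have h1 : _ < T.n := Nat.le_of_ble_eq_true h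
  have h2 := firstI_spec h1
  have h3 : _ < T.n := Nat.le_of_ble_eq_true h2
  have h4 := firstI_spec h3
  generalize (firstI T.n fun b => T.lcB s q (firstI T.n fun a => Nat.blt (firstI T.n fun b => T.lcB s q a b) T.n) b) = b at h3 h4
  generalize (firstI T.n fun a => Nat.blt (firstI T.n fun b => T.lcB s q a b) T.n) = a at h1 h3 h4
  unfold Tbl.lcB at h4
  simp only [Bool.and_eq_true] at h4
  obtain ⟨h5, h6, h7⟩ := h4
  have ha := hG.n_lt h1
  have hb := hG.n_lt h3
  exact X.lc_of_dec (S.dec_of_decW hq ha hb h5) (S.dc_of_lcP hs ha h6) (S.dc_of_lcP hs hb h7)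

lemma pick_of_not {r s : ℕ} (h : ¬ T.pickA r < T.l) : T.pick r s = T.pickB r s := by
  unfold Tbl.pick
  rw [Tbl.blt_false h]
  rfl

lemma not_pickA {r s : ℕ} (h : ¬ T.pick r s < T.l) : ¬ T.pickA r < T.l := by
  intro h1
  apply h
  unfold Tbl.pick
  rw [Tbl.blt_true h1]
  exact h1

/-- Commuting lifts, from the checks. -/
theorem lc_of_lcP (h0 : T.chkB0 = true) (h1 : T.chkB1 = true) {x y : ℕ} (hx : x < D.nroots) (hy : y < D.nroots)
    (h : T.lcP x y = true) : X.LC x y := by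
  have hT := hG.correct
  have hA : ∀ r, r < D.nroots → X.LC r r := fun r hr => X.ab_all (fun r hr hn => by
    have h2 := allBelow_spec h0 r (hG.lt_n hr)
    rw [Bool.or_eq_true] at h2
    rcases h2 with h2 | h2
    · exact absurd (Nat.le_of_ble_eq_true h2) hn
    · exact X.findLC_spec hr hr h2) hr
  by_cases e : x = y
  · subst e
    exact hA x hx
  unfold Tbl.lcP at h
  rw [Tbl.beq_false e, Bool.false_or, Bool.and_eq_true, Bool.not_eq_true'] at h
  obtain ⟨h3, h4⟩ := h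
  have h5 := Tbl.isNilF_spec h4
  have h6 : D.commTerms x y = [] := by
    rw [Tbl.commT_eq hT hG.sane hx hy, ← Tbl.commF_eq, h5]
  refine X.lc_all ?_ hx hy (Ne.symm e) ?_ h6
  · intro r s hr hs hsr hsn ht hp
    have hp' := not_pickA hp
    have h7 := allBelow_spec h1 r (hG.lt_n hr)
    rw [Tbl.blt_false hp', Bool.false_or] at h7
    have h8 := allBelow_spec h7 s (hG.lt_n hs)
    rw [pick_of_not hp'] at hp
    rw [Tbl.beq_false hsr, Tbl.beq_false (by rw [hT.neg_eq r hr]; exact hsn), Tbl.blt_false hp] at h8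
    have h9 : isNilF (T.commF r s) = true := by
      rw [Tbl.commF_eq, ← Tbl.commT_eq hT hG.sane hr hs, ht]
      rfl
    rw [h9] at h8
    simp only [Bool.or_false, Bool.false_or, Bool.not_true, Bool.or_eq_true] at h8
    rcases h8 with h8 | h8
    · exact X.findLC_spec hr hs h8
    · exact (X.findLC_spec hs hr h8).symm
  · rw [← hT.neg_eq x hx]
    exact Nat.ne_of_beq_eq_false h3

/-- The comparison of the decompositions of the dominant root. -/
theorem p_lemma {ρ a₀ b₀ : ℕ} {mv : List (ℕ × ℕ × ℕ × ℕ)} (h : T.chkHW ρ a₀ b₀ mv = true) :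
    ∀ a b, S.Dec ρ a b → ∃ κ : K, κ ≠ 0 ∧ ∀ t u : K,
      ⁅X.f (S.y a t), X.f (S.y b u)⁆ = ⁅X.f (S.y a₀ (κ * (t * u))), X.f (S.y b₀ 1)⁆ := by
  obtain ⟨_, hρ, _, _, _, _, hC, h0, h1, hM⟩ := Tbl.chkHW_spec h
  have hρ' := hG.n_lt hρ
  intro a
  induction a using Nat.strong_induction_on with
  | _ a ih =>
    intro b hd
    have hw := S.decW_of_dec hC hd
    have ha := hd.2.1
    have hb := hd.2.2.1
    have h2 := allBelow_spec (allBelow_spec hM a (hG.lt_n ha)) b (hG.lt_n hb)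
    rw [hw] at h2
    simp only [Bool.not_true, Bool.false_or] at h2
    obtain ⟨m1, m2, m3, d1, d2, d3, l1, l2, l3, hor⟩ := Tbl.moveOK_spec h2
    generalize Tbl.mvOf mv a = m at *
    obtain ⟨δ, a', b'⟩ := m
    simp only at m1 m2 m3 d1 d2 d3 l1 l2 l3 hor
    have m1' := hG.n_lt m1
    have m2' := hG.n_lt m2
    have m3' := hG.n_lt m3
    have D1 := S.dec_of_decW m2' ha m1' d1
    have D2 := S.dec_of_decW hb m1' m3' d2
    have D3 := S.dec_of_decW hρ' m2' m3' d3
    obtain ⟨κ, hκ, e⟩ := X.move' D1 D2 D3 (X.lc_of_lcP h0 h1 ha m3' l1) (X.lc_of_lcP h0 h1 m2' hb l2)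
      (X.lc_of_lcP h0 h1 hρ' hb l3)
    rcases hor with ⟨rfl, rfl⟩ | hlt
    · refine ⟨1, one_ne_zero, fun t u => ?_⟩
      rw [e t u, e (1 * (t * u)) 1]
      have e3 : κ * (1 * (t * u) * 1) = κ * (t * u) := by ring
      rw [e3]
    · obtain ⟨κ', hκ', e'⟩ := ih a' hlt b' D3
      refine ⟨κ' * κ, mul_ne_zero hκ' hκ, fun t u => ?_⟩
      rw [e t u, e' (κ * (t * u)) 1]
      have e3 : κ' * (κ * (t * u) * 1) = κ' * κ * (t * u) := by ring
      rw [e3]

/-- The decompositions with a commuting lift. -/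
def GD (q : ℕ) : Prop := ∃ a b, S.Dec q a b ∧ X.LC a q

theorem gd_all {ρ a₀ b₀ : ℕ} {mv : List (ℕ × ℕ × ℕ × ℕ)} (h : T.chkHW ρ a₀ b₀ mv = true) {r : ℕ} (hr : r < D.nroots) :
    X.GD r := by
  obtain ⟨hd, hρ, ha, hb, hde, hl, hC, h0, h1, hM⟩ := Tbl.chkHW_spec h
  have hρ' := hG.n_lt hρ
  have ha' := hG.n_lt ha
  have hb' := hG.n_lt hb
  refine hG.toGood2.toGood.root_induction (fun r => r < D.nroots → X.GD r) (fun r hr' h _ => ?_) ?_
    r (hG.lt_n hr) hr
  · have h2 := allBelow_spec hd r hr'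
    rw [Tbl.blt_false h, Bool.false_or] at h2
    have h3 := Nat.eq_of_beq_eq_true h2
    subst h3
    exact ⟨a₀, b₀, S.dec_of_decW hρ' ha' hb' hde, X.lc_of_lcP h0 h1 ha' hρ' hl⟩
  · intro i r hi hr' h _
    have hi' := hG.l_lt hi
    have hr2 := hG.n_lt hr'
    obtain ⟨a, b, h2, h3⟩ := h hr2
    have hF := hG.facts
    refine ⟨T.refl i a, T.refl i b, Sys.Dec.refl X.hW hi' h2, ?_⟩
    refine X.lc_refl hi' (hG.refl_lt' hi' h2.2.1) (hG.refl_lt' hi' hr2) ?_
    rw [hF.refl_refl i a hi (hG.lt_n h2.2.1), hF.refl_refl i r hi hr']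
    exact h3

/-- All the lifts, with their relations. -/
theorem exists_Y_rel {ρ a₀ b₀ : ℕ} {mv : List (ℕ × ℕ × ℕ × ℕ)} (h : T.chkHW ρ a₀ b₀ mv = true) :
    ∃ Y : ℕ → K → E, (∀ r, r < D.nroots → ∀ w, X.p (Y r w) = S.y r w) ∧
      (∀ r, r < D.nroots → ∀ t u, Y r (t + u) = Y r t * Y r u) ∧
      ∀ r s, r < D.nroots → s < D.nroots → s ≠ r → s ≠ D.neg r → ∀ t u : K,
        (Y s u)⁻¹ * (Y r t)⁻¹ * Y s u * Y r t = ((D.commWord K r s t u).map fun p => Y p.1 p.2).prod := by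
  obtain ⟨hd, hρ, ha, hb, hde, hl, hC, h0, h1, hM⟩ := Tbl.chkHW_spec h
  have hT := hG.correct
  have hρ' := hG.n_lt hρ
  have ha' := hG.n_lt ha
  have hb' := hG.n_lt hb
  have hbase := S.dec_of_decW (K := K) hρ' ha' hb' hde
  have hU : ∀ q, q < D.nroots → X.Uq q := fun q hq => X.uq_all (fun r hr hn => by
    have h2 := allBelow_spec hd r (hG.lt_n hr)
    rw [Tbl.blt_false hn, Bool.false_or] at h2
    have h3 := Nat.eq_of_beq_eq_true h2
    subst h3
    exact X.uq_of_base hbase (X.p_lemma h)) hq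
  have hGD : ∀ q, q < D.nroots → X.GD q := fun q hq => X.gd_all h hq
  obtain ⟨Y, hY⟩ := X.exists_Y hU (fun q hq => by
    obtain ⟨a, b, h2, _⟩ := hGD q hq
    exact ⟨a, b, h2⟩)
  have pY : ∀ r, r < D.nroots → ∀ w, X.p (Y r w) = S.y r w := fun r hr => (hY r hr).1
  have hLC : ∀ {x y : ℕ}, x < D.nroots → y < D.nroots → T.lcP x y = true → X.LC x y :=
    fun hx hy h => X.lc_of_lcP h0 h1 hx hy h
  have hself : ∀ r, r < D.nroots → X.LC r r := fun r hr => hLC hr hr (by simp [Tbl.lcP])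
  have hadd : ∀ r, r < D.nroots → ∀ t u, Y r (t + u) = Y r t * Y r u := by
    intro q hq w w'
    obtain ⟨a, b, hdq, hlc⟩ := hGD q hq
    obtain ⟨_, hA, hB, _, _, c, hc, e⟩ := id hdq
    have hcc : c * c⁻¹ = 1 := mul_inv_cancel₀ hc
    have key : ∀ w, Y q w = ⁅X.f (S.y a (c⁻¹ * w)), X.f (S.y b 1)⁆ := by
      intro w
      symm
      refine (hY q hq).2 a b _ _ _ hdq ?_
      rw [e]
      congr 1
      linear_combination w * hcc
    obtain ⟨A, eA⟩ : ∃ A, A = X.f (S.y a (c⁻¹ * w)) := ⟨_, rfl⟩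
    obtain ⟨A', eA'⟩ : ∃ A', A' = X.f (S.y a (c⁻¹ * w')) := ⟨_, rfl⟩
    obtain ⟨B, eB⟩ : ∃ B, B = X.f (S.y b 1) := ⟨_, rfl⟩
    have pA : X.p A = S.y a (c⁻¹ * w) := by rw [eA, X.hf]
    have pA' : X.p A' = S.y a (c⁻¹ * w') := by rw [eA', X.hf]
    rw [key, key, key, ← eA, ← eA', ← eB]
    have e1 : ⁅X.f (S.y a (c⁻¹ * (w + w'))), B⁆ = ⁅A * A', B⁆ := by
      apply X.cm_congr
      · rw [map_mul, pA, pA', X.hf, S.add hA, mul_add]
      · rfl
    have e2 : ⁅A * A', B⁆ = A * ⁅A', B⁆ * A⁻¹ * ⁅A, B⁆ := by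
      simp only [commutatorElement_def]
      group
    have pcA : X.p ⁅A, B⁆ = S.y q w := by
      rw [← pY q hq w, key, ← eA, ← eB]
    have pcA' : X.p ⁅A', B⁆ = S.y q w' := by
      rw [← pY q hq w', key, ← eA', ← eB]
    rw [e1, e2, hlc A _ _ _ pA pcA', mul_inv_cancel_right]
    exact hself q hq _ _ _ _ pcA' pcA
  have hzero : ∀ r, r < D.nroots → Y r 0 = 1 := by
    intro r hr
    have := hadd r hr 0 0
    rw [add_zero] at this
    exact mul_eq_left.1 this.symm
  have hinv : ∀ r, r < D.nroots → ∀ t, (Y r t)⁻¹ = Y r (-t) := by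
    intro r hr t
    rw [inv_eq_iff_mul_eq_one, ← hadd r hr, add_neg_cancel, hzero r hr]
  refine ⟨Y, pY, hadd, fun r s hr hs h1' h2' t u => ?_⟩
  have hcomm := S.comm hr hs h1' h2' t u
  have hS := allBelow_spec (allBelow_spec hC r (hG.lt_n hr)) s (hG.lt_n hs)
  rw [Tbl.beq_false h1', Tbl.beq_false (by rw [hT.neg_eq r hr]; exact h2')] at hS
  simp only [Bool.or_false, Bool.false_or] at hS
  have e2 : T.commF r s = D.commTerms r s := by
    rw [Tbl.commT_eq hT hG.sane hr hs, ← Tbl.commF_eq]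
  have e3 : (Y s u)⁻¹ * (Y r t)⁻¹ * Y s u * Y r t = ⁅(Y s u)⁻¹, (Y r t)⁻¹⁆ := by
    simp only [commutatorElement_def, inv_inv]
  rw [e3]
  rw [e2] at hS
  rcases Tbl.shape1_spec hS with h6 | ⟨q, C, h6, hC'⟩
  · have e4 : D.commWord K r s t u = [] := by
      unfold ChevalleyDatum.commWord
      rw [h6]
      rfl
    rw [e4, List.map_nil, List.prod_nil]
    apply cm_eq_one
    have h7 : T.lcP r s = true := by
      unfold Tbl.lcP
      have h8 : isNilF (T.commF r s) = true := by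
        rw [e2, h6]
        rfl
      have h10 : Nat.beq s (T.neg r) = false := Tbl.beq_false (by rw [hT.neg_eq r hr]; exact h2')
      rw [h10, h8]
      simp
    have h9 := hLC hr hs h7
    exact (h9 _ _ (-t) (-u) (by rw [map_inv, pY r hr, S.y_inv hr]) (by rw [map_inv, pY s hs, S.y_inv hs])).symm
  · have e4 : ∃ w, D.commWord K r s t u = [(q, w)] := by
      unfold ChevalleyDatum.commWord
      rw [h6]
      exact ⟨_, rfl⟩
    obtain ⟨w, e4⟩ := e4
    rw [e4] at hcomm ⊢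
    have hq : q < D.nroots := by
      have := commWord_range hG hr hs (K := K) t u
      rw [e4] at this
      exact this (q, w) (by simp)
    simp only [List.map_cons, List.map_nil, List.prod_cons, List.prod_nil, mul_one] at hcomm ⊢
    have hdq : S.Dec q s r := S.dec_of_terms hq hs hr h1' h2' h6 hC'
    have h7 := (hY q hq).2 s r (-u) (-t) w hdq (by
      rw [← S.y_inv hs, ← S.y_inv hr, commutatorElement_def, inv_inv, inv_inv]
      exact hcomm)
    rw [← h7]
    apply X.cm_congr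
    · rw [map_inv, pY s hs, X.hf, S.y_inv hs]
    · rw [map_inv, pY r hr, X.hf, S.y_inv hr]

end HExt

end Cfsg.Agent.Lib.St
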