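/-
The Hall--Witt checks for the types E₆, E₇, E₈.
-/
import Cfsg.Agent.Lib.St.HW3
import Cfsg.Agent.Lib.St.TAll

set_option autoImplicit false
set_option maxRecDepth 100000
set_option maxHeartbeats 0

namespace Cfsg.Agent.Lib.St

open Cfsg Cfsg.Lie Cfsg.Agent.Lib.Chev

theorem hwE6 : digE6.tbl.chkHW 71 46 70
    [(46, 39, 47, 69), (47, 32, 46, 70), (48, 31, 46, 70), (49, 30, 46, 70), (50, 28, 46, 70), (51, 27, 46, 70), (52, 26, 46, 70), (53, 27, 47, 69), (54, 26, 47, 69), (55, 26, 48, 68), (61, 13, 46, 70), (62, 12, 46, 70), (63, 11, 46, 70), (64, 12, 47, 69), (65, 11, 47, 69), (66, 11, 48, 68), (67, 12, 50, 66), (68, 11, 50, 66), (69, 11, 51, 65), (70, 11, 53, 63)] = true := by decide +kernel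

theorem hwE7 : digE7.tbl.chkHW 125 93 124
    [(93, 73, 94, 123), (94, 52, 93, 124), (95, 51, 93, 124), (96, 50, 93, 124), (97, 49, 93, 124), (98, 48, 93, 124), (99, 42, 93, 124), (100, 41, 93, 124), (101, 40, 93, 124), (102, 39, 93, 124), (103, 38, 93, 124), (104, 37, 93, 124), (105, 36, 93, 124), (106, 35, 93, 124), (107, 34, 93, 124), (108, 33, 93, 124), (109, 38, 94, 123), (110, 37, 94, 123), (111, 36, 94, 123), (112, 35, 94, 123), (113, 34, 94, 123), (114, 33, 94, 123), (115, 35, 95, 122), (116, 34, 95, 122), (117, 33, 95, 122), (118, 33, 96, 121), (119, 35, 99, 118), (120, 34, 99, 118), (121, 33, 99, 118), (122, 33, 100, 117), (123, 33, 103, 114), (124, 33, 109, 108)] = true := by decide +kernel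

theorem hwE8 : digE8.tbl.chkHW 239 120 238
    [(120, 121, 122, 237), (122, 118, 120, 238), (125, 115, 120, 238), (129, 111, 120, 238), (134, 106, 120, 238), (140, 100, 120, 238), (146, 94, 120, 238), (151, 89, 120, 238), (155, 85, 120, 238), (158, 82, 120, 238), (160, 80, 120, 238), (161, 80, 122, 237), (168, 72, 120, 238), (173, 67, 120, 238), (177, 63, 120, 238), (180, 60, 120, 238), (182, 58, 120, 238), (183, 58, 122, 237), (187, 53, 120, 238), (190, 50, 120, 238), (192, 48, 120, 238), (193, 48, 122, 237), (196, 44, 120, 238), (198, 42, 120, 238), (199, 42, 122, 237), (201, 39, 120, 238), (202, 39, 122, 237), (203, 39, 125, 236), (206, 34, 120, 238), (208, 32, 120, 238), (209, 32, 122, 237), (211, 29, 120, 238), (212, 29, 122, 237), (213, 29, 125, 236), (215, 25, 120, 238), (216, 25, 122, 237), (217, 25, 125, 236), (218, 25, 129, 235), (220, 20, 120, 238), (221, 20, 122, 237), (222, 20, 125, 236), (223, 20, 129, 235), (224, 20, 134, 234), (225, 20, 146, 232), (227, 13, 120, 238), (228, 13,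 122, 237), (229, 13, 125, 236), (230, 13, 129, 235), (231, 13, 134, 234), (232, 13, 140, 233), (233, 13, 146, 232), (234, 13, 151, 231), (235, 13, 155, 230), (236, 13, 158, 229), (237, 13, 160, 228), (238, 13, 161, 227)] = true := by decide +kernel

end Cfsg.Agent.Lib.St
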