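/-
The seven types with the rank one relation.
-/
import Cfsg.Agent.Lib.St.TAll
import Cfsg.Agent.Lib.St.FinR3

set_option autoImplicit false

namespace Cfsg.Agent.Lib.St

open Cfsg Cfsg.Lie Cfsg.Agent.Lib.Chev

/-- All seven types. -/
theorem exists_good_r1 {D : ChevalleyDatum}
    (hD : D ∈ [chevG2, chevB2, chevD4, chevF4, chevE6, chevE7, chevE8]) :
    ∃ (T : Tbl) (wit : ℕ → ℕ × ℕ), T.Good3 D ∧ StHyp T wit ∧ T.chkRank1 = true := by
  simp only [List.mem_cons, List.not_mem_nil, or_false] at hD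
  rcases hD with rfl | rfl | rfl | rfl | rfl | rfl | rfl
  · exact ⟨_, _, good3G2, stHypG2, rank1G2⟩
  · exact ⟨_, _, good3B2, stHypB2, rank1B2⟩
  · exact ⟨_, _, good3D4, stHypD4, rank1D4⟩
  · exact ⟨_, _, good3F4, stHypF4, rank1F4⟩
  · exact ⟨_, _, good3E6, stHypE6, rank1E6⟩
  · exact ⟨_, _, good3E7, stHypE7, rank1E7⟩
  · exact ⟨_, _, good3E8, stHypE8, rank1E8⟩

/-- The relators (R3) hold in the group of (R1), (R2) over a finite field. -/
theorem cover_normalClosure {D : ChevalleyDatum}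
    (hD : D ∈ [chevG2, chevB2, chevD4, chevF4, chevE6, chevE7, chevE8]) (K : Type*) [Field K] [Finite K] :
    Subgroup.normalClosure (D.steinbergRelsAB K) = Subgroup.normalClosure (D.steinbergRels K) := by
  obtain ⟨T, wit, hG, hW, hε⟩ := exists_good_r1 hD
  refine le_antisymm (Subgroup.normalClosure_mono Set.subset_union_left) ?_
  refine Subgroup.normalClosure_le_normal ?_
  rintro g (h | ⟨r, t₁, t₂, hr, h1, h2, rfl⟩)
  · exact Subgroup.subset_normalClosure h
  · let S := canSys (K := K) hG (D.steinbergRelsAB K) subset_rfl (lift_relAB hG)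
    have h3 := S.R3_of_finite hW hε hr h1 h2
    have e : ∀ t : K, S.hb r t = PresentedGroup.mk _ (D.stH r t) := fun t => canSys_hb hG _ subset_rfl _ r t
    rw [e, e, e, ← map_mul] at h3
    have h4 : PresentedGroup.mk (D.steinbergRelsAB K) (D.stH r t₁ * D.stH r t₂ * (D.stH r (t₁ * t₂))⁻¹) = 1 := by
      rw [map_mul, map_inv, h3, mul_inv_cancel]
    exact (QuotientGroup.eq_one_iff _).1 h4

end Cfsg.Agent.Lib.St
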