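/-
The checks of universality for the seven types.
-/
import Cfsg.Agent.Lib.St.UnivSec
import Cfsg.Agent.Lib.St.FinAll

set_option autoImplicit false
set_option maxRecDepth 100000
set_option maxHeartbeats 0

universe u_1 u_2 u_3

namespace Cfsg.Agent.Lib.St

open Cfsg Cfsg.Lie Cfsg.Agent.Lib.Chev

variable {K : Type*} [Field K] {D : ChevalleyDatum} {T : Tbl} {hG : T.Good3 D} {Δ : Type*} [Group Δ] {wit : ℕ → ℕ × ℕ}

namespace UExt

variable {S : Sys hG K Δ} {E : Type*} [Group E] (X : UExt S E wit)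

lemma ab_of_chk {ex : ℕ → Bool} (h : T.chkU2 ex = true) (hex : ∀ r, r < D.nroots → ex r = true → X.Ab r) :
    ∀ r, r < D.nroots → X.Ab r := by
  intro r hr
  have h1 := allBelow_spec h r (hG.lt_n hr)
  rw [Bool.or_eq_true] at h1
  rcases h1 with h1 | h1
  · exact hex r hr h1
  · have h4 := Nat.le_of_ble_eq_true h1
    obtain ⟨Q, hQ1, h5⟩ : ∃ Q, Q < T.n ∧ Nat.beq (Int.natAbs (T.pairT Q r)) 1 = true :=
      ⟨_, h4, firstI_spec h4⟩
    have hq := hG.n_lt hQ1
    have h6 := Nat.eq_of_beq_eq_true h5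
    rw [hG.pairT_eq hq hr] at h6
    exact X.Ab_of_q hr hq (by omega)

/-- Commuting letters with a torus element. -/
lemma lift_comm' {r x q : ℕ} (hr : r < D.nroots) (hx : x < D.nroots) (hq : q < D.nroots) (h1 : x ≠ r) (h2 : x ≠ D.neg r)
    (ht : D.commTerms r x = []) (hq0 : D.pairing q r = 0) (hd0 : D.pairing q x ≠ 0) (hd3 : |D.pairing q x| ≤ 3) :
    ∀ (a b : E) (u v : K), X.p a = S.y r u → X.p b = S.y x v → a * b = b * a := by
  intro a b u v ha hb
  refine X.lift_comm hr hx hq (fun u v => ?_) hq0 (X.τ_zpow hd0 hd3) ha hb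
  have h3 := S.comm hr hx h1 h2 u v
  have e : D.commWord K r x u v = [] := by
    unfold ChevalleyDatum.commWord
    rw [ht]
    rfl
  rw [e] at h3
  simp only [List.map_nil, List.prod_nil] at h3
  have h4 : (S.y r u * S.y x v)⁻¹ * (S.y x v * S.y r u) = 1 := by
    rw [← h3]
    group
  exact (inv_mul_eq_one.1 h4)

end UExt

/-- Lookup in a table of words. -/
noncomputable def bwOf (L : List (ℕ × ℕ × List ℕ)) (r s : ℕ) : List ℕ :=
  foldrF (fun e acc => cond (and (Nat.beq e.1 r) (Nat.beq e.2.1 s)) e.2.2 acc) [] L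

theorem u1G2 : digG2.tbl.chkU1 = true := by decide +kernel
theorem u1B2 : digB2.tbl.chkU1 = true := by decide +kernel
theorem u1D4 : digD4.tbl.chkU1 = true := by decide +kernel
theorem u1F4 : digF4.tbl.chkU1 = true := by decide +kernel
theorem u1E6 : digE6.tbl.chkU1 = true := by decide +kernel
theorem u1E7 : digE7.tbl.chkU1 = true := by decide +kernel
theorem u1E8 : digE8.tbl.chkU1 = true := by decide +kernel

/-- The long roots of type B2. -/
def longB2 (r : ℕ) : Bool := or (Nat.beq r 0) (or (Nat.beq r 3) (or (Nat.beq r 4) (Nat.beq r 7)))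

theorem u2G2 : digG2.tbl.chkU2 (fun _ => false) = true := by decide +kernel
theorem u2B2 : digB2.tbl.chkU2 longB2 = true := by decide +kernel
theorem u2D4 : digD4.tbl.chkU2 (fun _ => false) = true := by decide +kernel
theorem u2F4 : digF4.tbl.chkU2 (fun _ => false) = true := by decide +kernel
theorem u2E6 : digE6.tbl.chkU2 (fun _ => false) = true := by decide +kernel
theorem u2E7 : digE7.tbl.chkU2 (fun _ => false) = true := by decide +kernel
theorem u2E8 : digE8.tbl.chkU2 (fun _ => false) = true := by decide +kernel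

theorem u3G2 : digG2.tbl.chkU3 (bwOf [(9, 1, [1, 0]), (9, 4, [0]), (11, 3, [0, 1]), (11, 5, [1])]) = true := by decide +kernel
theorem u3B2 : digB2.tbl.chkU3 (bwOf [(6, 3, [1]), (7, 2, [0])]) = true := by decide +kernel
theorem u3D4 : digD4.tbl.chkU3 (bwOf [(23, 9, [1])]) = true := by decide +kernel
theorem u3F4 : digF4.tbl.chkU3 (bwOf [(44, 6, [2, 1, 0]), (44, 14, [0]), (47, 18, [1, 2, 3]), (47, 23, [3])]) = true := by decide +kernel
theorem u3E6 : digE6.tbl.chkU3 (bwOf [(71, 25, [1])]) = true := by decide +kernel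
theorem u3E7 : digE7.tbl.chkU3 (bwOf [(125, 32, [0])]) = true := by decide +kernel
theorem u3E8 : digE8.tbl.chkU3 (bwOf [(239, 119, [7])]) = true := by decide +kernel

section B2

variable {K' : Type*} [Field K'] {Δ' : Type*} [Group Δ'] {E : Type*} [Group E] {S : Sys good3B2 K' Δ'} (X : UExt S E wit)

theorem abLongB2 (r : ℕ) (hr : r < chevB2.nroots) (hex : longB2 r = true) : X.Ab r := by
  have hr' : r = 0 ∨ r = 3 ∨ r = 4 ∨ r = 7 := by
    unfold longB2 at hex
    simp only [Bool.or_eq_true] at hex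
    rcases hex with h | h | h | h
    · exact Or.inl (Nat.eq_of_beq_eq_true h)
    · exact Or.inr (Or.inl (Nat.eq_of_beq_eq_true h))
    · exact Or.inr (Or.inr (Or.inl (Nat.eq_of_beq_eq_true h)))
    · exact Or.inr (Or.inr (Or.inr (Nat.eq_of_beq_eq_true h)))
  have key : ∀ r β γ δ q : ℕ, ∀ c₁ c₂ : ℤ, r < chevB2.nroots → β < chevB2.nroots → γ < chevB2.nroots → δ < chevB2.nroots →
      q < chevB2.nroots → γ ≠ β → γ ≠ chevB2.neg β →
      chevB2.commTerms β γ = [(δ, c₁, 1, 1), (r, c₂, 2, 1)] → (c₂ = 1 ∨ c₂ = -1) →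
      (β ≠ r ∧ β ≠ chevB2.neg r ∧ chevB2.commTerms r β = [] ∧ chevB2.pairing q r = 0 ∧ chevB2.pairing q β ≠ 0 ∧ |chevB2.pairing q β| ≤ 3) →
      (γ ≠ r ∧ γ ≠ chevB2.neg r ∧ chevB2.commTerms r γ = [] ∧ chevB2.pairing q γ ≠ 0 ∧ |chevB2.pairing q γ| ≤ 3) →
      (δ ≠ r ∧ δ ≠ chevB2.neg r ∧ chevB2.commTerms r δ = [] ∧ chevB2.pairing q δ ≠ 0 ∧ |chevB2.pairing q δ| ≤ 3) →
      X.Ab r := by
    intro r β γ δ q c₁ c₂ hr hβ hγ hδ hq h1 h2 ht hc ⟨a1, a2, a3, a4, a5, a6⟩ ⟨b1, b2, b3, b4, b5⟩ ⟨d1, d2, d3, d4, d5⟩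
    exact X.Ab_of_hw hr hβ hγ hδ h1 h2 ht hc (X.lift_comm' hr hβ hq a1 a2 a3 a4 a5 a6)
      (X.lift_comm' hr hγ hq b1 b2 b3 a4 b4 b5) (X.lift_comm' hr hδ hq d1 d2 d3 a4 d4 d5)
  rcases hr' with rfl | rfl | rfl | rfl
  · exact key 0 1 4 2 4 1 1 (by decide +kernel) (by decide +kernel) (by decide +kernel) (by decide +kernel) (by decide +kernel)
      (by decide +kernel) (by decide +kernel) (by decide +kernel) (by decide +kernel) (by decide +kernel) (by decide +kernel) (by decide +kernel)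
  · exact key 3 1 7 5 7 (-1) 1 (by decide +kernel) (by decide +kernel) (by decide +kernel) (by decide +kernel) (by decide +kernel)
      (by decide +kernel) (by decide +kernel) (by decide +kernel) (by decide +kernel) (by decide +kernel) (by decide +kernel) (by decide +kernel)
  · exact key 4 2 7 6 7 1 (-1) (by decide +kernel) (by decide +kernel) (by decide +kernel) (by decide +kernel) (by decide +kernel)
      (by decide +kernel) (by decide +kernel) (by decide +kernel) (by decide +kernel) (by decide +kernel) (by decide +kernel) (by decide +kernel)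
  · exact key 7 5 4 6 4 (-1) (-1) (by decide +kernel) (by decide +kernel) (by decide +kernel) (by decide +kernel) (by decide +kernel)
      (by decide +kernel) (by decide +kernel) (by decide +kernel) (by decide +kernel) (by decide +kernel) (by decide +kernel) (by decide +kernel)

end B2

/-- The hypotheses of universality for the seven types. -/
theorem exists_univ {D : ChevalleyDatum} (hD : D ∈ [chevG2, chevB2, chevD4, chevF4, chevE6, chevE7, chevE8]) :
    ∃ (T : Tbl) (wit : ℕ → ℕ × ℕ) (bw : ℕ → ℕ → List ℕ) (hG : T.Good3 D), StHyp T wit ∧ T.chkRank1 = true ∧ T.chkU1 = true ∧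
      T.chkU3 bw = true ∧ ∀ (K : Type u_1) [Field K] (Δ : Type u_2) [Group Δ] (S : Sys hG K Δ) (E : Type u_3) [Group E]
        (X : UExt S E wit) (r : ℕ), r < D.nroots → X.Ab r := by
  simp only [List.mem_cons, List.not_mem_nil, or_false] at hD
  rcases hD with rfl | rfl | rfl | rfl | rfl | rfl | rfl
  · exact ⟨_, _, _, good3G2, stHypG2, rank1G2, u1G2, u3G2, fun _ _ _ _ _ _ _ X => X.ab_of_chk u2G2 (by simp)⟩
  · exact ⟨_, _, _, good3B2, stHypB2, rank1B2, u1B2, u3B2, fun _ _ _ _ _ _ _ X => X.ab_of_chk u2B2 (abLongB2 X)⟩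
  · exact ⟨_, _, _, good3D4, stHypD4, rank1D4, u1D4, u3D4, fun _ _ _ _ _ _ _ X => X.ab_of_chk u2D4 (by simp)⟩
  · exact ⟨_, _, _, good3F4, stHypF4, rank1F4, u1F4, u3F4, fun _ _ _ _ _ _ _ X => X.ab_of_chk u2F4 (by simp)⟩
  · exact ⟨_, _, _, good3E6, stHypE6, rank1E6, u1E6, u3E6, fun _ _ _ _ _ _ _ X => X.ab_of_chk u2E6 (by simp)⟩
  · exact ⟨_, _, _, good3E7, stHypE7, rank1E7, u1E7, u3E7, fun _ _ _ _ _ _ _ X => X.ab_of_chk u2E7 (by simp)⟩
  · exact ⟨_, _, _, good3E8, stHypE8, rank1E8, u1E8, u3E8, fun _ _ _ _ _ _ _ X => X.ab_of_chk u2E8 (by simp)⟩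

end Cfsg.Agent.Lib.St
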