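/-
Universality of the group of (R1), (R2).
-/
import Cfsg.Agent.Lib.St.UnivAll

set_option autoImplicit false

namespace Cfsg.Agent.Lib.St

open Cfsg Cfsg.Lie Cfsg.Agent.Lib.Chev
open scoped commutatorElement

/-- The generators of the canonical system. -/
lemma canSys_y_of {K : Type*} [Field K] {D : ChevalleyDatum} {T : Tbl} (hG : T.Good3 D) (p : Fin D.nroots × K) :
    (canSys hG (D.steinbergRelsAB K) subset_rfl (lift_relAB hG)).y p.1.1 p.2 = PresentedGroup.of p := by
  show PresentedGroup.mk _ (D.stX p.1.1 p.2) = _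
  unfold ChevalleyDatum.stX
  rw [dif_pos p.1.2]
  rfl

/-- Two lifts of a homomorphism through a central extension agree, when `t² ≠ 1` for some `t ≠ 0`. -/
theorem lift_unique {K : Type*} [Field K] {D : ChevalleyDatum} {T : Tbl} {wit : ℕ → ℕ × ℕ} {hG : T.Good3 D}
    (hW : StHyp T wit) (hε : T.chkRank1 = true) {t : K} (ht : t ≠ 0) (ht2 : t * t ≠ 1)
    {G₁ E : Type*} [Group G₁] [Group E] (π₁ : E →* G₁) (hc : π₁.ker ≤ Subgroup.center E)
    (τ₁ τ₂ : D.SteinbergCover K →* E) (h : π₁.comp τ₁ = π₁.comp τ₂) : τ₁ = τ₂ := by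
  apply PresentedGroup.ext
  intro p
  set S := canSys (K := K) hG (D.steinbergRelsAB K) subset_rfl (lift_relAB hG) with hS
  have hperf : ∀ (r : ℕ) (hr : r < D.nroots) (u : K), S.y r u = ⁅S.hb r t, S.y r ((t * t - 1)⁻¹ * u)⁆ := by
    intro r hr u
    rw [commutatorElement_def, S.hb_conj_self hW hε hr ht, S.y_inv hr, S.add hr]
    congr 1
    have h1 : (t * t - 1) * (t * t - 1)⁻¹ = 1 := mul_inv_cancel₀ (sub_ne_zero.2 ht2)
    linear_combination (-u) * h1
  have hc' : ∀ g, π₁ (τ₁ g) = π₁ (τ₂ g) := fun g => by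
    have := congrArg (fun φ : D.SteinbergCover K →* G₁ => φ g) h
    exact this
  rw [← canSys_y_of hG p, hperf _ p.1.2, map_commutatorElement, map_commutatorElement]
  exact cm_congr_gen hc (hc' _) (hc' _)

/-- **Universality.** -/
theorem univ_main {K : Type*} [Field K] (hK5 : ∃ s : Finset K, 4 < s.card) {D : ChevalleyDatum}
    (hD : D ∈ [chevG2, chevB2, chevD4, chevF4, chevE6, chevE7, chevE8]) {G₁ E : Type*} [Group G₁] [Group E]
    (π₁ : E →* G₁) (hπ : Function.Surjective π₁) (hc : π₁.ker ≤ Subgroup.center E) (σ : D.SteinbergCover K →* G₁) :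
    ∃! τ : D.SteinbergCover K →* E, π₁.comp τ = σ := by
  classical
  obtain ⟨τ₀, h0, h2, h3⟩ := exists_tau hK5
  obtain ⟨T, wit, bw, hG, hW, hε, hU1, hU3, hAbAll⟩ := exists_univ hD
  let S : Sys hG K (D.SteinbergCover K) := canSys hG (D.steinbergRelsAB K) subset_rfl (lift_relAB hG)
  -- the pull-back
  let P : Subgroup (D.SteinbergCover K × E) :=
    MonoidHom.eqLocus (σ.comp (MonoidHom.fst _ _)) (π₁.comp (MonoidHom.snd _ _))
  have hP : ∀ x : P, σ x.1.1 = π₁ x.1.2 := fun x => x.2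
  let p : P →* D.SteinbergCover K := (MonoidHom.fst _ _).comp P.subtype
  have hex : ∀ g, ∃ x : P, p x = g := by
    intro g
    obtain ⟨e, he⟩ := hπ (σ g)
    exact ⟨⟨(g, e), he.symm⟩, rfl⟩
  choose f hf using hex
  have hcp : ∀ z : P, p z = 1 → ∀ w, w * z = z * w := by
    intro z hz w
    have hz' : z.1.1 = 1 := hz
    have h4 : z.1.2 ∈ π₁.ker := by
      rw [MonoidHom.mem_ker, ← hP z, hz', map_one]
    apply Subtype.ext
    apply Prod.ext
    · show w.1.1 * z.1.1 = z.1.1 * w.1.1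
      rw [hz', mul_one, one_mul]
    · exact Subgroup.mem_center_iff.1 (hc h4) w.1.2
  let X : UExt S P wit := ⟨hW, hε, p, f, hf, hcp, τ₀, h0, h2, h3⟩
  have hAb := hAbAll K _ S P X
  have hq := X.hq_of_chk hU1
  let s := secHom X hAb hq hU3
  have hs : p.comp s = MonoidHom.id _ := secHom_spec X (canSys_y_of hG) hAb hq hU3
  have hs' : ∀ g, (s g).1.1 = g := fun g => congrArg (fun φ : D.SteinbergCover K →* D.SteinbergCover K => φ g) hs
  refine ⟨(MonoidHom.snd _ _).comp (P.subtype.comp s), ?_, ?_⟩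
  · refine MonoidHom.ext fun g => ?_
    show π₁ (s g).1.2 = σ g
    rw [← hP, hs']
  · intro τ' hτ'
    refine lift_unique (hG := hG) hW hε h0 h2 π₁ hc _ _ ?_
    rw [hτ']
    refine MonoidHom.ext fun g => ?_
    show σ g = π₁ (s g).1.2
    rw [← hP, hs']

end Cfsg.Agent.Lib.St
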