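/-
Universality of the group of (R1), (R2) for the types E₆, E₇, E₈ over all fields.
-/
import Cfsg.Agent.Lib.St.HWE
import Cfsg.Agent.Lib.St.UnivMain

set_option autoImplicit false

universe u_1 u_2 u_3

namespace Cfsg.Agent.Lib.St

open Cfsg Cfsg.Lie Cfsg.Agent.Lib.Chev
open scoped commutatorElement

section Gen

variable {K : Type*} [Field K] {D : ChevalleyDatum} {E : Type*} [Group E]

/-- A homomorphism from the relations. -/
theorem hom_of_rel (hrange : ∀ r s, r < D.nroots → s < D.nroots → ∀ t u : K, ∀ p ∈ D.commWord K r s t u, p.1 < D.nroots)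
    (Y : ℕ → K → E) (hadd : ∀ r, r < D.nroots → ∀ t u, Y r (t + u) = Y r t * Y r u)
    (hcomm : ∀ r s, r < D.nroots → s < D.nroots → s ≠ r → s ≠ D.neg r → ∀ t u : K,
        (Y s u)⁻¹ * (Y r t)⁻¹ * Y s u * Y r t = ((D.commWord K r s t u).map fun p => Y p.1 p.2).prod) :
    ∃ φ : D.SteinbergCover K →* E, ∀ p : Fin D.nroots × K, φ (PresentedGroup.of p) = Y p.1.1 p.2 := by
  let F : Fin D.nroots × K → E := fun p => Y p.1.1 p.2
  have h1 : ∀ {r : ℕ} (_ : r < D.nroots) (t : K), FreeGroup.lift F (D.stX r t) = Y r t := by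
    intro r hr t
    unfold ChevalleyDatum.stX
    rw [dif_pos hr, FreeGroup.lift_apply_of]
  have h2 : ∀ (w : List (ℕ × K)) (_ : ∀ p ∈ w, p.1 < D.nroots), FreeGroup.lift F (D.stWord w) = (w.map fun p => Y p.1 p.2).prod := by
    intro w hw
    induction w with
    | nil => simp [ChevalleyDatum.stWord]
    | cons p w ih =>
      have hp := hw p (by simp)
      have e : D.stWord (p :: w) = D.stX p.1 p.2 * D.stWord w := by
        simp [ChevalleyDatum.stWord]
      rw [e, map_mul, h1 hp, ih fun q hq => hw q (List.mem_cons_of_mem _ hq), List.map_cons, List.prod_cons]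
  have hrel : ∀ g ∈ D.steinbergRelsAB K, FreeGroup.lift F g = 1 := by
    rintro g (⟨r, t₁, t₂, hr, rfl⟩ | ⟨r, s, t, u, hr, hs, h3, h4, rfl⟩)
    · simp only [map_mul, map_inv, h1 hr, hadd r hr, mul_inv_cancel]
    · simp only [map_mul, map_inv, h1 hr, h1 hs, h2 _ (hrange r s hr hs t u)]
      rw [mul_inv_eq_one]
      exact hcomm r s hr hs h3 h4 t u
  exact ⟨PresentedGroup.toGroup hrel, fun p => by rw [PresentedGroup.toGroup.of]⟩

end Gen

/-- The data of the checks. -/
theorem exists_hw {D : ChevalleyDatum} (hD : D ∈ [chevE6, chevE7, chevE8]) :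
    ∃ (T : Tbl) (wit : ℕ → ℕ × ℕ) (ρ a₀ b₀ : ℕ) (mv : List (ℕ × ℕ × ℕ × ℕ)) (_ : T.Good3 D), StHyp T wit ∧
      T.chkHW ρ a₀ b₀ mv = true := by
  simp only [List.mem_cons, List.not_mem_nil, or_false] at hD
  rcases hD with rfl | rfl | rfl
  · exact ⟨_, _, _, _, _, _, good3E6, stHypE6, hwE6⟩
  · exact ⟨_, _, _, _, _, _, good3E7, stHypE7, hwE7⟩
  · exact ⟨_, _, _, _, _, _, good3E8, stHypE8, hwE8⟩

/-- **Universality** for the types E₆, E₇, E₈ over any field. -/
theorem closure_main {K : Type*} [Field K] {D : ChevalleyDatum}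
    (hD : D ∈ [chevE6, chevE7, chevE8]) {G₁ E : Type*} [Group G₁] [Group E]
    (π₁ : E →* G₁) (hπ : Function.Surjective π₁) (hc : π₁.ker ≤ Subgroup.center E) (σ : D.SteinbergCover K →* G₁) :
    ∃! τ : D.SteinbergCover K →* E, π₁.comp τ = σ := by
  classical
  obtain ⟨T, wit, ρ, a₀, b₀, mv, hG, hW, hchk⟩ := exists_hw hD
  let S : Sys hG K (D.SteinbergCover K) := canSys hG (D.steinbergRelsAB K) subset_rfl (lift_relAB hG)
  -- the pull-back
  let P : Subgroup (D.SteinbergCover K × E) :=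
    MonoidHom.eqLocus (σ.comp (MonoidHom.fst _ _)) (π₁.comp (MonoidHom.snd _ _))
  have hP : ∀ x : P, σ x.1.1 = π₁ x.1.2 := fun x => x.2
  let p : P →* D.SteinbergCover K := (MonoidHom.fst _ _).comp P.subtype
  have hex : ∀ g, ∃ x : P, p x = g := by
    intro g
    obtain ⟨e, he⟩ := hπ (σ g)
    exact ⟨⟨(g, e), he.symm⟩, rfl⟩
  choose f hf using hex
  have hcp : ∀ z : P, p z = 1 → ∀ w, w * z = z * w := by
    intro z hz w
    have hz' : z.1.1 = 1 := hz
    have h4 : z.1.2 ∈ π₁.ker := by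
      rw [MonoidHom.mem_ker, ← hP z, hz', map_one]
    apply Subtype.ext
    apply Prod.ext
    · show w.1.1 * z.1.1 = z.1.1 * w.1.1
      rw [hz', mul_one, one_mul]
    · exact Subgroup.mem_center_iff.1 (hc h4) w.1.2
  let X : HExt S P wit := ⟨hW, p, f, hf, hcp⟩
  obtain ⟨Y, pY, hadd, hcomm⟩ := X.exists_Y_rel hchk
  obtain ⟨s, hs⟩ := hom_of_rel (fun r s hr hs t u => commWord_range hG hr hs t u) Y hadd hcomm
  have hs1 : p.comp s = MonoidHom.id _ := by
    apply PresentedGroup.ext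
    intro g
    simp only [MonoidHom.comp_apply, MonoidHom.id_apply]
    rw [hs]
    show X.p (Y g.1.1 g.2) = _
    rw [pY _ g.1.2, ← canSys_y_of hG g]
  have hs' : ∀ g, (s g).1.1 = g := fun g => congrArg (fun φ : D.SteinbergCover K →* D.SteinbergCover K => φ g) hs1
  refine ⟨(MonoidHom.snd _ _).comp (P.subtype.comp s), ?_, ?_⟩
  · refine MonoidHom.ext fun g => ?_
    show π₁ (s g).1.2 = σ g
    rw [← hP, hs']
  · intro τ' hτ'
    have h5 : ∀ g, π₁ (τ' g) = π₁ (s g).1.2 := fun g => by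
      rw [← hP, hs']
      exact congrArg (fun φ : D.SteinbergCover K →* G₁ => φ g) hτ'
    apply PresentedGroup.ext
    intro g
    obtain ⟨a, b, hd, _⟩ := X.gd_all hchk g.1.2
    obtain ⟨_, ha, hb, _, _, c, hc', e⟩ := hd
    have h6 : S.y g.1.1 g.2 = ⁅S.y a (c⁻¹ * g.2), S.y b 1⁆ := by
      rw [e]
      congr 1
      field_simp
    rw [← canSys_y_of hG g, h6, map_commutatorElement, map_commutatorElement]
    exact cm_congr_gen hc (h5 _) (h5 _)

end Cfsg.Agent.Lib.St
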