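/-
Monomial integer matrices, and the representations they give of the group of (R1), (R2).
-/
import Cfsg.Agent.Lib.St.HWMain
import Cfsg.Agent.Lib.Chev.Fast

set_option autoImplicit false

namespace Cfsg.Agent.Lib.Chev.Tbl

/-- Change of sign of a code. A code is `0` or `(target + 1) * 2 + sign`. -/
def flipC (e : ℕ) : ℕ := cond (Nat.beq (Nat.mod e 2) 1) (Nat.sub e 1) (Nat.succ e)

/-- Change of sign of a code. -/
def flip0 (e : ℕ) : ℕ := cond (Nat.beq e 0) 0 (flipC e)

/-- A step of composition. -/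
def compA (e2 : ℕ) (s : Bool) : ℕ := cond (Nat.beq e2 0) 0 (cond s (flipC e2) e2)

/-- The composition of a monomial map with a code. -/
def compC (f : ℕ → ℕ) (e : ℕ) : ℕ :=
  cond (Nat.beq e 0) 0 (compA (f (Nat.sub (Nat.div e 2) 1)) (Nat.beq (Nat.mod e 2) 1))

/-- The range of a code. -/
def rangeOK (d e : ℕ) : Bool := or (Nat.beq e 0) (and (Nat.ble 2 e) (Nat.blt (Nat.sub (Nat.div e 2) 1) d))

/-- The check of a difference. -/
def chk3 (a b g : ℕ) : Bool :=
  cond (Nat.beq a b) (Nat.beq g 0) (cond (Nat.beq b 0) (Nat.beq g a) (cond (Nat.beq a 0) (Nat.beq g (flipC b)) false))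

/-- The check of the commutator with one term, at a vector. -/
def chkV (fr fs : ℕ → ℕ) (g v : ℕ) : Bool :=
  and (chk3 (compC fs (fr v)) (compC fr (fs v)) g) <|
  and (Nat.beq (compC fr (compC fs (fr v))) 0) (Nat.beq (compC fs (compC fr (fs v))) 0)

/-- The monomial map of a root. -/
noncomputable def cdF (rows : List ℕ) (wd r v : ℕ) : ℕ := dig (nthF rows r) wd v

variable (T : Tbl) (rows : List ℕ) (wd d : ℕ)

/-- The check of a pair. -/
noncomputable def pairR (r s : ℕ) (l : List (ℕ × ℤ × ℕ × ℕ)) : Bool :=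
  cond (isNilF l)
    (allBelow d fun v => Nat.beq (compC (cdF rows wd s) (cdF rows wd r v)) (compC (cdF rows wd r) (cdF rows wd s v)))
    (cond (decide (l = [(headQ l, 1, 1, 1)]))
      (allBelow d fun v => chkV (cdF rows wd r) (cdF rows wd s) (flip0 (cdF rows wd (headQ l) v)) v)
      (cond (decide (l = [(headQ l, -1, 1, 1)]))
        (allBelow d fun v => chkV (cdF rows wd r) (cdF rows wd s) (cdF rows wd (headQ l) v) v)
        false))

/-- The checks of a representation. -/
noncomputable def chkRep : Bool :=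
  and (allBelow T.n fun r => allBelow d fun v => rangeOK d (cdF rows wd r v)) <|
  and (allBelow T.n fun r => allBelow d fun v => Nat.beq (compC (cdF rows wd r) (cdF rows wd r v)) 0) <|
  allBelow T.n fun r => allBelow T.n fun s => or (or (Nat.beq s r) (Nat.beq s (T.neg r))) (pairR rows wd d r s (T.commF r s))

/-- The check of the highest weight vector. -/
noncomputable def chkV0 (k : ℕ) : Bool :=
  and (Nat.blt 0 d) <| and (Nat.blt k T.l) <|
  allBelow T.l fun i => and (Nat.beq (cdF rows wd (T.simple i) 0) 0) <|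
    cond (Nat.beq i k)
      ((fun e => and (Nat.ble 2 e) <| and (Nat.blt (Nat.sub (Nat.div e 2) 1) d) <|
        and (Nat.beq (cdF rows wd (T.simple i) (Nat.sub (Nat.div e 2) 1)) (Nat.add 2 (Nat.mod e 2)))
          (Nat.beq (cdF rows wd (T.neg (T.simple i)) (Nat.sub (Nat.div e 2) 1)) 0)) (cdF rows wd (T.neg (T.simple i)) 0))
      (Nat.beq (cdF rows wd (T.neg (T.simple i)) 0) 0)

end Cfsg.Agent.Lib.Chev.Tbl
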