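/-
Monomial integer matrices: the semantics of the codes.
-/
import Cfsg.Agent.Lib.St.Minu

set_option autoImplicit false

namespace Cfsg.Agent.Lib.St

open Cfsg Cfsg.Lie Cfsg.Agent.Lib.Chev Cfsg.Agent.Lib.Chev.Tbl

section Codes

lemma beq_iff' {a b : ℕ} : Nat.beq a b = true ↔ a = b :=
  ⟨Nat.eq_of_beq_eq_true, fun h => h ▸ Nat.beq_refl a⟩

/-- The sign of a code. -/
def sgnZ (e : ℕ) : ℤ := if e % 2 = 1 then -1 else 1

/-- The vector of a code. -/
def vecZ (d e : ℕ) : Fin d → ℤ := fun w => if e = 0 then 0 else if e / 2 - 1 = w.val then sgnZ e else 0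

/-- The matrix of a monomial map. -/
def matZ (d : ℕ) (f : ℕ → ℕ) : Matrix (Fin d) (Fin d) ℤ := fun w v => vecZ d (f v.val) w

lemma flipC_val (e : ℕ) : flipC e = if e % 2 = 1 then e - 1 else e + 1 := by
  unfold flipC
  by_cases h : e % 2 = 1
  · have h1 : Nat.beq (Nat.mod e 2) 1 = true := beq_iff'.2 h
    rw [h1, if_pos h]
    rfl
  · have h1 : Nat.beq (Nat.mod e 2) 1 = false := beq_false h
    rw [h1, if_neg h]
    rfl

lemma rangeOK_iff {d e : ℕ} : rangeOK d e = true ↔ e = 0 ∨ (2 ≤ e ∧ e / 2 - 1 < d) := by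
  unfold rangeOK
  rw [Bool.or_eq_true, Bool.and_eq_true, beq_iff']
  constructor
  · rintro (h | ⟨h1, h2⟩)
    · exact Or.inl h
    · exact Or.inr ⟨Nat.le_of_ble_eq_true h1, Nat.le_of_ble_eq_true h2⟩
  · rintro (h | ⟨h1, h2⟩)
    · exact Or.inl h
    · exact Or.inr ⟨Nat.ble_eq_true_of_le h1, blt_true h2⟩

lemma compC_of_ne {f : ℕ → ℕ} {e : ℕ} (he : e ≠ 0) :
    compC f e = compA (f (e / 2 - 1)) (Nat.beq (e % 2) 1) := by
  unfold compC
  rw [beq_false he]
  rfl

lemma compA_zero (s : Bool) : compA 0 s = 0 := rfl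

lemma compA_of_ne {e : ℕ} (he : e ≠ 0) (s : Bool) : compA e s = cond s (flipC e) e := by
  unfold compA
  rw [beq_false he]
  rfl

lemma vecZ_zero (d : ℕ) : vecZ d 0 = 0 := by
  funext w
  simp [vecZ]

lemma vecZ_flip {d e : ℕ} (he : 2 ≤ e) : vecZ d (flipC e) = - vecZ d e := by
  funext w
  rw [flipC_val]
  simp only [Pi.neg_apply, vecZ, sgnZ]
  by_cases h : e % 2 = 1
  · have h1 : e - 1 ≠ 0 := by omega
    have h2 : e ≠ 0 := by omega
    have h3 : (e - 1) / 2 - 1 = e / 2 - 1 := by omega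
    have h4 : ¬ (e - 1) % 2 = 1 := by omega
    rw [if_pos h, if_neg h1, if_neg h2, h3, if_neg h4, if_pos h]
    split_ifs <;> simp
  · have h1 : e + 1 ≠ 0 := by omega
    have h2 : e ≠ 0 := by omega
    have h3 : (e + 1) / 2 - 1 = e / 2 - 1 := by omega
    have h4 : (e + 1) % 2 = 1 := by omega
    rw [if_neg h, if_neg h1, if_neg h2, h3, if_pos h4, if_neg h]
    split_ifs <;> simp

lemma flip0_val {e : ℕ} (he : e = 0 ∨ 2 ≤ e) {d : ℕ} : vecZ d (flip0 e) = - vecZ d e := by
  unfold flip0
  rcases he with rfl | he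
  · show vecZ d 0 = _
    rw [vecZ_zero]
    simp
  · have h1 : Nat.beq e 0 = false := beq_false (by omega)
    rw [h1]
    exact vecZ_flip he

lemma flipC_range {d e : ℕ} (he : 2 ≤ e) (h : e / 2 - 1 < d) : rangeOK d (flipC e) = true := by
  rw [flipC_val, rangeOK_iff]
  right
  split_ifs <;> omega

lemma compC_range {d : ℕ} {f : ℕ → ℕ} (hf : ∀ v, v < d → rangeOK d (f v) = true) {e : ℕ} (he : rangeOK d e = true) :
    rangeOK d (compC f e) = true := by
  rw [rangeOK_iff] at he
  rcases he with rfl | ⟨h1, h2⟩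
  · rfl
  · rw [compC_of_ne (by omega)]
    have h4 := hf _ h2
    have h7 := rangeOK_iff.1 h4
    rcases h7 with h7 | ⟨h7, h8⟩
    · rw [h7, compA_zero]
      rfl
    · rw [compA_of_ne (by omega)]
      cases Nat.beq (e % 2) 1 with
      | true => exact flipC_range h7 h8
      | false => exact h4

/-- The product of monomial matrices. -/
lemma mat_mul {d : ℕ} {f g : ℕ → ℕ} (hf : ∀ v, v < d → rangeOK d (f v) = true) (hg : ∀ v, v < d → rangeOK d (g v) = true) :
    matZ d f * matZ d g = matZ d fun v => compC f (g v) := by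
  ext w v
  rw [Matrix.mul_apply]
  simp only [matZ]
  have hv := rangeOK_iff.1 (hg v.val v.2)
  rcases hv with h0 | ⟨h1, h2⟩
  · rw [h0]
    show _ = vecZ d 0 w
    rw [vecZ_zero]
    simp
  · have hne : g v.val ≠ 0 := by omega
    set e := g v.val with he
    rw [Finset.sum_eq_single (⟨e / 2 - 1, h2⟩ : Fin d)]
    · have e1 : vecZ d e ⟨e / 2 - 1, h2⟩ = sgnZ e := by
        simp [vecZ, hne]
      rw [e1]
      show vecZ d (f (e / 2 - 1)) w * sgnZ e = vecZ d (compC f e) w
      rw [compC_of_ne hne]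
      have h4 := rangeOK_iff.1 (hf _ h2)
      rcases h4 with h4 | ⟨h4, _⟩
      · rw [h4, compA_zero, vecZ_zero]
        simp
      · rw [compA_of_ne (by omega)]
        by_cases h6 : e % 2 = 1
        · have h7 : Nat.beq (e % 2) 1 = true := beq_iff'.2 h6
          rw [h7]
          show _ = vecZ d (flipC (f (e / 2 - 1))) w
          rw [vecZ_flip h4]
          simp [sgnZ, h6]
        · have h7 : Nat.beq (e % 2) 1 = false := beq_false h6
          rw [h7]
          simp [sgnZ, h6]
    · intro u _ hu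
      have e1 : vecZ d e u = 0 := by
        have h3 : ¬ e / 2 - 1 = u.val := fun h => hu (Fin.ext h.symm)
        simp [vecZ, h3]
      rw [e1, mul_zero]
    · intro h
      exact absurd (Finset.mem_univ _) h

/-- The semantics of the check of a difference. -/
lemma chk3_spec {d a b g : ℕ} (ha : rangeOK d a = true) (hb : rangeOK d b = true) (h : chk3 a b g = true) :
    vecZ d a - vecZ d b = vecZ d g := by
  unfold chk3 at h
  by_cases h1 : a = b
  · subst h1
    rw [Nat.beq_refl] at h
    have h2 : g = 0 := beq_iff'.1 h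
    rw [h2, vecZ_zero, sub_self]
  · rw [beq_false h1] at h
    by_cases h2 : b = 0
    · subst h2
      have h3 : g = a := beq_iff'.1 h
      rw [h3, vecZ_zero, sub_zero]
    · rw [beq_false h2] at h
      by_cases h3 : a = 0
      · subst h3
        have h4 : g = flipC b := beq_iff'.1 h
        have h5 := rangeOK_iff.1 hb
        rcases h5 with h5 | ⟨h5, _⟩
        · exact absurd h5 h2
        · rw [h4, vecZ_flip h5, vecZ_zero, zero_sub]
      · rw [beq_false h3] at h
        exact absurd h (by simp)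

end Codes

end Cfsg.Agent.Lib.St
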