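/-
Monomial integer matrices: the representation of the group of (R1), (R2).
-/
import Cfsg.Agent.Lib.St.Minu2

set_option autoImplicit false

namespace Cfsg.Agent.Lib.St

open Cfsg Cfsg.Lie Cfsg.Agent.Lib.Chev Cfsg.Agent.Lib.Chev.Tbl
open scoped commutatorElement

section Rep

variable {T : Tbl} {D : ChevalleyDatum} {rows : List ℕ} {wd d : ℕ}

/-- The integer matrix of a root. -/
noncomputable def repZ (rows : List ℕ) (wd d r : ℕ) : Matrix (Fin d) (Fin d) ℤ := matZ d (cdF rows wd r)

lemma matZ_congr {f g : ℕ → ℕ} (h : ∀ v, v < d → f v = g v) : matZ d f = matZ d g := by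
  ext w v
  simp only [matZ, h v.val v.2]

lemma matZ_eq_zero {f : ℕ → ℕ} (h : ∀ v, v < d → f v = 0) : matZ d f = 0 := by
  ext w v
  simp only [matZ, h v.val v.2, vecZ_zero]
  rfl

lemma chkRep_range (h : T.chkRep rows wd d = true) {r : ℕ} (hr : r < T.n) :
    ∀ v, v < d → rangeOK d (cdF rows wd r v) = true := by
  unfold chkRep at h
  simp only [Bool.and_eq_true] at h
  exact allBelow_spec (allBelow_spec h.1 r hr)

lemma repZ_sq (h : T.chkRep rows wd d = true) {r : ℕ} (hr : r < T.n) : repZ rows wd d r * repZ rows wd d r = 0 := by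
  have hR := chkRep_range h hr
  unfold repZ
  rw [mat_mul hR hR]
  apply matZ_eq_zero
  intro v hv
  unfold chkRep at h
  simp only [Bool.and_eq_true] at h
  exact beq_iff'.1 (allBelow_spec (allBelow_spec h.2.1 r hr) v hv)

lemma chkV_spec {r s : ℕ} (hr : r < T.n) (hs : s < T.n) (h : T.chkRep rows wd d = true) {G : ℕ → ℕ}
    (hV : allBelow d (fun v => chkV (cdF rows wd r) (cdF rows wd s) (G v) v) = true) :
    (∀ v : Fin d, ∀ w : Fin d, (repZ rows wd d s * repZ rows wd d r - repZ rows wd d r * repZ rows wd d s) w v = vecZ d (G v) w) ∧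
      repZ rows wd d r * repZ rows wd d s * repZ rows wd d r = 0 ∧
      repZ rows wd d s * repZ rows wd d r * repZ rows wd d s = 0 := by
  have hR := chkRep_range h hr
  have hS := chkRep_range h hs
  have hV' : ∀ v, v < d → _ := allBelow_spec hV
  unfold chkV at hV'
  simp only [Bool.and_eq_true] at hV'
  unfold repZ
  refine ⟨fun v w => ?_, ?_, ?_⟩
  · rw [mat_mul hS hR, mat_mul hR hS]
    have := chk3_spec (compC_range hS (hR v.val v.2)) (compC_range hR (hS v.val v.2)) (hV' v.val v.2).1
    exact congrFun this w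
  · rw [mul_assoc, mat_mul hS hR, mat_mul hR (fun v hv => compC_range hS (hR v hv))]
    apply matZ_eq_zero
    intro v hv
    exact beq_iff'.1 (hV' v hv).2.1
  · rw [mul_assoc, mat_mul hR hS, mat_mul hS (fun v hv => compC_range hR (hS v hv))]
    apply matZ_eq_zero
    intro v hv
    exact beq_iff'.1 (hV' v hv).2.2

/-- The pairs of roots. -/
lemma repZ_pair (hG : T.Good3 D) (h : T.chkRep rows wd d = true) {r s : ℕ} (hr : r < T.n) (hs : s < T.n) (h1 : s ≠ r)
    (h2 : s ≠ T.neg r) :
    (T.commF r s = [] ∧ repZ rows wd d s * repZ rows wd d r = repZ rows wd d r * repZ rows wd d s) ∨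
    ∃ (q : ℕ) (C : ℤ), T.commF r s = [(q, C, 1, 1)] ∧ (C = 1 ∨ C = -1) ∧
      repZ rows wd d s * repZ rows wd d r - repZ rows wd d r * repZ rows wd d s = (-C) • repZ rows wd d q ∧
      repZ rows wd d r * repZ rows wd d s * repZ rows wd d r = 0 ∧
      repZ rows wd d s * repZ rows wd d r * repZ rows wd d s = 0 := by
  have hR := chkRep_range h hr
  have hS := chkRep_range h hs
  have hp := h
  unfold chkRep at hp
  simp only [Bool.and_eq_true] at hp
  have h3 := allBelow_spec (allBelow_spec hp.2.2 r hr) s hs
  rw [beq_false h1, beq_false h2] at h3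
  simp only [Bool.or_false, Bool.false_or] at h3
  unfold pairR at h3
  have hrange : ∀ q C a b, T.commF r s = [(q, C, a, b)] → q < T.n := by
    intro q C a b e
    have hT := hG.correct
    have e2 : T.commF r s = D.commTerms r s := by
      rw [Tbl.commT_eq hT hG.sane (hG.n_lt hr) (hG.n_lt hs), ← Tbl.commF_eq]
    rw [e2] at e
    exact hG.lt_n (hG.commTerms_lt (hG.n_lt hr) (hG.n_lt hs) (q, C, a, b) (by rw [e]; simp))
  cases e1 : isNilF (T.commF r s) with
  | true =>
    left
    rw [e1] at h3
    refine ⟨isNilF_spec e1, ?_⟩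
    unfold repZ
    rw [mat_mul hS hR, mat_mul hR hS]
    exact matZ_congr fun v hv => beq_iff'.1 (allBelow_spec h3 v hv)
  | false =>
    right
    rw [e1] at h3
    simp only [cond_false] at h3
    set q := headQ (T.commF r s) with hq
    cases e2 : decide (T.commF r s = [(q, 1, 1, 1)]) with
    | true =>
      rw [e2] at h3
      have e3 := of_decide_eq_true e2
      have hqn := hrange _ _ _ _ e3
      obtain ⟨a1, a2, a3⟩ := chkV_spec hr hs h h3
      refine ⟨q, 1, e3, Or.inl rfl, ?_, a2, a3⟩
      ext w v
      rw [a1 v w]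
      have hQ := rangeOK_iff.1 (chkRep_range h hqn v.val v.2)
      rw [flip0_val (by rcases hQ with h | h; exact Or.inl h; exact Or.inr h.1)]
      simp [repZ, matZ]
    | false =>
      rw [e2] at h3
      simp only [cond_false] at h3
      cases e4 : decide (T.commF r s = [(q, -1, 1, 1)]) with
      | true =>
        rw [e4] at h3
        have e3 := of_decide_eq_true e4
        obtain ⟨a1, a2, a3⟩ := chkV_spec hr hs h h3
        refine ⟨q, -1, e3, Or.inr rfl, ?_, a2, a3⟩
        ext w v
        rw [a1 v w]
        simp [repZ, matZ]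
      | false =>
        rw [e4] at h3
        exact absurd h3 (by simp)

variable (K : Type*) [Field K]

/-- The matrix of a root. -/
noncomputable def repK (rows : List ℕ) (wd d r : ℕ) : Matrix (Fin d) (Fin d) K :=
  (Int.castRingHom K).mapMatrix (repZ rows wd d r)

variable {K}

/-- The commutator of two elements of square zero. -/
lemma comm_expand {A : Type*} [Ring A] {x y : A} (hx : x * x = 0) (hy : y * y = 0) (h1 : x * y * x = 0) (h2 : y * x * y = 0) :
    (1 - y) * (1 - x) * (1 + y) * (1 + x) = 1 + (y * x - x * y) := by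
  have e : (1 - y) * (1 - x) * (1 + y) * (1 + x) = 1 + (y * x - x * y) - x * x - y * y - x * y * x - (y * y) * x
      + y * (x * x) + y * x * y + (y * x * y) * x := by
    noncomm_ring
  rw [e, hx, hy, h1, h2]
  simp

open Classical in
/-- The letters of the representation. -/
noncomputable def repY (rows : List ℕ) (wd d r : ℕ) (t : K) : GL (Fin d) K :=
  if h : repK K rows wd d r * repK K rows wd d r = 0 then
    { val := 1 + t • repK K rows wd d r
      inv := 1 + (-t) • repK K rows wd d r
      val_inv := by
        rw [mul_add, mul_one, add_mul, one_mul, smul_mul_smul_comm, h]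
        simp
      inv_val := by
        rw [mul_add, mul_one, add_mul, one_mul, smul_mul_smul_comm, h]
        simp }
  else 1

lemma repK_sq (h : T.chkRep rows wd d = true) {r : ℕ} (hr : r < T.n) : repK K rows wd d r * repK K rows wd d r = 0 := by
  unfold repK
  rw [← map_mul, repZ_sq h hr, map_zero]

lemma repY_coe (h : T.chkRep rows wd d = true) {r : ℕ} (hr : r < T.n) (t : K) :
    ((repY rows wd d r t : GL (Fin d) K) : Matrix (Fin d) (Fin d) K) = 1 + t • repK K rows wd d r := by
  unfold repY
  rw [dif_pos (repK_sq h hr)]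

lemma repY_inv_coe (h : T.chkRep rows wd d = true) {r : ℕ} (hr : r < T.n) (t : K) :
    (((repY rows wd d r t)⁻¹ : GL (Fin d) K) : Matrix (Fin d) (Fin d) K) = 1 - t • repK K rows wd d r := by
  unfold repY
  rw [dif_pos (repK_sq h hr), sub_eq_add_neg, ← neg_smul]
  rfl

/-- The relations of the letters. -/
lemma repY_add (h : T.chkRep rows wd d = true) {r : ℕ} (hr : r < T.n) (t u : K) :
    repY rows wd d r (t + u) = repY rows wd d r t * repY rows wd d r u := by
  apply Units.ext
  rw [Units.val_mul, repY_coe h hr, repY_coe h hr, repY_coe h hr, mul_add, mul_one, add_mul, one_mul, smul_mul_smul_comm,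
    repK_sq h hr, add_smul]
  simp only [smul_zero, add_zero]
  abel

lemma repY_comm (hG : T.Good3 D) (h : T.chkRep rows wd d = true) {r s : ℕ} (hr : r < D.nroots) (hs : s < D.nroots) (h1 : s ≠ r)
    (h2 : s ≠ D.neg r) (t u : K) :
    (repY rows wd d s u)⁻¹ * (repY rows wd d r t)⁻¹ * repY rows wd d s u * repY rows wd d r t =
      ((D.commWord K r s t u).map fun p => repY rows wd d p.1 p.2).prod := by
  have hT := hG.correct
  have hr' := hG.lt_n hr
  have hs' := hG.lt_n hs
  have e2 : T.commF r s = D.commTerms r s := by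
    rw [Tbl.commT_eq hT hG.sane hr hs, ← Tbl.commF_eq]
  have hx : (t • repK K rows wd d r) * (t • repK K rows wd d r) = 0 := by
    rw [smul_mul_smul_comm, repK_sq h hr', smul_zero]
  have hy : (u • repK K rows wd d s) * (u • repK K rows wd d s) = 0 := by
    rw [smul_mul_smul_comm, repK_sq h hs', smul_zero]
  have hφ : ∀ A B : Matrix (Fin d) (Fin d) ℤ, (Int.castRingHom K).mapMatrix (A * B) =
      (Int.castRingHom K).mapMatrix A * (Int.castRingHom K).mapMatrix B := fun A B => map_mul _ A B
  have hL : ((((repY rows wd d s u)⁻¹ * (repY rows wd d r t)⁻¹ * repY rows wd d s u * repY rows wd d r t : GL (Fin d) K)) : Matrix (Fin d) (Fin d) K) =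
      (1 - u • repK K rows wd d s) * (1 - t • repK K rows wd d r) * (1 + u • repK K rows wd d s) * (1 + t • repK K rows wd d r) := by
    simp only [Units.val_mul]
    rw [repY_inv_coe h hs', repY_inv_coe h hr', repY_coe h hs', repY_coe h hr']
  rcases repZ_pair hG h hr' hs' h1 (by rw [hT.neg_eq r hr]; exact h2) with ⟨e1, e3⟩ | ⟨q, C, e1, hC, e3, e4, e5⟩
  · have e4 : D.commWord K r s t u = [] := by
      unfold ChevalleyDatum.commWord
      rw [← e2, e1]
      rfl
    rw [e4, List.map_nil, List.prod_nil]
    apply Units.ext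
    rw [hL, Units.val_one]
    have e5 : repK K rows wd d s * repK K rows wd d r = repK K rows wd d r * repK K rows wd d s := by
      unfold repK
      rw [← map_mul, ← map_mul, e3]
    have e6 : (u • repK K rows wd d s) * (t • repK K rows wd d r) = (t • repK K rows wd d r) * (u • repK K rows wd d s) := by
      rw [smul_mul_smul_comm, smul_mul_smul_comm, e5, mul_comm u t]
    rw [comm_expand hx hy ?_ ?_, e6, sub_self, add_zero]
    · rw [← e6, mul_assoc, hx, mul_zero]
    · rw [e6, mul_assoc, hy, mul_zero]
  · have e6 : D.commWord K r s t u = [(q, (C : K) * (-t) ^ 1 * u ^ 1)] := by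
      unfold ChevalleyDatum.commWord
      rw [← e2, e1]
      rfl
    have hq : q < T.n := by
      rw [e2] at e1
      exact hG.lt_n (hG.commTerms_lt hr hs (q, C, 1, 1) (by rw [e1]; simp))
    rw [e6]
    simp only [List.map_cons, List.map_nil, List.prod_cons, List.prod_nil, mul_one, pow_one]
    apply Units.ext
    rw [hL, repY_coe h hq]
    have e7 : repK K rows wd d s * repK K rows wd d r - repK K rows wd d r * repK K rows wd d s =
        (-(C : K)) • repK K rows wd d q := by
      unfold repK
      rw [← map_mul, ← map_mul, ← map_sub, e3, map_zsmul, ← Int.cast_smul_eq_zsmul K, Int.cast_neg]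
    have e8 : repK K rows wd d r * repK K rows wd d s * repK K rows wd d r = 0 := by
      unfold repK
      rw [← map_mul, ← map_mul, e4, map_zero]
    have e9 : repK K rows wd d s * repK K rows wd d r * repK K rows wd d s = 0 := by
      unfold repK
      rw [← map_mul, ← map_mul, e5, map_zero]
    rw [comm_expand hx hy ?_ ?_]
    · rw [smul_mul_smul_comm, smul_mul_smul_comm, mul_comm t u, ← smul_sub, e7, smul_smul]
      congr 2
      ring
    · rw [smul_mul_smul_comm, smul_mul_smul_comm, e8, smul_zero]
    · rw [smul_mul_smul_comm, smul_mul_smul_comm, e9, smul_zero]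

/-- The representation. -/
theorem exists_rep (hG : T.Good3 D) (h : T.chkRep rows wd d = true) (K : Type*) [Field K] :
    ∃ ρ : D.SteinbergCover K →* GL (Fin d) K, ∀ (p : Fin D.nroots × K), ρ (PresentedGroup.of p) = repY rows wd d p.1.1 p.2 :=
  hom_of_rel (fun r s hr hs t u => commWord_range hG hr hs t u) _
    (fun r hr t u => repY_add h (hG.lt_n hr) t u) (fun r s hr hs h1 h2 t u => repY_comm hG h hr hs h1 h2 t u)

end Rep

end Cfsg.Agent.Lib.St
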