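/-
The action of the torus on the highest weight vector of a monomial representation.
-/
import Cfsg.Agent.Lib.St.Minu3

set_option autoImplicit false

namespace Cfsg.Agent.Lib.St

open Cfsg Cfsg.Lie Cfsg.Agent.Lib.Chev Cfsg.Agent.Lib.Chev.Tbl
open scoped commutatorElement

section Act

variable {K : Type*} [Field K] {d : ℕ}

lemma one_add_act (R : Matrix (Fin d) (Fin d) K) (a : K) (v : Fin d → K) :
    (1 + a • R).mulVec v = v + a • R.mulVec v := by
  rw [Matrix.add_mulVec, Matrix.one_mulVec, Matrix.smul_mulVec]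

/-- The element `n̄(t)` on the first vector. -/
lemma nb_act_x {R R' : Matrix (Fin d) (Fin d) K} {x y : Fin d → K} {c : K} (hRx : R.mulVec x = 0) (hRy : R.mulVec y = c • x)
    (hR'x : R'.mulVec x = c • y) (hc : c * c = 1) {t : K} (ht : t ≠ 0) :
    ((1 + t • R) * (1 + (-t⁻¹) • R') * (1 + t • R)).mulVec x = (-t⁻¹ * c) • y := by
  have h1 : (1 + t • R).mulVec x = x := by rw [one_add_act, hRx, smul_zero, add_zero]
  have h2 : (1 + (-t⁻¹) • R').mulVec x = x + (-t⁻¹) • c • y := by rw [one_add_act, hR'x]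
  rw [← Matrix.mulVec_mulVec, ← Matrix.mulVec_mulVec, h1, h2, one_add_act,
    Matrix.mulVec_add, Matrix.mulVec_smul, Matrix.mulVec_smul, hRx, hRy]
  funext w
  simp only [Pi.add_apply, Pi.smul_apply, smul_eq_mul, Pi.zero_apply]
  have ht' : t * t⁻¹ = 1 := mul_inv_cancel₀ ht
  linear_combination (-c * c * x w) * ht' - (x w) * hc

/-- The element `n̄(t)` on the second vector. -/
lemma nb_act_y {R R' : Matrix (Fin d) (Fin d) K} {x y : Fin d → K} {c : K} (hRx : R.mulVec x = 0) (hRy : R.mulVec y = c • x)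
    (hR'x : R'.mulVec x = c • y) (hR'y : R'.mulVec y = 0) (hc : c * c = 1) {t : K} (ht : t ≠ 0) :
    ((1 + t • R) * (1 + (-t⁻¹) • R') * (1 + t • R)).mulVec y = (t * c) • x := by
  have h1 : (1 + t • R).mulVec y = y + t • c • x := by rw [one_add_act, hRy]
  have h2 : (1 + (-t⁻¹) • R').mulVec (y + t • c • x) = (y + t • c • x) + (-t⁻¹) • (0 + t • c • c • y) := by
    rw [one_add_act, Matrix.mulVec_add, Matrix.mulVec_smul, Matrix.mulVec_smul, hR'y, hR'x]
  rw [← Matrix.mulVec_mulVec, ← Matrix.mulVec_mulVec, h1, h2, one_add_act]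
  simp only [Matrix.mulVec_add, Matrix.mulVec_smul, Matrix.mulVec_zero, hRy, hRx]
  funext w
  simp only [Pi.add_apply, Pi.smul_apply, smul_eq_mul, Pi.zero_apply]
  have e : t⁻¹ * t * (c * c) = 1 := by rw [hc, inv_mul_cancel₀ ht, mul_one]
  linear_combination (-y w - t * c * x w) * e

/-- The element `h̄(t)` on the first vector. -/
lemma hb_act {R R' : Matrix (Fin d) (Fin d) K} {x y : Fin d → K} {c : K} (hRx : R.mulVec x = 0) (hRy : R.mulVec y = c • x)
    (hR'x : R'.mulVec x = c • y) (hR'y : R'.mulVec y = 0) (hc : c * c = 1) {t : K} (ht : t ≠ 0) :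
    (((1 + t • R) * (1 + (-t⁻¹) • R') * (1 + t • R)) * ((1 + (-1 : K) • R) * (1 + (-(-1 : K)⁻¹) • R') * (1 + (-1 : K) • R))).mulVec x = t • x := by
  have h1 : (-1 : K) ≠ 0 := neg_ne_zero.2 one_ne_zero
  rw [← Matrix.mulVec_mulVec, nb_act_x hRx hRy hR'x hc h1, Matrix.mulVec_smul, nb_act_y hRx hRy hR'x hR'y hc ht, smul_smul]
  have : -(-1 : K)⁻¹ * c * (t * c) = t := by
    have e : (-1 : K)⁻¹ = -1 := by norm_num
    rw [e]
    linear_combination t * hc
  rw [this]

/-- The element `h̄(t)` on a fixed vector. -/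
lemma hb_act_triv {R R' : Matrix (Fin d) (Fin d) K} {x : Fin d → K} (hRx : R.mulVec x = 0) (hR'x : R'.mulVec x = 0) (t u v w a b : K) :
    (((1 + t • R) * (1 + a • R') * (1 + u • R)) * ((1 + v • R) * (1 + b • R') * (1 + w • R))).mulVec x = x := by
  rw [← Matrix.mulVec_mulVec, ← Matrix.mulVec_mulVec, ← Matrix.mulVec_mulVec, ← Matrix.mulVec_mulVec, ← Matrix.mulVec_mulVec]
  simp only [one_add_act, hRx, hR'x, smul_zero, add_zero]

end Act

section Rep

variable {T : Tbl} {D : ChevalleyDatum} {rows : List ℕ} {wd d : ℕ} {K : Type*} [Field K]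

lemma repK_single (r : ℕ) (v : Fin d) :
    (repK K rows wd d r).mulVec (Pi.single v 1) = fun w => ((vecZ d (cdF rows wd r v.val) w : ℤ) : K) := by
  rw [Matrix.mulVec_single_one]
  rfl

lemma vec_cast_zero : (fun w : Fin d => ((vecZ d 0 w : ℤ) : K)) = 0 := by
  funext w
  simp [vecZ_zero]

lemma vec_cast_code {e : ℕ} (he : 2 ≤ e) (h : e / 2 - 1 < d) :
    (fun w : Fin d => ((vecZ d e w : ℤ) : K)) = ((sgnZ e : ℤ) : K) • Pi.single (⟨e / 2 - 1, h⟩ : Fin d) (1 : K) := by
  funext w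
  have h0 : e ≠ 0 := by omega
  simp only [vecZ, if_neg h0, Pi.smul_apply, smul_eq_mul]
  by_cases hw : e / 2 - 1 = w.val
  · have e1 : w = ⟨e / 2 - 1, h⟩ := Fin.ext hw.symm
    rw [if_pos hw, e1]
    simp
  · have e1 : w ≠ ⟨e / 2 - 1, h⟩ := fun h2 => hw (by rw [h2])
    rw [if_neg hw, Pi.single_eq_of_ne e1]
    simp

lemma chkV0_spec {k : ℕ} (h : T.chkV0 rows wd d k = true) :
    0 < d ∧ k < T.l ∧ ∀ i, i < T.l → cdF rows wd (T.simple i) 0 = 0 ∧
      (i = k → 2 ≤ cdF rows wd (T.neg (T.simple i)) 0 ∧ cdF rows wd (T.neg (T.simple i)) 0 / 2 - 1 < d ∧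
        cdF rows wd (T.simple i) (cdF rows wd (T.neg (T.simple i)) 0 / 2 - 1) = 2 + cdF rows wd (T.neg (T.simple i)) 0 % 2 ∧
        cdF rows wd (T.neg (T.simple i)) (cdF rows wd (T.neg (T.simple i)) 0 / 2 - 1) = 0) ∧
      (i ≠ k → cdF rows wd (T.neg (T.simple i)) 0 = 0) := by
  unfold chkV0 at h
  simp only [Bool.and_eq_true] at h
  obtain ⟨h1, h2, h3⟩ := h
  refine ⟨Nat.le_of_ble_eq_true h1, Nat.le_of_ble_eq_true h2, fun i hi => ?_⟩
  have h4 := allBelow_spec h3 i hi
  simp only [Bool.and_eq_true] at h4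
  obtain ⟨h5, h6⟩ := h4
  refine ⟨beq_iff'.1 h5, ?_, ?_⟩
  · intro e
    rw [e, Nat.beq_refl] at h6
    simp only [cond_true, Bool.and_eq_true] at h6
    rw [e]
    obtain ⟨a1, a2, a3, a4⟩ := h6
    exact ⟨Nat.le_of_ble_eq_true a1, Nat.le_of_ble_eq_true a2, beq_iff'.1 a3, beq_iff'.1 a4⟩
  · intro e
    rw [beq_false e] at h6
    exact beq_iff'.1 h6

/-- The system of the group of (R1), (R2). -/
noncomputable abbrev covSys (hG : T.Good3 D) (K : Type*) [Field K] : Sys hG K (D.SteinbergCover K) :=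
  canSys hG (D.steinbergRelsAB K) subset_rfl (lift_relAB hG)

variable {hG : T.Good3 D} {ρ : D.SteinbergCover K →* GL (Fin d) K}

/-- The elements `h̄` on the highest weight vector. -/
theorem rep_hb (hρ : ∀ (p : Fin D.nroots × K), ρ (PresentedGroup.of p) = repY rows wd d p.1.1 p.2)
    (h : T.chkRep rows wd d = true) {k : ℕ} (hv : T.chkV0 rows wd d k = true) (hd : 0 < d) {i : ℕ} (hi : i < D.rank) {t : K} (ht : t ≠ 0) :
    ((ρ ((covSys hG K).hb (D.simple i) t) : GL (Fin d) K) : Matrix (Fin d) (Fin d) K).mulVec (Pi.single ⟨0, hd⟩ 1) =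
      (if i = k then t else 1) • Pi.single ⟨0, hd⟩ 1 := by
  have hT := hG.correct
  have hs := hG.simple_lt hi
  have hn := hG.neg_lt hs
  have hi' := hG.lt_l hi
  obtain ⟨_, _, h0⟩ := chkV0_spec hv
  obtain ⟨a1, a2, a3⟩ := h0 i hi'
  rw [hT.simple_eq i hi] at a1
  rw [hT.simple_eq i hi, hT.neg_eq _ hs] at a2 a3
  have hy : ∀ {r : ℕ} (hr : r < D.nroots) (t : K), ρ ((covSys hG K).y r t) = repY rows wd d r t := by
    intro r hr t
    have := canSys_y_of hG (K := K) ((⟨r, hr⟩, t) : Fin D.nroots × K)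
    show ρ ((covSys hG K).y (⟨r, hr⟩ : Fin D.nroots).1 t) = _
    rw [this, hρ]
  have hN : ∀ t : K, ((ρ ((covSys hG K).nb (D.simple i) t) : GL (Fin d) K) : Matrix (Fin d) (Fin d) K) =
      (1 + t • repK K rows wd d (D.simple i)) * (1 + (-t⁻¹) • repK K rows wd d (D.neg (D.simple i))) *
        (1 + t • repK K rows wd d (D.simple i)) := by
    intro t
    unfold Sys.nb
    rw [map_mul, map_mul, hy hs, hy hn, Units.val_mul, Units.val_mul, repY_coe h (hG.lt_n hs), repY_coe h (hG.lt_n hn)]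
  have e1 : ((ρ ((covSys hG K).hb (D.simple i) t) : GL (Fin d) K) : Matrix (Fin d) (Fin d) K) =
      ((1 + t • repK K rows wd d (D.simple i)) * (1 + (-t⁻¹) • repK K rows wd d (D.neg (D.simple i))) *
        (1 + t • repK K rows wd d (D.simple i))) *
      ((1 + (-1 : K) • repK K rows wd d (D.simple i)) * (1 + (-(-1 : K)⁻¹) • repK K rows wd d (D.neg (D.simple i))) *
        (1 + (-1 : K) • repK K rows wd d (D.simple i))) := by
    unfold Sys.hb
    rw [map_mul, Units.val_mul, hN, hN]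
  rw [e1]
  have hRx : (repK K rows wd d (D.simple i)).mulVec (Pi.single ⟨0, hd⟩ 1) = 0 := by
    rw [repK_single]
    show (fun w => ((vecZ d (cdF rows wd (D.simple i) 0) w : ℤ) : K)) = 0
    rw [a1, vec_cast_zero]
  by_cases e : i = k
  · rw [if_pos e]
    obtain ⟨b1, b2, b3, b4⟩ := a2 e
    set c := cdF rows wd (D.neg (D.simple i)) 0 with hc
    have hR'x : (repK K rows wd d (D.neg (D.simple i))).mulVec (Pi.single ⟨0, hd⟩ 1) =
        ((sgnZ c : ℤ) : K) • Pi.single (⟨c / 2 - 1, b2⟩ : Fin d) 1 := by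
      rw [repK_single]
      show (fun w => ((vecZ d c w : ℤ) : K)) = _
      rw [vec_cast_code b1 b2]
    have hRy : (repK K rows wd d (D.simple i)).mulVec (Pi.single (⟨c / 2 - 1, b2⟩ : Fin d) 1) =
        ((sgnZ c : ℤ) : K) • Pi.single ⟨0, hd⟩ 1 := by
      rw [repK_single]
      show (fun w => ((vecZ d (cdF rows wd (D.simple i) (c / 2 - 1)) w : ℤ) : K)) = _
      rw [b3, vec_cast_code (by omega) (by omega)]
      have e2 : (⟨(2 + c % 2) / 2 - 1, by omega⟩ : Fin d) = ⟨0, hd⟩ := Fin.ext (by simp only; omega)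
      have e3 : sgnZ (2 + c % 2) = sgnZ c := by
        unfold sgnZ
        by_cases h5 : c % 2 = 1
        · simp [h5]
        · have h6 : c % 2 = 0 := by omega
          simp [h6]
      rw [e2, e3]
    have hR'y : (repK K rows wd d (D.neg (D.simple i))).mulVec (Pi.single (⟨c / 2 - 1, b2⟩ : Fin d) 1) = 0 := by
      rw [repK_single]
      show (fun w => ((vecZ d (cdF rows wd (D.neg (D.simple i)) (c / 2 - 1)) w : ℤ) : K)) = 0
      rw [b4, vec_cast_zero]
    have hcc : ((sgnZ c : ℤ) : K) * ((sgnZ c : ℤ) : K) = 1 := by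
      unfold sgnZ
      split_ifs <;> simp
    exact hb_act hRx hRy hR'x hR'y hcc ht
  · rw [if_neg e, one_smul]
    apply hb_act_triv hRx
    rw [repK_single]
    show (fun w => ((vecZ d (cdF rows wd (D.neg (D.simple i)) 0) w : ℤ) : K)) = 0
    rw [a3 e, vec_cast_zero]

/-- The torus on the highest weight vector. -/
theorem rep_torus (hρ : ∀ (p : Fin D.nroots × K), ρ (PresentedGroup.of p) = repY rows wd d p.1.1 p.2)
    (h : T.chkRep rows wd d = true) {k : ℕ} (hv : T.chkV0 rows wd d k = true) (hd : 0 < d) (hk : k < D.rank)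
    {wit : ℕ → ℕ × ℕ} (hW : StHyp T wit) (h3 : (covSys hG K).R3) (c : Fin D.rank → Kˣ) :
    ((ρ (Sys.torus h3 hW c) : GL (Fin d) K) : Matrix (Fin d) (Fin d) K).mulVec (Pi.single ⟨0, hd⟩ 1) =
      ((c ⟨k, hk⟩ : Kˣ) : K) • Pi.single ⟨0, hd⟩ 1 := by
  classical
  have key : ∀ A : Finset (Fin D.rank),
      ((ρ (Sys.torus h3 hW (∏ i ∈ A, Pi.mulSingle i (c i))) : GL (Fin d) K) : Matrix (Fin d) (Fin d) K).mulVec (Pi.single ⟨0, hd⟩ 1) =
        (((∏ i ∈ A, Pi.mulSingle i (c i)) ⟨k, hk⟩ : Kˣ) : K) • Pi.single ⟨0, hd⟩ 1 := by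
    intro A
    induction A using Finset.induction_on with
    | empty =>
      rw [Finset.prod_empty, map_one, map_one, Units.val_one, Matrix.one_mulVec]
      simp
    | insert a A ha ih =>
      rw [Finset.prod_insert ha, map_mul, map_mul, Sys.torus_single, Units.val_mul, ← Matrix.mulVec_mulVec, ih,
        Matrix.mulVec_smul, rep_hb hρ h hv hd a.2 (c a).ne_zero, smul_smul, Pi.mul_apply, Units.val_mul, mul_comm]
      congr 2
      by_cases e : a = ⟨k, hk⟩
      · subst e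
        simp
      · have e1 : a.val ≠ k := fun h1 => e (Fin.ext h1)
        rw [if_neg e1, Pi.mulSingle_eq_of_ne (Ne.symm e)]
        simp
  have e := key Finset.univ
  rw [Finset.univ_prod_mulSingle] at e
  exact e

end Rep

end Cfsg.Agent.Lib.St
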