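/-
Central extensions of a group with the relations (R1), (R2), for small fields: canonical lifts of the letters
through torus elements of the pairing of a chosen root.
-/
import Cfsg.Agent.Lib.St.HW3

set_option autoImplicit false

namespace Cfsg.Agent.Lib.St

open Cfsg Cfsg.Lie Cfsg.Agent.Lib.Chev
open scoped commutatorElement

variable {K : Type*} [Field K] {D : ChevalleyDatum} {T : Tbl} {hG : T.Good3 D} {Δ : Type*} [Group Δ]
  {wit : ℕ → ℕ × ℕ}

/-- A central extension of a group with Steinberg's relations, with a torus element for each root. -/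
structure GExt (S : Sys hG K Δ) (E : Type*) [Group E] (wit : ℕ → ℕ × ℕ) where
  hW : StHyp T wit
  p : E →* Δ
  f : Δ → E
  hf : ∀ g, p (f g) = g
  hc : ∀ z, p z = 1 → ∀ w, w * z = z * w
  τ : K
  hτ0 : τ ≠ 0
  qr : ℕ → ℕ
  hqr : ∀ r, r < D.nroots → qr r < D.nroots
  hμ : ∀ r, r < D.nroots → τ ^ D.pairing (qr r) r ≠ 1

namespace GExt

variable {S : Sys hG K Δ} {E : Type*} [Group E] (X : GExt S E wit)

/-- The underlying extension. -/
def toH : HExt S E wit := ⟨X.hW, X.p, X.f, X.hf, X.hc⟩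

lemma cm_congr {x x' y y' : E} (h1 : X.p x = X.p x') (h2 : X.p y = X.p y') : ⁅x, y⁆ = ⁅x', y'⁆ :=
  X.toH.cm_congr h1 h2

/-- The scalar of a root. -/
noncomputable def μ (r : ℕ) : K := X.τ ^ D.pairing (X.qr r) r

/-- The inverse of the scalar minus one. -/
noncomputable def c (r : ℕ) : K := (X.μ r - 1)⁻¹

lemma mul_c {r : ℕ} (hr : r < D.nroots) : (X.μ r - 1) * X.c r = 1 :=
  mul_inv_cancel₀ (sub_ne_zero.2 (X.hμ r hr))

/-- The chosen torus element. -/
noncomputable def η (r : ℕ) : Δ := S.hb (X.qr r) X.τ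

lemma η_conj {r : ℕ} (hr : r < D.nroots) (v : K) : X.η r * S.y r v * (X.η r)⁻¹ = S.y r (X.μ r * v) :=
  S.hb_conj_y X.hW (X.hqr r hr) hr X.hτ0 v

/-- Each letter is a commutator. -/
lemma perf {r : ℕ} (hr : r < D.nroots) (u : K) : S.y r u = ⁅X.η r, S.y r (X.c r * u)⁆ := by
  rw [commutatorElement_def, X.η_conj hr, S.y_inv hr, S.add hr]
  congr 1
  have := X.mul_c hr
  linear_combination (-u) * this

/-- The canonical lift of a letter. -/
noncomputable def Y (r : ℕ) (u : K) : E := ⁅X.f (X.η r), X.f (S.y r (X.c r * u))⁆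

lemma p_Y {r : ℕ} (hr : r < D.nroots) (u : K) : X.p (X.Y r u) = S.y r u := by
  unfold Y
  rw [map_commutatorElement, X.hf, X.hf, ← X.perf hr]

/-- A lift of a central element is central. -/
lemma lift_center {ζ : E} (hz : X.p ζ ∈ Subgroup.center Δ) (w : E) : w * ζ = ζ * w := by
  have hz' := Subgroup.mem_center_iff.1 hz
  have hφc : ∀ x, X.p ⁅ζ, x⁆ = 1 := fun x => by
    rw [map_commutatorElement]
    exact cm_eq_one (hz' _).symm
  let φ : E →* E := MonoidHom.mk' (fun x => ⁅ζ, x⁆) (fun a b => cm_mul_right (X.hc _ (hφc b)))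
  have hφ1 : ∀ a b, φ ⁅a, b⁆ = 1 := fun a b => by
    rw [map_commutatorElement]
    exact cm_eq_one (X.hc _ (hφc a) _).symm
  have hφ2 : ∀ a, X.p a = 1 → φ a = 1 := fun a ha => cm_eq_one (X.hc _ ha _)
  have hQ : ∀ g, ∀ x, X.p x = g → φ x = 1 := by
    intro g
    have hg : g ∈ (⊤ : Subgroup Δ) := Subgroup.mem_top g
    rw [← S.gen] at hg
    induction hg using Subgroup.closure_induction with
    | mem g hg =>
      obtain ⟨r, t, hr, rfl⟩ := hg
      intro x hx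
      have e : x = X.Y r t * ((X.Y r t)⁻¹ * x) := by group
      have h1 : X.p ((X.Y r t)⁻¹ * x) = 1 := by
        rw [map_mul, map_inv, X.p_Y hr, hx, inv_mul_cancel]
      rw [e, map_mul, hφ2 _ h1, mul_one]
      exact hφ1 _ _
    | one => exact fun x hx => hφ2 x hx
    | mul a b _ _ ha hb =>
      intro x hx
      have e : x = X.f a * ((X.f a)⁻¹ * x) := by group
      rw [e, map_mul, ha _ (X.hf a), hb _ (by rw [map_mul, map_inv, hx, X.hf]; group), mul_one]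
    | inv a _ ha =>
      intro x hx
      have h1 := ha x⁻¹ (by rw [map_inv, hx, inv_inv])
      rw [map_inv] at h1
      exact inv_eq_one.1 h1
  exact (comm_of_cm (hQ _ w rfl)).symm

/-- The lifts of the letters of a root commute. -/
def Ab (r : ℕ) : Prop :=
  ∀ (x x' : E) (u v : K), X.p x = S.y r u → X.p x' = S.y r v → x * x' = x' * x

lemma Y_add {r : ℕ} (hr : r < D.nroots) (h : X.Ab r) (u v : K) : X.Y r u * X.Y r v = X.Y r (u + v) := by
  unfold Y
  set g := X.f (X.η r) with hg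
  set a := X.f (S.y r (X.c r * u)) with ha
  set b := X.f (S.y r (X.c r * v)) with hb'
  have hab : X.p (a * b) = X.p (X.f (S.y r (X.c r * (u + v)))) := by
    rw [map_mul, ha, hb', X.hf, X.hf, X.hf, S.add hr, mul_add]
  rw [← X.cm_congr rfl hab]
  have pa : X.p a = S.y r (X.c r * u) := X.hf _
  have pb : X.p b = S.y r (X.c r * v) := X.hf _
  have pb' : X.p (g * b * g⁻¹) = S.y r (X.μ r * (X.c r * v)) := by
    rw [map_mul, map_mul, map_inv, hg, X.hf, pb, X.η_conj hr]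
  have c1 : a * (g * b * g⁻¹) = (g * b * g⁻¹) * a := h _ _ _ _ pa pb'
  have c2 : a * b = b * a := h _ _ _ _ pa pb
  set b' := g * b * g⁻¹ with hb''
  have c1' : a⁻¹ * b' = b' * a⁻¹ := by
    rw [inv_mul_eq_iff_eq_mul, ← mul_assoc, c1, mul_inv_cancel_right]
  have c2' : a⁻¹ * b⁻¹ = b⁻¹ * a⁻¹ := by
    rw [← mul_inv_rev, ← mul_inv_rev, c2]
  simp only [commutatorElement_def]
  calc g * a * g⁻¹ * a⁻¹ * (g * b * g⁻¹ * b⁻¹) = (g * a * g⁻¹) * (a⁻¹ * b') * b⁻¹ := by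
        rw [hb'']
        group
    _ = (g * a * g⁻¹) * b' * (a⁻¹ * b⁻¹) := by
        rw [c1']
        group
    _ = (g * a * g⁻¹) * b' * (b⁻¹ * a⁻¹) := by rw [c2']
    _ = _ := by
        rw [hb'']
        group

lemma Y_zero {r : ℕ} (hr : r < D.nroots) (h : X.Ab r) : X.Y r 0 = 1 := by
  have h1 := X.Y_add hr h 0 0
  rw [add_zero] at h1
  exact mul_eq_left.1 h1

lemma Y_neg {r : ℕ} (hr : r < D.nroots) (h : X.Ab r) (u : K) : (X.Y r u)⁻¹ = X.Y r (-u) := by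
  rw [inv_eq_iff_mul_eq_one, X.Y_add hr h, add_neg_cancel, X.Y_zero hr h]

/-- Action on the canonical lifts. -/
lemma Y_act {r : ℕ} {g : Δ} {ν : K} (hν : ∀ v, g * S.y r v * g⁻¹ = S.y r (ν * v))
    (hg : ⁅g, X.η r⁆ ∈ Subgroup.center Δ) (u : K) :
    X.f g * X.Y r u * (X.f g)⁻¹ = X.Y r (ν * u) := by
  unfold Y
  rw [cm_conj]
  set a := X.f g with ha
  set h := X.f (X.η r) with hh
  set b := X.f (S.y r (X.c r * u)) with hb'
  have hξ : X.p ⁅a, h⁆ ∈ Subgroup.center Δ := by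
    rw [map_commutatorElement, ha, hh, X.hf, X.hf]
    exact hg
  have hc := X.lift_center hξ
  have e1 : a * h * a⁻¹ = h * ⁅a, h⁆ := by
    rw [hc h, commutatorElement_def]
    group
  rw [e1, cm_mul_central_left hc]
  apply X.cm_congr rfl
  rw [map_mul, map_mul, map_inv, ha, hb', X.hf, X.hf, X.hf, hν]
  congr 1
  ring

/-- Commutators with a lift. -/
lemma cm_Y {r : ℕ} (hr : r < D.nroots) (h : X.Ab r) {g : Δ} {ν : K} (hν : ∀ v, g * S.y r v * g⁻¹ = S.y r (ν * v))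
    (hg : ⁅g, X.η r⁆ ∈ Subgroup.center Δ) {x : E} {κ : K} (hx : X.p x = S.y r κ) :
    ⁅X.f g, x⁆ = X.Y r ((ν - 1) * κ) := by
  have e : ⁅X.f g, x⁆ = ⁅X.f g, X.Y r κ⁆ := X.cm_congr rfl (by rw [hx, X.p_Y hr])
  rw [e, commutatorElement_def, X.Y_act hν hg, X.Y_neg hr h, X.Y_add hr h]
  congr 1
  ring

/-- Elements permuting the letters permute the lifts. -/
lemma Y_conj_N {q q' : ℕ} (hq : q < D.nroots) (hq' : q' < D.nroots) (h : X.Ab q') {n : Δ} {c' : K} (hc' : c' ≠ 0)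
    (hn : ∀ v, n * S.y q v * n⁻¹ = S.y q' (c' * v))
    (hg : ⁅n * X.η q * n⁻¹, X.η q'⁆ ∈ Subgroup.center Δ) (u : K) :
    X.f n * X.Y q u * (X.f n)⁻¹ = X.Y q' (c' * u) := by
  unfold Y
  rw [cm_conj]
  set g' := n * X.η q * n⁻¹ with hg'
  have e1 : ⁅X.f n * X.f (X.η q) * (X.f n)⁻¹, X.f n * X.f (S.y q (X.c q * u)) * (X.f n)⁻¹⁆ =
      ⁅X.f g', X.f n * X.f (S.y q (X.c q * u)) * (X.f n)⁻¹⁆ := by
    apply X.cm_congr _ rfl
    rw [map_mul, map_mul, map_inv, X.hf, X.hf, X.hf]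
  have hν : ∀ v, g' * S.y q' v * g'⁻¹ = S.y q' (X.μ q * v) := by
    intro v
    have e2 : S.y q' v = n * S.y q (c'⁻¹ * v) * n⁻¹ := by
      rw [hn, ← mul_assoc, mul_inv_cancel₀ hc', one_mul]
    have e3 : g' * (n * S.y q (c'⁻¹ * v) * n⁻¹) * g'⁻¹ =
        n * (X.η q * S.y q (c'⁻¹ * v) * (X.η q)⁻¹) * n⁻¹ := by
      rw [hg']
      group
    rw [e2, e3, X.η_conj hq, hn]
    congr 1
    field_simp
  have hx : X.p (X.f n * X.f (S.y q (X.c q * u)) * (X.f n)⁻¹) = S.y q' (c' * (X.c q * u)) := by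
    rw [map_mul, map_mul, map_inv, X.hf, X.hf, hn]
  rw [e1, X.cm_Y hq' h hν hg hx]
  congr 1
  have := X.mul_c hq
  linear_combination (c' * u) * this

include X in
/-- Elements of `H̄` commute modulo the centre. -/
lemma Hb_cm_center {a b : Δ} (ha : a ∈ S.Hb) (hb' : b ∈ S.Hb) : ⁅a, b⁆ ∈ Subgroup.center Δ := by
  apply S.ker_le_center X.hW
  rw [MonoidHom.mem_ker, map_commutatorElement]
  exact cm_eq_one (diagSub_comm (hG.diagonalSubgroup_le (S.θ_Hb ha)) (hG.diagonalSubgroup_le (S.θ_Hb hb')))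

lemma η_mem {r : ℕ} (hr : r < D.nroots) : X.η r ∈ S.Hb := S.hb_mem X.hW (X.hqr r hr) X.hτ0

/-- The action of `h̄_q(t)` on the lifts. -/
lemma Y_hb {q r : ℕ} (hq : q < D.nroots) (hr : r < D.nroots) {t : K} (ht : t ≠ 0) (u : K) :
    X.f (S.hb q t) * X.Y r u * (X.f (S.hb q t))⁻¹ = X.Y r (t ^ D.pairing q r * u) :=
  X.Y_act (fun v => S.hb_conj_y X.hW hq hr ht v)
    (X.Hb_cm_center (S.hb_mem X.hW hq ht) (X.η_mem hr)) u

/-- The action of a word on the lifts. -/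
lemma Y_Nw (hAb : ∀ r, r < D.nroots → X.Ab r) {l : List (ℕ × K)} (hl : Sys.Vld D l) {q : ℕ} (hq : q < D.nroots) :
    ∃ c' : K, c' ≠ 0 ∧ ∀ u, X.f (S.Nw l) * X.Y q u * (X.f (S.Nw l))⁻¹ = X.Y (wperm T (l.map Prod.fst) q) (c' * u) := by
  obtain ⟨c', hc', e⟩ := S.conj_Nw X.hW hl hq
  have hw := hG.wperm_lt (Sys.Vld.fst X.hW hl) hq
  refine ⟨c', hc', fun u => X.Y_conj_N hq hw (hAb _ hw) hc' e ?_ u⟩
  exact X.Hb_cm_center (S.conj_Hb_Nw X.hW hl (X.η_mem hq)) (X.η_mem hw)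

end GExt

end Cfsg.Agent.Lib.St
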