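/-
Central extensions of a group with the relations (R1), (R2), for small fields: all the relations and the section.
-/
import Cfsg.Agent.Lib.St.GU2

set_option autoImplicit false

namespace Cfsg.Agent.Lib.St

open Cfsg Cfsg.Lie Cfsg.Agent.Lib.Chev
open scoped commutatorElement

variable {K : Type*} [Field K] {D : ChevalleyDatum} {T : Tbl} {hG : T.Good3 D} {Δ : Type*} [Group Δ]
  {wit : ℕ → ℕ × ℕ}

namespace GExt

variable {S : Sys hG K Δ} {E : Type*} [Group E] (X : GExt S E wit)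

/-- The action of a word in the `n̄_{p_i}(1)` on the lifts. -/
lemma Y_Np (hAb : ∀ r, r < D.nroots → X.Ab r) {l : List ℕ} (hl : ∀ i ∈ l, i < D.rank) {q : ℕ} (hq : q < D.nroots) :
    ∃ c' : K, c' ≠ 0 ∧ ∀ u, X.f (S.Np l) * X.Y q u * (X.f (S.Np l))⁻¹ = X.Y (wperm T l q) (c' * u) := by
  have h := X.Y_Nw hAb (Sys.Np_vld hl) hq
  have e : (l.map fun i => (i, (1 : K))).map Prod.fst = l := by
    rw [List.map_map]
    exact List.map_id l
  rw [e] at h
  exact h

/-- The relations of the lifts, given a word making the roots positive. -/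
lemma comm_of_word (hAb : ∀ r, r < D.nroots → X.Ab r)
    (hq : ∀ r s, D.nroots / 2 ≤ r → r < s → s < D.nroots → X.Ok r s)
    {r s : ℕ} (hr : r < D.nroots) (hs : s < D.nroots) (h1 : s ≠ r) (h2 : s ≠ D.neg r)
    {l : List ℕ} (hl : ∀ i ∈ l, i < D.rank) (hrp : D.nroots / 2 ≤ wperm T l r) (hsp : D.nroots / 2 ≤ wperm T l s)
    (hcp : ∀ c ∈ D.commTerms r s, D.nroots / 2 ≤ wperm T l c.1) (t u : K) :
    (X.Y s u)⁻¹ * (X.Y r t)⁻¹ * X.Y s u * X.Y r t = X.YW (D.commWord K r s t u) := by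
  have hinj := X.VY_range hAb hq (D.nroots / 2) (D.nroots / 2) le_rfl (half_add hG)
  obtain ⟨η, hη⟩ : ∃ η : E, η = X.f (S.Np l) := ⟨_, rfl⟩
  have hmem : ∀ q, q < D.nroots → D.nroots / 2 ≤ wperm T l q → ∀ v, η * X.Y q v * η⁻¹ ∈ X.VY (List.range' (D.nroots / 2) (D.nroots / 2)) := by
    intro q hq' hq2 v
    obtain ⟨c', _, e⟩ := X.Y_Np hAb hl hq'
    rw [hη, e]
    apply X.mem_VY
    rw [List.mem_range'_1]
    have := hG.wperm_lt hl hq'
    have := half_add hG
    omega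
  have hA : η * ((X.Y s u)⁻¹ * (X.Y r t)⁻¹ * X.Y s u * X.Y r t) * η⁻¹ ∈ X.VY (List.range' (D.nroots / 2) (D.nroots / 2)) := by
    have e : η * ((X.Y s u)⁻¹ * (X.Y r t)⁻¹ * X.Y s u * X.Y r t) * η⁻¹ =
        (η * X.Y s u * η⁻¹)⁻¹ * (η * X.Y r t * η⁻¹)⁻¹ * (η * X.Y s u * η⁻¹) * (η * X.Y r t * η⁻¹) := by group
    rw [e]
    have m1 := hmem s hs hsp u
    have m2 := hmem r hr hrp t
    exact Subgroup.mul_mem _ (Subgroup.mul_mem _ (Subgroup.mul_mem _ (Subgroup.inv_mem _ m1) (Subgroup.inv_mem _ m2)) m1) m2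
  have hB : ∀ w : List (ℕ × K), (∀ p ∈ w, p.1 < D.nroots ∧ D.nroots / 2 ≤ wperm T l p.1) →
      η * X.YW w * η⁻¹ ∈ X.VY (List.range' (D.nroots / 2) (D.nroots / 2)) := by
    intro w
    induction w with
    | nil => simp [Subgroup.one_mem]
    | cons p w ih =>
      intro hw
      have e : η * X.YW (p :: w) * η⁻¹ = (η * X.Y p.1 p.2 * η⁻¹) * (η * X.YW w * η⁻¹) := by
        rw [YW_cons]
        group
      rw [e]
      obtain ⟨h3, h4⟩ := hw p (by simp)
      exact Subgroup.mul_mem _ (hmem _ h3 h4 _) (ih fun q hq => hw q (List.mem_cons_of_mem _ hq))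
  have hB' := hB (D.commWord K r s t u) (by
    intro p hp
    simp only [ChevalleyDatum.commWord, List.mem_map] at hp
    obtain ⟨c, hc, rfl⟩ := hp
    exact ⟨hG.commTerms_lt hr hs c hc, hcp c hc⟩)
  have hp : X.p ((X.Y s u)⁻¹ * (X.Y r t)⁻¹ * X.Y s u * X.Y r t) = X.p (X.YW (D.commWord K r s t u)) := by
    rw [X.p_YW (commWord_range hG hr hs t u)]
    simp only [map_mul, map_inv, X.p_Y hr, X.p_Y hs]
    exact S.comm hr hs h1 h2 t u
  have hc : ∀ a b : E, X.p a = X.p b → X.p (η * a * η⁻¹) = X.p (η * b * η⁻¹) := fun a b e => by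
    simp only [map_mul, map_inv, e]
  have h3 := hinj _ (Subgroup.mul_mem _ hA (Subgroup.inv_mem _ hB')) (by
    rw [map_mul, map_inv, hc _ _ hp, mul_inv_cancel])
  rw [mul_inv_eq_one] at h3
  have h4 : ∀ a b : E, η * a * η⁻¹ = η * b * η⁻¹ → a = b := by
    intro a b e
    have := mul_right_cancel e
    exact mul_left_cancel this
  exact h4 _ _ h3

/-- The section of the central extension, given the relations for the canonical lifts. -/
theorem comm_all (hAb : ∀ r, r < D.nroots → X.Ab r)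
    (hq : ∀ r s, D.nroots / 2 ≤ r → r < s → s < D.nroots → X.Ok r s)
    {bw : ℕ → ℕ → List ℕ} (hb : T.chkU3 bw = true)
    {r s : ℕ} (hr : r < D.nroots) (hs : s < D.nroots) (h1 : s ≠ r) (h2 : s ≠ D.neg r) (t u : K) :
    (X.Y s u)⁻¹ * (X.Y r t)⁻¹ * X.Y s u * X.Y r t = X.YW (D.commWord K r s t u) := by
  obtain ⟨l, hl, h3, h4, h5⟩ := exists_word hG hb hr hs h1 h2
  exact X.comm_of_word hAb hq hr hs h1 h2 hl h3 h4 h5 t u

end GExt

section GSection

variable {hG : T.Good3 D} {E : Type*} [Group E]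

/-- The images of the generators. -/
noncomputable def gsecF {S : Sys hG K (D.SteinbergCover K)} (X : GExt S E wit) : Fin D.nroots × K → E := fun p => X.Y p.1.1 p.2

variable {S : Sys hG K (D.SteinbergCover K)} (X : GExt S E wit)

lemma glift_stX {r : ℕ} (hr : r < D.nroots) (t : K) : FreeGroup.lift (gsecF X) (D.stX r t) = X.Y r t := by
  unfold ChevalleyDatum.stX
  rw [dif_pos hr, FreeGroup.lift_apply_of]
  rfl

lemma glift_stWord (w : List (ℕ × K)) (hw : ∀ p ∈ w, p.1 < D.nroots) :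
    FreeGroup.lift (gsecF X) (D.stWord w) = X.YW w := by
  induction w with
  | nil => simp [ChevalleyDatum.stWord]
  | cons p w ih =>
    have hp := hw p (by simp)
    have e : D.stWord (p :: w) = D.stX p.1 p.2 * D.stWord w := by
      simp [ChevalleyDatum.stWord]
    rw [e, map_mul, glift_stX X hp, ih fun q hq => hw q (List.mem_cons_of_mem _ hq), GExt.YW_cons]

/-- The relators hold for the lifts. -/
lemma glift_sec (hAb : ∀ r, r < D.nroots → X.Ab r)
    (hq : ∀ r s, D.nroots / 2 ≤ r → r < s → s < D.nroots → X.Ok r s)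
    {bw : ℕ → ℕ → List ℕ} (hb : T.chkU3 bw = true) :
    ∀ g ∈ D.steinbergRelsAB K, FreeGroup.lift (gsecF X) g = 1 := by
  rintro g (⟨r, t₁, t₂, hr, rfl⟩ | ⟨r, s, t, u, hr, hs, h1, h2, rfl⟩)
  · simp only [map_mul, map_inv, glift_stX X hr, X.Y_add hr (hAb r hr), mul_inv_cancel]
  · simp only [map_mul, map_inv, glift_stX X hr, glift_stX X hs, glift_stWord X _ (commWord_range hG hr hs t u)]
    rw [mul_inv_eq_one]
    exact X.comm_all hAb hq hb hr hs h1 h2 t u

/-- The section. -/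
noncomputable def gsecHom (hAb : ∀ r, r < D.nroots → X.Ab r)
    (hq : ∀ r s, D.nroots / 2 ≤ r → r < s → s < D.nroots → X.Ok r s)
    {bw : ℕ → ℕ → List ℕ} (hb : T.chkU3 bw = true) : D.SteinbergCover K →* E :=
  PresentedGroup.toGroup (glift_sec X hAb hq hb)

lemma gsecHom_spec (hS : ∀ (p : Fin D.nroots × K), S.y p.1.1 p.2 = PresentedGroup.of p) (hAb : ∀ r, r < D.nroots → X.Ab r)
    (hq : ∀ r s, D.nroots / 2 ≤ r → r < s → s < D.nroots → X.Ok r s)
    {bw : ℕ → ℕ → List ℕ} (hb : T.chkU3 bw = true) : X.p.comp (gsecHom X hAb hq hb) = MonoidHom.id _ := by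
  apply PresentedGroup.ext
  intro p
  simp only [MonoidHom.comp_apply, MonoidHom.id_apply, gsecHom, PresentedGroup.toGroup.of]
  show X.p (X.Y p.1.1 p.2) = _
  rw [X.p_Y p.1.2, hS]

end GSection

end Cfsg.Agent.Lib.St
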