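/-
Universality of the group of (R1), (R2) for the type F₄ over all fields with more than two elements.
-/
import Cfsg.Agent.Lib.St.GU3
import Cfsg.Agent.Lib.St.UnivMain

set_option autoImplicit false
set_option maxRecDepth 100000

namespace Cfsg.Agent.Lib.Chev.Tbl

/-- The commutator has one term, of coefficient ±1 or ±2. -/
noncomputable def single2 (l : List (ℕ × ℤ × ℕ × ℕ)) (q : ℕ) : Bool :=
  or (single1 l q) (or (decide (l = [(q, 2, 1, 1)])) (decide (l = [(q, -2, 1, 1)])))

variable (T : Tbl)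

/-- A decomposition of a root, of coefficient ±1 or ±2. -/
noncomputable def decW2 (q a b : ℕ) : Bool :=
  and (not (Nat.beq a b)) (and (not (Nat.beq a (T.neg b))) (single2 (T.commF b a) q))

/-- A decomposition whose terms commute with `s`. -/
noncomputable def lcB2 (s q a b : ℕ) : Bool :=
  and (T.decW2 q a b) (and (T.lcP s a) (T.lcP s b))

/-- There is a decomposition of `q` whose terms commute with `s`. -/
noncomputable def findLC2 (s q : ℕ) : Bool :=
  Nat.blt (firstI T.n fun a => Nat.blt (firstI T.n fun b => T.lcB2 s q a b) T.n) T.n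

/-- Evenness. -/
noncomputable def evenZ (d : ℤ) : Bool := Nat.beq (Int.natAbs d % 2) 0

/-- Parity separates the pairs of positive roots, or a decomposition makes them commute. -/
noncomputable def chkN2 : Bool :=
  allBelow T.n fun r => or (Nat.blt r T.half) <| allBelow T.n fun s => or (Nat.ble s r) <|
    or (Nat.blt (firstI T.n fun q => and (evenZ (T.pairT q r)) (not (evenZ (T.pairT q s)))) T.n) (T.findLC2 r s)

/-- Each root has a decomposition whose terms commute with it. -/
noncomputable def chkAb : Bool := allBelow T.n fun r => T.findLC r r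

/-- The pairings are small. -/
noncomputable def chkP2 : Bool := allBelow T.n fun q => allBelow T.n fun s => Nat.ble (Int.natAbs (T.pairT q s)) 2

variable {T}

lemma single2_spec {l : List (ℕ × ℤ × ℕ × ℕ)} {q : ℕ} (h : single2 l q = true) :
    ∃ C : ℤ, l = [(q, C, 1, 1)] ∧ (C = 1 ∨ C = -1 ∨ C = 2 ∨ C = -2) := by
  unfold single2 at h
  rw [Bool.or_eq_true, Bool.or_eq_true, decide_eq_true_eq, decide_eq_true_eq] at h
  rcases h with h | h | h
  · obtain ⟨C, h1, h2⟩ := single1_spec h
    exact ⟨C, h1, by omega⟩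
  · exact ⟨2, h, by omega⟩
  · exact ⟨-2, h, by omega⟩

lemma evenZ_spec {d : ℤ} (h : evenZ d = true) : Even d := by
  have h1 := Nat.eq_of_beq_eq_true h
  rw [← Int.natAbs_even, Nat.even_iff]
  exact h1

lemma not_evenZ_spec {d : ℤ} (h : evenZ d = false) : Odd d := by
  have h1 := Nat.ne_of_beq_eq_false h
  rw [← Int.not_even_iff_odd, ← Int.natAbs_even, Nat.even_iff]
  exact h1

end Cfsg.Agent.Lib.Chev.Tbl

namespace Cfsg.Agent.Lib.St

open Cfsg Cfsg.Lie Cfsg.Agent.Lib.Chev
open scoped commutatorElement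

variable {K : Type*} [Field K] {D : ChevalleyDatum} {T : Tbl} {hG : T.Good3 D} {Δ : Type*} [Group Δ]
  {wit : ℕ → ℕ × ℕ}

namespace Sys

variable (S : Sys hG K Δ)

lemma dec_of_terms2 {q a b : ℕ} {C : ℤ} (hq : q < D.nroots) (ha : a < D.nroots) (hb : b < D.nroots) (h1 : a ≠ b)
    (h2 : a ≠ D.neg b) (ht : D.commTerms b a = [(q, C, 1, 1)]) (hC : (C : K) ≠ 0) : S.Dec q a b := by
  refine ⟨hq, ha, hb, h1, h2, -(C : K), neg_ne_zero.2 hC, fun t u => ?_⟩
  rw [S.cm_y ha hb h1 h2]
  unfold ChevalleyDatum.commWord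
  rw [ht]
  simp only [List.map_cons, List.map_nil, pow_one, Sys.yw_cons, Sys.yw_nil, mul_one]
  congr 1
  ring

lemma dec_of_decW2 (h2K : (2 : K) ≠ 0) {q a b : ℕ} (hq : q < D.nroots) (ha : a < D.nroots) (hb : b < D.nroots)
    (h : T.decW2 q a b = true) : S.Dec q a b := by
  have hT := hG.correct
  unfold Tbl.decW2 at h
  simp only [Bool.and_eq_true, Bool.not_eq_true'] at h
  obtain ⟨h1, h2, h3⟩ := h
  obtain ⟨C, e, hC⟩ := Tbl.single2_spec h3
  have h4 : D.commTerms b a = [(q, C, 1, 1)] := by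
    rw [Tbl.commT_eq hT hG.sane hb ha, ← Tbl.commF_eq, e]
  refine S.dec_of_terms2 hq ha hb (Nat.ne_of_beq_eq_false h1) ?_ h4 ?_
  · rw [← hT.neg_eq b hb]
    exact Nat.ne_of_beq_eq_false h2
  · rcases hC with rfl | rfl | rfl | rfl
    · simp
    · simp
    · simpa using h2K
    · simpa using h2K

end Sys

namespace HExt

variable {S : Sys hG K Δ} {E : Type*} [Group E] (X : HExt S E wit)

lemma findLC2_spec (h2K : (2 : K) ≠ 0) {s q : ℕ} (hs : s < D.nroots) (hq : q < D.nroots) (h : T.findLC2 s q = true) :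
    X.LC s q := by
  unfold Tbl.findLC2 at h
  have h1 : _ < T.n := Nat.le_of_ble_eq_true h
  have h2 := firstI_spec h1
  have h3 : _ < T.n := Nat.le_of_ble_eq_true h2
  have h4 := firstI_spec h3
  generalize (firstI T.n fun b => T.lcB2 s q (firstI T.n fun a => Nat.blt (firstI T.n fun b => T.lcB2 s q a b) T.n) b) = b at h3 h4
  generalize (firstI T.n fun a => Nat.blt (firstI T.n fun b => T.lcB2 s q a b) T.n) = a at h1 h3 h4
  unfold Tbl.lcB2 at h4
  simp only [Bool.and_eq_true] at h4
  obtain ⟨h5, h6, h7⟩ := h4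
  have ha := hG.n_lt h1
  have hb := hG.n_lt h3
  exact X.lc_of_dec (S.dec_of_decW2 h2K hq ha hb h5) (S.dc_of_lcP hs ha h6) (S.dc_of_lcP hs hb h7)

end HExt

/-- Universality over small fields. -/
theorem gext_main {bw : ℕ → ℕ → List ℕ} (hG : T.Good3 D) (hW : StHyp T wit) (hU2 : T.chkU2 (fun _ => false) = true)
    (hU3 : T.chkU3 bw = true) (hA : T.chkAb = true) {τ₀ : K} (h0 : τ₀ ≠ 0) (h1 : ∀ d : ℤ, d.natAbs = 1 → τ₀ ^ d ≠ 1)
    (hsep : ∀ r s, D.nroots / 2 ≤ r → r < s → s < D.nroots →
      (∃ q, q < D.nroots ∧ τ₀ ^ D.pairing q r = 1 ∧ τ₀ ^ D.pairing q s ≠ 1) ∨ ((2 : K) ≠ 0 ∧ T.findLC2 r s = true))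
    {G₁ E : Type*} [Group G₁] [Group E]
    (π₁ : E →* G₁) (hπ : Function.Surjective π₁) (hc : π₁.ker ≤ Subgroup.center E) (σ : D.SteinbergCover K →* G₁) :
    ∃ τ : D.SteinbergCover K →* E, π₁.comp τ = σ := by
  classical
  let S : Sys hG K (D.SteinbergCover K) := canSys hG (D.steinbergRelsAB K) subset_rfl (lift_relAB hG)
  -- the pull-back
  let P : Subgroup (D.SteinbergCover K × E) :=
    MonoidHom.eqLocus (σ.comp (MonoidHom.fst _ _)) (π₁.comp (MonoidHom.snd _ _))
  have hP : ∀ x : P, σ x.1.1 = π₁ x.1.2 := fun x => x.2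
  let p : P →* D.SteinbergCover K := (MonoidHom.fst _ _).comp P.subtype
  have hex : ∀ g, ∃ x : P, p x = g := by
    intro g
    obtain ⟨e, he⟩ := hπ (σ g)
    exact ⟨⟨(g, e), he.symm⟩, rfl⟩
  choose f hf using hex
  have hcp : ∀ z : P, p z = 1 → ∀ w, w * z = z * w := by
    intro z hz w
    have hz' : z.1.1 = 1 := hz
    have h4 : z.1.2 ∈ π₁.ker := by
      rw [MonoidHom.mem_ker, ← hP z, hz', map_one]
    apply Subtype.ext
    apply Prod.ext
    · show w.1.1 * z.1.1 = z.1.1 * w.1.1
      rw [hz', mul_one, one_mul]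
    · exact Subgroup.mem_center_iff.1 (hc h4) w.1.2
  -- the torus elements
  have hqex : ∀ r, r < D.nroots → ∃ q, q < D.nroots ∧ (D.pairing q r).natAbs = 1 := by
    intro r hr
    have h2 := allBelow_spec hU2 r (hG.lt_n hr)
    rw [Bool.false_or] at h2
    have h4 := Nat.le_of_ble_eq_true h2
    obtain ⟨Q, hQ1, h5⟩ : ∃ Q, Q < T.n ∧ Nat.beq (Int.natAbs (T.pairT Q r)) 1 = true :=
      ⟨_, h4, firstI_spec h4⟩
    have hq := hG.n_lt hQ1
    have h6 := Nat.eq_of_beq_eq_true h5
    rw [hG.pairT_eq hq hr] at h6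
    exact ⟨Q, hq, h6⟩
  have hqex' : ∀ r, ∃ q, r < D.nroots → q < D.nroots ∧ (D.pairing q r).natAbs = 1 := by
    intro r
    by_cases hr : r < D.nroots
    · obtain ⟨q, h3, h4⟩ := hqex r hr
      exact ⟨q, fun _ => ⟨h3, h4⟩⟩
    · exact ⟨0, fun h => absurd h hr⟩
  choose qr hqr using hqex'
  let X : GExt S P wit := ⟨hW, p, f, hf, hcp, τ₀, h0, qr, fun r hr => (hqr r hr).1, fun r hr => h1 _ (hqr r hr).2⟩
  have hAb : ∀ r, r < D.nroots → X.Ab r := fun r hr =>
    X.toH.findLC_spec hr hr (allBelow_spec hA r (hG.lt_n hr))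
  have hq : ∀ r s, D.nroots / 2 ≤ r → r < s → s < D.nroots → X.Ok r s := by
    intro r s h2 h3 h4
    rcases hsep r s h2 h3 h4 with h5 | ⟨h5, h6⟩
    · exact Or.inl h5
    · exact Or.inr (X.toH.findLC2_spec h5 (by omega) h4 h6)
  let s := gsecHom X hAb hq hU3
  have hs : p.comp s = MonoidHom.id _ := gsecHom_spec X (canSys_y_of hG) hAb hq hU3
  have hs' : ∀ g, (s g).1.1 = g := fun g => congrArg (fun φ : D.SteinbergCover K →* D.SteinbergCover K => φ g) hs
  refine ⟨(MonoidHom.snd _ _).comp (P.subtype.comp s), ?_⟩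
  refine MonoidHom.ext fun g => ?_
  show π₁ (s g).1.2 = σ g
  rw [← hP, hs']

theorem abF4 : digF4.tbl.chkAb = true := by decide +kernel
theorem n2F4 : digF4.tbl.chkN2 = true := by decide +kernel
theorem p2F4 : digF4.tbl.chkP2 = true := by decide +kernel

/-- Universality for the type `F₄`. -/
theorem f4_lift (hK : ∃ x : K, x ≠ 0 ∧ x ≠ 1) {G₁ E : Type*} [Group G₁] [Group E]
    (π₁ : E →* G₁) (hπ : Function.Surjective π₁) (hc : π₁.ker ≤ Subgroup.center E) (σ : chevF4.SteinbergCover K →* G₁) :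
    ∃ τ : chevF4.SteinbergCover K →* E, π₁.comp τ = σ := by
  by_cases h2 : (2 : K) = 0
  · obtain ⟨x, hx0, hx1⟩ := hK
    have hx2 : x * x ≠ 1 := by
      intro h
      apply hx1
      have h3 : (x - 1) * (x - 1) = 0 := by
        have : (x - 1) * (x - 1) = x * x - 2 * x + 1 := by ring
        rw [this, h, h2]
        have h4 : (1 : K) + 1 = 0 := by
          rw [← h2]
          norm_num
        rw [zero_mul, sub_zero, h4]
      exact sub_eq_zero.1 (mul_self_eq_zero.1 h3)
    refine gext_main good3F4 stHypF4 u2F4 u3F4 abF4 hx0 ?_ ?_ π₁ hπ hc σ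
    · intro d hd h
      have h3 : d = 1 ∨ d = -1 := by omega
      rcases h3 with rfl | rfl
      · apply hx1
        simpa using h
      · apply hx1
        have := inv_eq_one.1 (by simpa using h : x⁻¹ = 1)
        exact this
    · intro r s hr hrs hs
      left
      have hrn : r < chevF4.nroots := by omega
      have h1 := allBelow_spec u1F4 r (good3F4.lt_n hrn)
      rw [Bool.or_eq_true, Tbl.blt_false (by rw [good3F4.half_eq]; omega)] at h1
      have h2' := allBelow_spec (h1.resolve_left (by simp)) s (good3F4.lt_n hs)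
      rw [Bool.or_eq_true] at h2'
      have h3 : Nat.ble s r = false := by
        cases h4 : Nat.ble s r with
        | false => rfl
        | true =>
          have := Nat.le_of_ble_eq_true h4
          omega
      rw [h3] at h2'
      have h4 := Nat.le_of_ble_eq_true (h2'.resolve_left (by simp))
      obtain ⟨Q, hQ1, h5⟩ : ∃ Q, Q < digF4.tbl.n ∧ (intZero (digF4.tbl.pairT Q r) && Tbl.smallNZ (digF4.tbl.pairT Q s)) = true :=
        ⟨_, h4, firstI_spec h4⟩
      rw [Bool.and_eq_true] at h5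
      have hq := good3F4.n_lt hQ1
      refine ⟨Q, hq, ?_, ?_⟩
      · rw [← good3F4.pairT_eq hq hrn, intZero_spec h5.1, zpow_zero]
      · have h6 := h5.2
        unfold Tbl.smallNZ at h6
        rw [Bool.and_eq_true, Bool.not_eq_true', good3F4.pairT_eq hq hs] at h6
        have h7 := Nat.le_of_ble_eq_true (allBelow_spec (allBelow_spec p2F4 Q hQ1) s (good3F4.lt_n hs))
        rw [good3F4.pairT_eq hq hs] at h7
        have h8 : chevF4.pairing Q s ≠ 0 := by
          intro h9
          rw [h9] at h6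
          exact absurd h6.1 (by decide)
        generalize chevF4.pairing Q s = d at h7 h8
        have h9 : d = 1 ∨ d = -1 ∨ d = 2 ∨ d = -2 := by omega
        have h10 : x ^ (2 : ℤ) = x * x := by
          norm_cast
          rw [pow_two]
        rcases h9 with rfl | rfl | rfl | rfl
        · simpa using hx1
        · intro h
          exact hx1 (inv_eq_one.1 (by simpa using h))
        · rw [h10]
          exact hx2
        · intro h
          rw [zpow_neg, h10] at h
          exact hx2 (inv_eq_one.1 h)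
  · have hne : (-1 : K) ≠ 1 := by
      intro h
      apply h2
      linear_combination (-1 : K) * h
    refine gext_main good3F4 stHypF4 u2F4 u3F4 abF4 (neg_ne_zero.2 one_ne_zero) ?_ ?_ π₁ hπ hc σ
    · intro d hd
      have h3 : Odd d := by
        rw [← Int.natAbs_odd, hd]
        decide
      rw [h3.neg_one_zpow]
      exact hne
    · intro r s hr hrs hs
      have hrn : r < chevF4.nroots := by omega
      have h1 := allBelow_spec n2F4 r (good3F4.lt_n hrn)
      rw [Bool.or_eq_true, Tbl.blt_false (by rw [good3F4.half_eq]; omega)] at h1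
      have h2' := allBelow_spec (h1.resolve_left (by simp)) s (good3F4.lt_n hs)
      rw [Bool.or_eq_true] at h2'
      have h3 : Nat.ble s r = false := by
        cases h4 : Nat.ble s r with
        | false => rfl
        | true =>
          have := Nat.le_of_ble_eq_true h4
          omega
      rw [h3] at h2'
      have h44 := h2'.resolve_left (by simp)
      rw [Bool.or_eq_true] at h44
      rcases h44 with h4 | h4
      · left
        have h5 := Nat.le_of_ble_eq_true h4
        obtain ⟨Q, hQ1, h6⟩ : ∃ Q, Q < digF4.tbl.n ∧ (Tbl.evenZ (digF4.tbl.pairT Q r) && !Tbl.evenZ (digF4.tbl.pairT Q s)) = true :=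
          ⟨_, h5, firstI_spec h5⟩
        rw [Bool.and_eq_true, Bool.not_eq_true'] at h6
        have hq := good3F4.n_lt hQ1
        refine ⟨Q, hq, ?_, ?_⟩
        · rw [← good3F4.pairT_eq hq hrn, (Tbl.evenZ_spec h6.1).neg_one_zpow]
        · rw [← good3F4.pairT_eq hq hs, (Tbl.not_evenZ_spec h6.2).neg_one_zpow]
          exact hne
      · exact Or.inr ⟨h2, h4⟩

end Cfsg.Agent.Lib.St
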