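/-
Central extensions of a group with the relations (R1), (R2), for small fields: a section from lifts of the letters with
the relations on the positive roots.
-/
import Cfsg.Agent.Lib.St.GU3

set_option autoImplicit false

namespace Cfsg.Agent.Lib.St

open Cfsg Cfsg.Lie Cfsg.Agent.Lib.Chev
open scoped commutatorElement

variable {K : Type*} [Field K] {D : ChevalleyDatum} {T : Tbl} {hG : T.Good3 D} {Δ : Type*} [Group Δ]
  {wit : ℕ → ℕ × ℕ}

/-- A central extension of a group with Steinberg's relations, with lifts of the letters. -/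
structure AExt (S : Sys hG K Δ) (E : Type*) [Group E] (wit : ℕ → ℕ × ℕ) where
  hW : StHyp T wit
  p : E →* Δ
  f : Δ → E
  hf : ∀ g, p (f g) = g
  hc : ∀ z, p z = 1 → ∀ w, w * z = z * w
  Y : ℕ → K → E
  p_Y : ∀ {r : ℕ}, r < D.nroots → ∀ u, p (Y r u) = S.y r u
  Y_add : ∀ {r : ℕ}, r < D.nroots → ∀ u v, Y r u * Y r v = Y r (u + v)
  τ : K
  hτ0 : τ ≠ 0
  q₀ : ℕ
  hq₀ : q₀ < D.nroots
  Y_hb : ∀ {r : ℕ}, r < D.nroots → ∀ u, f (S.hb q₀ τ) * Y r u * (f (S.hb q₀ τ))⁻¹ = Y r (τ ^ D.pairing q₀ r * u)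
  Y_Np : ∀ {l : List ℕ}, (∀ i ∈ l, i < D.rank) → ∀ {q : ℕ}, q < D.nroots →
    ∃ c' : K, ∀ u, f (S.Np l) * Y q u * (f (S.Np l))⁻¹ = Y (wperm T l q) (c' * u)

namespace AExt

variable {S : Sys hG K Δ} {E : Type*} [Group E] (X : AExt S E wit)

lemma Y_zero {r : ℕ} (hr : r < D.nroots) : X.Y r 0 = 1 := by
  have h1 := X.Y_add hr 0 0
  rw [add_zero] at h1
  exact mul_eq_left.1 h1

lemma Y_neg {r : ℕ} (hr : r < D.nroots) (u : K) : (X.Y r u)⁻¹ = X.Y r (-u) := by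
  rw [inv_eq_iff_mul_eq_one, X.Y_add hr, add_neg_cancel, X.Y_zero hr]

/-- The word in the lifts. -/
noncomputable def YW (l : List (ℕ × K)) : E := (l.map fun p => X.Y p.1 p.2).prod

@[simp] lemma YW_nil : X.YW [] = 1 := rfl

@[simp] lemma YW_cons (p : ℕ × K) (l : List (ℕ × K)) : X.YW (p :: l) = X.Y p.1 p.2 * X.YW l := by
  simp [YW]

lemma p_YW {l : List (ℕ × K)} (hl : ∀ p ∈ l, p.1 < D.nroots) : X.p (X.YW l) = S.yw l := by
  induction l with
  | nil => simp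
  | cons p l ih =>
    rw [YW_cons, map_mul, X.p_Y (hl p (by simp)), ih fun q hq => hl q (List.mem_cons_of_mem _ hq), Sys.yw_cons]

/-- The subgroup generated by the lifts of a list of roots. -/
noncomputable def VY (L : List ℕ) : Subgroup E := Subgroup.closure {g | ∃ r ∈ L, ∃ t : K, g = X.Y r t}

lemma mem_VY {L : List ℕ} {r : ℕ} (h : r ∈ L) (t : K) : X.Y r t ∈ X.VY L :=
  Subgroup.subset_closure ⟨r, h, t, rfl⟩

lemma YW_mem {L : List ℕ} {l : List (ℕ × K)} (h : ∀ p ∈ l, p.1 ∈ L) : X.YW l ∈ X.VY L := by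
  induction l with
  | nil => exact Subgroup.one_mem _
  | cons p l ih =>
    rw [YW_cons]
    exact Subgroup.mul_mem _ (X.mem_VY (h p (by simp)) _) (ih fun q hq => h q (List.mem_cons_of_mem _ hq))

lemma p_VY {L : List ℕ} (hL : ∀ s ∈ L, s < D.nroots) {x : E} (hx : x ∈ X.VY L) : X.p x ∈ S.V L := by
  have h : X.VY L ≤ (S.V L).comap X.p := by
    refine (Subgroup.closure_le _).2 ?_
    rintro _ ⟨r, hr, t, rfl⟩
    show X.p (X.Y r t) ∈ S.V L
    rw [X.p_Y (hL r hr)]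
    exact S.mem_V hr t
  exact h hx

/-- The key step: the conjugate of a lift by another lift lies in the subgroup of the later lifts. -/
lemma conj_step {r s : ℕ} {L : List ℕ} (hr : r < D.nroots) (hs : s < D.nroots)
    (h1 : s ≠ r) (h2 : s ≠ D.neg r) (hsL : s ∈ L) (hterms : ∀ c ∈ D.commTerms r s, c.1 ∈ L)
    (hL : ∀ s' ∈ L, s' < D.nroots) (hinj : ∀ x ∈ X.VY L, X.p x = 1 → x = 1) 
    (hq0 : X.τ ^ D.pairing X.q₀ r = 1) (hd : X.τ ^ D.pairing X.q₀ s ≠ 1) (t u : K) :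
    (X.Y r t)⁻¹ * X.Y s u * X.Y r t ∈ X.VY L := by
  have eq_of_p : ∀ a ∈ X.VY L, ∀ b ∈ X.VY L, X.p a = X.p b → a = b := by
    intro a ha b hb' e
    have h3 := hinj (a * b⁻¹) (Subgroup.mul_mem _ ha (Subgroup.inv_mem _ hb')) (by
      rw [map_mul, map_inv, e, mul_inv_cancel])
    exact mul_inv_eq_one.1 h3
  obtain ⟨μ, hμdef⟩ : ∃ μ : K, μ = X.τ ^ D.pairing X.q₀ s := ⟨_, rfl⟩
  have hμ1 : μ ≠ 1 := by rwa [hμdef]
  obtain ⟨w, hw⟩ : ∃ w : K → E, ∀ u, w u = X.Y s u * X.YW (D.commWord K r s t u) := ⟨_, fun _ => rfl⟩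
  obtain ⟨m, hm⟩ : ∃ m : K → E, ∀ u, m u = (X.Y r t)⁻¹ * X.Y s u * X.Y r t := ⟨_, fun _ => rfl⟩
  have hw_mem : ∀ u, w u ∈ X.VY L := by
    intro u
    rw [hw]
    refine Subgroup.mul_mem _ (X.mem_VY hsL u) (X.YW_mem fun p hp => ?_)
    simp only [ChevalleyDatum.commWord, List.mem_map] at hp
    obtain ⟨c, hc, rfl⟩ := hp
    exact hterms c hc
  have p_m : ∀ u, X.p (m u) = (S.y r t)⁻¹ * S.y s u * S.y r t := by
    intro u
    rw [hm, map_mul, map_mul, map_inv, X.p_Y hr, X.p_Y hs]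
  have p_w : ∀ u, X.p (w u) = (S.y r t)⁻¹ * S.y s u * S.y r t := by
    intro u
    rw [hw, map_mul, X.p_Y hs, X.p_YW (commWord_range hG hr hs t u), S.conj_y hr hs h1 h2]
  obtain ⟨ζ, hζ⟩ : ∃ ζ : K → E, ∀ u, ζ u = (w u)⁻¹ * m u := ⟨_, fun _ => rfl⟩
  have hmw : ∀ u, m u = w u * ζ u := by
    intro u
    rw [hζ]
    group
  have hζ1 : ∀ u, X.p (ζ u) = 1 := by
    intro u
    rw [hζ, map_mul, map_inv, p_m, p_w, inv_mul_cancel]
  have hζc : ∀ u x, x * ζ u = ζ u * x := fun u => X.hc _ (hζ1 u)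
  have hw_add : ∀ u u', w (u + u') = w u * w u' := by
    intro u u'
    refine eq_of_p _ (hw_mem _) _ (Subgroup.mul_mem _ (hw_mem _) (hw_mem _)) ?_
    rw [map_mul, p_w, p_w, p_w, ← S.add hs]
    group
  have hm_add : ∀ u u', m (u + u') = m u * m u' := by
    intro u u'
    rw [hm, hm, hm, ← X.Y_add hs]
    group
  have hζ_add : ∀ u u', ζ (u + u') = ζ u * ζ u' := by
    intro u u'
    have e := hm_add u u'
    have e2 : w u * ζ u * (w u' * ζ u') = w u * w u' * (ζ u * ζ u') := by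
      calc w u * ζ u * (w u' * ζ u') = w u * (ζ u * w u') * ζ u' := by group
        _ = w u * (w u' * ζ u) * ζ u' := by rw [hζc u (w u')]
        _ = _ := by group
    rw [hmw, hmw, hmw, hw_add, e2] at e
    exact mul_left_cancel e
  -- the torus
  obtain ⟨η, hη⟩ : ∃ η : E, η = X.f (S.hb X.q₀ X.τ) := ⟨_, rfl⟩
  have hηp : X.p η = S.hb X.q₀ X.τ := by rw [hη, X.hf]
  have hηY : ∀ s', s' < D.nroots → ∀ u, η * X.Y s' u * η⁻¹ = X.Y s' (X.τ ^ D.pairing X.q₀ s' * u) := by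
    intro s' hs' u
    rw [hη]
    exact X.Y_hb hs' u
  have hηV : ∀ x ∈ X.VY L, η * x * η⁻¹ ∈ X.VY L := by
    intro x hx
    induction hx using Subgroup.closure_induction with
    | mem x hx =>
      obtain ⟨s', hs', u, rfl⟩ := hx
      rw [hηY s' (hL s' hs')]
      exact X.mem_VY hs' _
    | one => simp [Subgroup.one_mem]
    | mul a b _ _ ha hb' =>
      have e : η * (a * b) * η⁻¹ = (η * a * η⁻¹) * (η * b * η⁻¹) := by group
      rw [e]
      exact Subgroup.mul_mem _ ha hb'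
    | inv a _ ha =>
      have e : η * a⁻¹ * η⁻¹ = (η * a * η⁻¹)⁻¹ := by group
      rw [e]
      exact Subgroup.inv_mem _ ha
  have hhb_r : S.hb X.q₀ X.τ * S.y r t * (S.hb X.q₀ X.τ)⁻¹ = S.y r t := by
    rw [S.hb_conj_y X.hW X.hq₀ hr X.hτ0, hq0, one_mul]
  have hw_eta : ∀ u, η * w u * η⁻¹ = w (μ * u) := by
    intro u
    refine eq_of_p _ (hηV _ (hw_mem u)) _ (hw_mem _) ?_
    rw [map_mul, map_mul, map_inv, p_w, p_w, hηp]
    have e : S.hb X.q₀ X.τ * ((S.y r t)⁻¹ * S.y s u * S.y r t) * (S.hb X.q₀ X.τ)⁻¹ =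
        (S.hb X.q₀ X.τ * S.y r t * (S.hb X.q₀ X.τ)⁻¹)⁻¹ * (S.hb X.q₀ X.τ * S.y s u * (S.hb X.q₀ X.τ)⁻¹) *
          (S.hb X.q₀ X.τ * S.y r t * (S.hb X.q₀ X.τ)⁻¹) := by group
    rw [e, hhb_r, S.hb_conj_y X.hW X.hq₀ hs X.hτ0, hμdef]
  have hm_eta : ∀ u, η * m u * η⁻¹ = m (μ * u) := by
    intro u
    have e : η * ((X.Y r t)⁻¹ * X.Y s u * X.Y r t) * η⁻¹ =
        (η * X.Y r t * η⁻¹)⁻¹ * (η * X.Y s u * η⁻¹) * (η * X.Y r t * η⁻¹) := by group
    rw [hm, hm, e, hηY r hr, hηY s hs, hq0, one_mul, hμdef]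
  have hζ_eta : ∀ u, ζ (μ * u) = ζ u := by
    intro u
    have e := hm_eta u
    rw [hmw, hmw] at e
    have e2 : η * (w u * ζ u) * η⁻¹ = (η * w u * η⁻¹) * ζ u := by
      calc η * (w u * ζ u) * η⁻¹ = η * w u * (ζ u * η⁻¹) := by group
        _ = η * w u * (η⁻¹ * ζ u) := by rw [hζc u η⁻¹]
        _ = _ := by group
    rw [e2, hw_eta] at e
    exact (mul_left_cancel e).symm
  have hζ0 : ζ 0 = 1 := by
    have e := hζ_add 0 0
    rw [add_zero] at e
    exact mul_eq_left.1 e.symm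
  have hζ_neg : ∀ u, ζ (-u) = (ζ u)⁻¹ := by
    intro u
    rw [eq_inv_iff_mul_eq_one, ← hζ_add, neg_add_cancel, hζ0]
  have hζ_triv : ∀ u, ζ ((μ - 1) * u) = 1 := by
    intro u
    have e : (μ - 1) * u = μ * u + -u := by ring
    rw [e, hζ_add, hζ_eta, hζ_neg, mul_inv_cancel]
  have hμ2 : μ - 1 ≠ 0 := sub_ne_zero.2 hμ1
  have hζall : ζ u = 1 := by
    have e : u = (μ - 1) * ((μ - 1)⁻¹ * u) := by
      rw [← mul_assoc, mul_inv_cancel₀ hμ2, one_mul]
    rw [e]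
    exact hζ_triv _
  have e3 := hmw u
  rw [hζall, mul_one, hm] at e3
  rw [e3]
  exact hw_mem u

/-- The torus element separates two roots, or the lifts commute, or the relation holds. -/
def Ok (r s : ℕ) : Prop :=
  (X.τ ^ D.pairing X.q₀ r = 1 ∧ X.τ ^ D.pairing X.q₀ s ≠ 1) ∨
    (∀ (x x' : E) (u v : K), X.p x = S.y r u → X.p x' = S.y s v → x * x' = x' * x) ∨
    (∀ t u : K, (X.Y r t)⁻¹ * X.Y s u * X.Y r t = X.Y s u * X.YW (D.commWord K r s t u))

/-- Stability under conjugation. -/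
lemma conj_VY {r : ℕ} {L : List ℕ} (hr : r < D.nroots)
    (hL : ∀ s' ∈ L, s' < D.nroots) (hch : ∀ s ∈ L, s ≠ r ∧ s ≠ D.neg r ∧ ∀ c ∈ D.commTerms r s, c.1 ∈ L)
    (hinj : ∀ x ∈ X.VY L, X.p x = 1 → x = 1)
    (hq : ∀ s ∈ L, X.Ok r s) (t : K) {v : E} (hv : v ∈ X.VY L) :
    (X.Y r t)⁻¹ * v * X.Y r t ∈ X.VY L := by
  induction hv using Subgroup.closure_induction with
  | mem x hx =>
    obtain ⟨s, hs, u, rfl⟩ := hx
    obtain ⟨h4, h5, h6⟩ := hch s hs
    rcases hq s hs with ⟨h2, h3⟩ | hlc | hrel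
    · exact X.conj_step hr (hL s hs) h4 h5 hs h6 hL hinj h2 h3 t u
    · have e := hlc _ _ _ _ (X.p_Y hr t) (X.p_Y (hL s hs) u)
      have e2 : (X.Y r t)⁻¹ * X.Y s u * X.Y r t = X.Y s u := by
        rw [mul_assoc, ← e, inv_mul_cancel_left]
      rw [e2]
      exact X.mem_VY hs u
    · rw [hrel t u]
      refine Subgroup.mul_mem _ (X.mem_VY hs u) (X.YW_mem fun p hp => ?_)
      simp only [ChevalleyDatum.commWord, List.mem_map] at hp
      obtain ⟨c, hc, rfl⟩ := hp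
      exact h6 c hc
  | one => simp [Subgroup.one_mem]
  | mul a b _ _ ha hb' =>
    have e : (X.Y r t)⁻¹ * (a * b) * X.Y r t = ((X.Y r t)⁻¹ * a * X.Y r t) * ((X.Y r t)⁻¹ * b * X.Y r t) := by group
    rw [e]
    exact Subgroup.mul_mem _ ha hb'
  | inv a _ ha =>
    have e : (X.Y r t)⁻¹ * a⁻¹ * X.Y r t = ((X.Y r t)⁻¹ * a * X.Y r t)⁻¹ := by group
    rw [e]
    exact Subgroup.inv_mem _ ha

/-- Splitting off the first letter. -/
lemma VY_split {r : ℕ} {L : List ℕ} (hr : r < D.nroots)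
    (hconj : ∀ t, ∀ v ∈ X.VY L, (X.Y r t)⁻¹ * v * X.Y r t ∈ X.VY L) {g : E} (hg : g ∈ X.VY (r :: L)) :
    ∃ a : K, ∃ v ∈ X.VY L, g = X.Y r a * v := by
  have h0 := X.Y_zero hr
  have hY := X.Y_add hr
  have hN := X.Y_neg hr
  induction hg using Subgroup.closure_induction with
  | mem x hx =>
    obtain ⟨s, hs, u, rfl⟩ := hx
    rcases List.mem_cons.1 hs with rfl | hs'
    · exact ⟨u, 1, Subgroup.one_mem _, by simp⟩
    · exact ⟨0, _, X.mem_VY hs' u, by rw [h0, one_mul]⟩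
  | one => exact ⟨0, 1, Subgroup.one_mem _, by rw [h0, one_mul]⟩
  | mul a b _ _ ha hb' =>
    obtain ⟨a₁, v₁, hv₁, rfl⟩ := ha
    obtain ⟨a₂, v₂, hv₂, rfl⟩ := hb'
    refine ⟨a₁ + a₂, ((X.Y r a₂)⁻¹ * v₁ * X.Y r a₂) * v₂, Subgroup.mul_mem _ (hconj _ _ hv₁) hv₂, ?_⟩
    rw [← hY]
    group
  | inv a _ ha =>
    obtain ⟨a₁, v₁, hv₁, rfl⟩ := ha
    have h1 := hconj (-a₁) _ (Subgroup.inv_mem _ hv₁)
    rw [← hN, inv_inv] at h1
    refine ⟨-a₁, _, h1, ?_⟩
    rw [← hN]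
    group

include X in
/-- The first coordinate of a relation in the positive roots. -/
lemma coord_zero {r : ℕ} {L : List ℕ} (hr : r < D.nroots) (hrp : D.nroots / 2 ≤ r) (hc : ChainOK D (r :: L))
    (hL : ∀ s ∈ L, D.nroots / 2 ≤ s ∧ s < D.nroots) {a : K} {v : Δ} (hv : v ∈ S.V L) (h : S.y r a * v = 1) : a = 0 := by
  obtain ⟨b, rfl⟩ := S.exists_nf hc.2 (fun s hs => (hL s hs).2) hv
  have e : S.y r a * S.yw (L.map fun r => (r, b r)) = S.yw ((r, a) :: L.map fun r => (r, b r)) := by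
    rw [Sys.yw_cons]
  rw [e] at h
  have hl : ∀ p ∈ ((r, a) :: L.map fun r => (r, b r)), D.nroots / 2 ≤ p.1 ∧ p.1 < D.nroots := by
    intro p hp
    rcases List.mem_cons.1 hp with rfl | hp
    · exact ⟨hrp, hr⟩
    · obtain ⟨s, hs, rfl⟩ := List.mem_map.1 hp
      exact hL s hs
  have h1 := congrArg S.θ h
  rw [S.θ_yw _ fun p hp => (hl p hp).2, map_one] at h1
  have h2 := xl_unique hG _ hl ?_ h1 (r, a) (by simp)
  · exact h2
  · simp only [List.map_cons, List.map_map]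
    have : (Prod.fst ∘ fun r : ℕ => (r, b r)) = id := rfl
    rw [this, List.map_id]
    exact hc.nodup

/-- Injectivity on the subgroup of a longer list. -/
lemma VY_inj_cons {r : ℕ} {L : List ℕ} (hr : r < D.nroots)
    (hrp : D.nroots / 2 ≤ r) (hc : ChainOK D (r :: L))
    (hLp : ∀ s ∈ L, D.nroots / 2 ≤ s ∧ s < D.nroots)
    (hinj : ∀ x ∈ X.VY L, X.p x = 1 → x = 1)
    (hq : ∀ s ∈ L, X.Ok r s) :
    ∀ x ∈ X.VY (r :: L), X.p x = 1 → x = 1 := by
  intro x hx h1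
  have hL : ∀ s ∈ L, s < D.nroots := fun s hs => (hLp s hs).2
  obtain ⟨a, v, hv, rfl⟩ := X.VY_split hr (fun t v hv => X.conj_VY hr hL hc.1 hinj hq t hv) hx
  rw [map_mul, X.p_Y hr] at h1
  have ha := X.coord_zero hr hrp hc hLp (X.p_VY hL hv) h1
  subst ha
  rw [S.y_zero hr, one_mul] at h1
  rw [X.Y_zero hr, one_mul]
  exact hinj v hv h1

/-- Injectivity on the subgroup of the lifts of the positive roots. -/
theorem VY_range (hq : ∀ r s, D.nroots / 2 ≤ r → r < s → s < D.nroots → X.Ok r s)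
    (m k : ℕ) (hk : D.nroots / 2 ≤ k) (hm : k + m = D.nroots) :
    ∀ x ∈ X.VY (List.range' k m), X.p x = 1 → x = 1 := by
  induction m generalizing k with
  | zero =>
    intro x hx _
    have h0 : X.VY (List.range' k 0) = ⊥ := by
      rw [eq_bot_iff]
      refine (Subgroup.closure_le _).2 ?_
      rintro _ ⟨r, hr, _, _⟩
      simp at hr
    rw [h0] at hx
    simpa using hx
  | succ m ih =>
    rw [List.range'_succ]
    have hkn : k < D.nroots := by omega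
    have hmem : ∀ s ∈ List.range' (k + 1) m, k + 1 ≤ s ∧ s < D.nroots := by
      intro s hs
      rw [List.mem_range'_1] at hs
      omega
    refine X.VY_inj_cons hkn hk ?_ (fun s hs => ?_) (ih (k + 1) (by omega) (by omega)) (fun s hs => ?_)
    · have := chain_range hG (m + 1) k hk hm
      rwa [List.range'_succ] at this
    · have := hmem s hs
      omega
    · have := hmem s hs
      exact hq k s hk (by omega) this.2

/-- The relations of the lifts, given a word making the roots positive. -/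
lemma comm_of_word (hq : ∀ r s, D.nroots / 2 ≤ r → r < s → s < D.nroots → X.Ok r s)
    {r s : ℕ} (hr : r < D.nroots) (hs : s < D.nroots) (h1 : s ≠ r) (h2 : s ≠ D.neg r)
    {l : List ℕ} (hl : ∀ i ∈ l, i < D.rank) (hrp : D.nroots / 2 ≤ wperm T l r) (hsp : D.nroots / 2 ≤ wperm T l s)
    (hcp : ∀ c ∈ D.commTerms r s, D.nroots / 2 ≤ wperm T l c.1) (t u : K) :
    (X.Y s u)⁻¹ * (X.Y r t)⁻¹ * X.Y s u * X.Y r t = X.YW (D.commWord K r s t u) := by
  have hinj := X.VY_range hq (D.nroots / 2) (D.nroots / 2) le_rfl (half_add hG)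
  obtain ⟨η, hη⟩ : ∃ η : E, η = X.f (S.Np l) := ⟨_, rfl⟩
  have hmem : ∀ q, q < D.nroots → D.nroots / 2 ≤ wperm T l q → ∀ v, η * X.Y q v * η⁻¹ ∈ X.VY (List.range' (D.nroots / 2) (D.nroots / 2)) := by
    intro q hq' hq2 v
    obtain ⟨c', e⟩ := X.Y_Np hl hq'
    rw [hη, e]
    apply X.mem_VY
    rw [List.mem_range'_1]
    have := hG.wperm_lt hl hq'
    have := half_add hG
    omega
  have hA : η * ((X.Y s u)⁻¹ * (X.Y r t)⁻¹ * X.Y s u * X.Y r t) * η⁻¹ ∈ X.VY (List.range' (D.nroots / 2) (D.nroots / 2)) := by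
    have e : η * ((X.Y s u)⁻¹ * (X.Y r t)⁻¹ * X.Y s u * X.Y r t) * η⁻¹ =
        (η * X.Y s u * η⁻¹)⁻¹ * (η * X.Y r t * η⁻¹)⁻¹ * (η * X.Y s u * η⁻¹) * (η * X.Y r t * η⁻¹) := by group
    rw [e]
    have m1 := hmem s hs hsp u
    have m2 := hmem r hr hrp t
    exact Subgroup.mul_mem _ (Subgroup.mul_mem _ (Subgroup.mul_mem _ (Subgroup.inv_mem _ m1) (Subgroup.inv_mem _ m2)) m1) m2
  have hB : ∀ w : List (ℕ × K), (∀ p ∈ w, p.1 < D.nroots ∧ D.nroots / 2 ≤ wperm T l p.1) →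
      η * X.YW w * η⁻¹ ∈ X.VY (List.range' (D.nroots / 2) (D.nroots / 2)) := by
    intro w
    induction w with
    | nil => simp [Subgroup.one_mem]
    | cons p w ih =>
      intro hw
      have e : η * X.YW (p :: w) * η⁻¹ = (η * X.Y p.1 p.2 * η⁻¹) * (η * X.YW w * η⁻¹) := by
        rw [YW_cons]
        group
      rw [e]
      obtain ⟨h3, h4⟩ := hw p (by simp)
      exact Subgroup.mul_mem _ (hmem _ h3 h4 _) (ih fun q hq => hw q (List.mem_cons_of_mem _ hq))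
  have hB' := hB (D.commWord K r s t u) (by
    intro p hp
    simp only [ChevalleyDatum.commWord, List.mem_map] at hp
    obtain ⟨c, hc, rfl⟩ := hp
    exact ⟨hG.commTerms_lt hr hs c hc, hcp c hc⟩)
  have hp : X.p ((X.Y s u)⁻¹ * (X.Y r t)⁻¹ * X.Y s u * X.Y r t) = X.p (X.YW (D.commWord K r s t u)) := by
    rw [X.p_YW (commWord_range hG hr hs t u)]
    simp only [map_mul, map_inv, X.p_Y hr, X.p_Y hs]
    exact S.comm hr hs h1 h2 t u
  have hc : ∀ a b : E, X.p a = X.p b → X.p (η * a * η⁻¹) = X.p (η * b * η⁻¹) := fun a b e => by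
    simp only [map_mul, map_inv, e]
  have h3 := hinj _ (Subgroup.mul_mem _ hA (Subgroup.inv_mem _ hB')) (by
    rw [map_mul, map_inv, hc _ _ hp, mul_inv_cancel])
  rw [mul_inv_eq_one] at h3
  have h4 : ∀ a b : E, η * a * η⁻¹ = η * b * η⁻¹ → a = b := by
    intro a b e
    have := mul_right_cancel e
    exact mul_left_cancel this
  exact h4 _ _ h3

/-- The section of the central extension, given the relations for the canonical lifts. -/
theorem comm_all (hq : ∀ r s, D.nroots / 2 ≤ r → r < s → s < D.nroots → X.Ok r s)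
    {bw : ℕ → ℕ → List ℕ} (hb : T.chkU3 bw = true)
    {r s : ℕ} (hr : r < D.nroots) (hs : s < D.nroots) (h1 : s ≠ r) (h2 : s ≠ D.neg r) (t u : K) :
    (X.Y s u)⁻¹ * (X.Y r t)⁻¹ * X.Y s u * X.Y r t = X.YW (D.commWord K r s t u) := by
  obtain ⟨l, hl, h3, h4, h5⟩ := exists_word hG hb hr hs h1 h2
  exact X.comm_of_word hq hr hs h1 h2 hl h3 h4 h5 t u


end AExt

section ASection

variable {hG : T.Good3 D} {E : Type*} [Group E]

/-- The images of the generators. -/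
noncomputable def asecF {S : Sys hG K (D.SteinbergCover K)} (X : AExt S E wit) : Fin D.nroots × K → E := fun p => X.Y p.1.1 p.2

variable {S : Sys hG K (D.SteinbergCover K)} (X : AExt S E wit)

lemma alift_stX {r : ℕ} (hr : r < D.nroots) (t : K) : FreeGroup.lift (asecF X) (D.stX r t) = X.Y r t := by
  unfold ChevalleyDatum.stX
  rw [dif_pos hr, FreeGroup.lift_apply_of]
  rfl

lemma alift_stWord (w : List (ℕ × K)) (hw : ∀ p ∈ w, p.1 < D.nroots) :
    FreeGroup.lift (asecF X) (D.stWord w) = X.YW w := by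
  induction w with
  | nil => simp [ChevalleyDatum.stWord]
  | cons p w ih =>
    have hp := hw p (by simp)
    have e : D.stWord (p :: w) = D.stX p.1 p.2 * D.stWord w := by
      simp [ChevalleyDatum.stWord]
    rw [e, map_mul, alift_stX X hp, ih fun q hq => hw q (List.mem_cons_of_mem _ hq), AExt.YW_cons]

/-- The relators hold for the lifts. -/
lemma alift_sec (hq : ∀ r s, D.nroots / 2 ≤ r → r < s → s < D.nroots → X.Ok r s)
    {bw : ℕ → ℕ → List ℕ} (hb : T.chkU3 bw = true) :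
    ∀ g ∈ D.steinbergRelsAB K, FreeGroup.lift (asecF X) g = 1 := by
  rintro g (⟨r, t₁, t₂, hr, rfl⟩ | ⟨r, s, t, u, hr, hs, h1, h2, rfl⟩)
  · simp only [map_mul, map_inv, alift_stX X hr, X.Y_add hr, mul_inv_cancel]
  · simp only [map_mul, map_inv, alift_stX X hr, alift_stX X hs, alift_stWord X _ (commWord_range hG hr hs t u)]
    rw [mul_inv_eq_one]
    exact X.comm_all hq hb hr hs h1 h2 t u

/-- The section. -/
noncomputable def asecHom (hq : ∀ r s, D.nroots / 2 ≤ r → r < s → s < D.nroots → X.Ok r s)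
    {bw : ℕ → ℕ → List ℕ} (hb : T.chkU3 bw = true) : D.SteinbergCover K →* E :=
  PresentedGroup.toGroup (alift_sec X hq hb)

lemma asecHom_spec (hS : ∀ (p : Fin D.nroots × K), S.y p.1.1 p.2 = PresentedGroup.of p) (hq : ∀ r s, D.nroots / 2 ≤ r → r < s → s < D.nroots → X.Ok r s)
    {bw : ℕ → ℕ → List ℕ} (hb : T.chkU3 bw = true) : X.p.comp (asecHom X hq hb) = MonoidHom.id _ := by
  apply PresentedGroup.ext
  intro p
  simp only [MonoidHom.comp_apply, MonoidHom.id_apply, asecHom, PresentedGroup.toGroup.of]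
  show X.p (X.Y p.1.1 p.2) = _
  rw [X.p_Y p.1.2, hS]

end ASection

end Cfsg.Agent.Lib.St
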