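/-
Central extensions of a group with the relations (R1), (R2), for small fields: commuting lifts from Weyl group elements,
and the type D₄.
-/
import Cfsg.Agent.Lib.St.GV1
import Cfsg.Agent.Lib.St.GU4

set_option autoImplicit false
set_option maxRecDepth 100000

namespace Cfsg.Agent.Lib.Chev.Tbl

variable (T : Tbl)

/-- The sign of a word on a root. -/
def wsgnZ : List ℕ → ℕ → ℤ
  | [], _ => 1
  | i :: l, r => T.eps i (wperm T l r) * wsgnZ l r

/-- A word exchanging two roots, with the same sign. -/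
noncomputable def swapOK (r s : ℕ) (l : List ℕ) : Bool :=
  and (allF (fun i => Nat.blt i T.l) l) <| and (Nat.beq (wperm T l r) s) <| and (Nat.beq (wperm T l s) r) <|
  and (Nat.beq (Int.natAbs (wsgnZ T l r)) 1) (intEq (wsgnZ T l r) (wsgnZ T l s))

/-- The words for the type D₄. -/
def wdD4 (r s : ℕ) : List ℕ :=
  (([(12, 13, [1, 3, 2, 1]), (12, 18, [1, 3, 0, 1]), (12, 23, [1, 2, 0, 1]), (13, 18, [1, 2, 0, 1]), (13, 23, [1, 3, 0, 1]), (14, 17, [3, 2]), (14, 20, [3, 0]), (14, 21, [2, 0]), (15, 16, [3, 2]), (15, 19, [3, 0]), (15, 22, [2, 0]), (16, 19, [2, 0]), (16, 22, [3, 0]), (17, 20, [2, 0]), (17, 21, [3, 0]), (18, 23, [1, 3, 2, 1]), (19, 22, [3, 2]), (20, 21, [3, 2])] : List (ℕ × ℕ × List ℕ)).find? fun p => and (Nat.beq p.1 r) (Nat.beq p.2.1 s)).elim [] fun p => p.2.2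

/-- The positive pairs are separated by parity or exchanged by a word. -/
noncomputable def chkSw (w : ℕ → ℕ → List ℕ) : Bool :=
  allBelow T.n fun r => or (Nat.blt r T.half) <| allBelow T.n fun s => or (Nat.ble s r) <|
    or (Nat.blt (firstI T.n fun q => and (evenZ (T.pairT q r)) (not (evenZ (T.pairT q s)))) T.n)
      (and (T.lcP r s) (T.swapOK r s (w r s)))

end Cfsg.Agent.Lib.Chev.Tbl

namespace Cfsg.Agent.Lib.St

open Cfsg Cfsg.Lie Cfsg.Agent.Lib.Chev
open scoped commutatorElement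

variable {K : Type*} [Field K] {D : ChevalleyDatum} {T : Tbl} {hG : T.Good3 D} {Δ : Type*} [Group Δ]
  {wit : ℕ → ℕ × ℕ}

namespace Sys

variable (S : Sys hG K Δ)

/-- The action of a word with the sign. -/
lemma conj_Np_sgn (hW : StHyp T wit) {l : List ℕ} (hl : ∀ i ∈ l, i < D.rank) {q : ℕ} (hq : q < D.nroots) (u : K) :
    S.Np l * S.y q u * (S.Np l)⁻¹ = S.y (wperm T l q) (((T.wsgnZ l q : ℤ) : K) * u) := by
  induction l with
  | nil => simp [Tbl.wsgnZ, wperm]
  | cons i l ih =>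
    have hi := hl i (by simp)
    have hl' : ∀ j ∈ l, j < D.rank := fun j hj => hl j (List.mem_cons_of_mem _ hj)
    have hw := hG.wperm_lt hl' hq
    have e : S.Np (i :: l) * S.y q u * (S.Np (i :: l))⁻¹ =
        S.nb (D.simple i) 1 * (S.Np l * S.y q u * (S.Np l)⁻¹) * (S.nb (D.simple i) 1)⁻¹ := by
      rw [S.Np_cons]
      group
    rw [e, ih hl', S.conj_nb1 hW hi hw]
    have e2 : wperm T (i :: l) q = T.refl i (wperm T l q) := rfl
    rw [e2, Tbl.wsgnZ]
    congr 1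
    push_cast
    ring

end Sys

namespace HExt

variable {S : Sys hG K Δ} {E : Type*} [Group E] (X : HExt S E wit)

/-- Lifts of commuting letters commute, given an element fixing one letter and moving the other one. -/
lemma lc_of_conj {r s : ℕ} (hs : s < D.nroots) (hdc : S.DC r s) {g : Δ} {μ : K} (hμ1 : μ ≠ 1)
    (h1 : ∀ u, g * S.y r u * g⁻¹ = S.y r u) (h2 : ∀ v, g * S.y s v * g⁻¹ = S.y s (μ * v)) : X.LC r s := by
  intro x x' u v hx hx'
  have hμ2 : μ - 1 ≠ 0 := sub_ne_zero.2 hμ1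
  obtain ⟨η, hη⟩ : ∃ η : E, η = X.f g := ⟨_, rfl⟩
  have hηp : X.p η = g := by rw [hη, X.hf]
  obtain ⟨v', hv'⟩ : ∃ v' : K, v' = (μ - 1)⁻¹ * v := ⟨_, rfl⟩
  obtain ⟨a, ha⟩ : ∃ a : E, a = X.f (S.y s v') := ⟨_, rfl⟩
  have hap : X.p a = S.y s v' := by rw [ha, X.hf]
  have hcc : ∀ b w, X.p b = S.y s w → ∀ c, c * ⁅x, b⁆ = ⁅x, b⁆ * c := by
    intro b w hb
    apply X.hc
    rw [map_commutatorElement, hx, hb]
    exact cm_eq_one (hdc u w)
  have hainv : X.p a⁻¹ = S.y s (-v') := by rw [map_inv, hap, S.y_inv hs]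
  have e1 : ⁅x, x'⁆ = ⁅x, (η * a * η⁻¹) * a⁻¹⁆ := by
    apply X.cm_congr rfl
    rw [hx', map_mul, map_mul, map_mul, map_inv, map_inv, hηp, hap, h2, S.y_inv hs, S.add hs]
    congr 1
    rw [hv']
    field_simp
    ring
  have e2 : ⁅x, η * a * η⁻¹⁆ = ⁅x, a⁆ := by
    have e3 : ⁅x, η * a * η⁻¹⁆ = ⁅η * x * η⁻¹, η * a * η⁻¹⁆ := by
      apply X.cm_congr _ rfl
      rw [map_mul, map_mul, map_inv, hηp, hx, h1]
    rw [e3, ← cm_conj, hcc a v' hap η]
    group
  have e4 : ⁅x, a⁆ * ⁅x, a⁻¹⁆ = 1 := by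
    rw [← cm_mul_right (hcc _ _ hainv), mul_inv_cancel]
    simp [commutatorElement_def]
  refine comm_of_cm ?_
  rw [e1, cm_mul_right (hcc _ _ hainv), e2, e4]

/-- The commutators of the lifts of two commuting letters over the field with three elements vanish if a word exchanges them. -/
lemma lc_of_swap (hK3 : ∀ u : K, u = 0 ∨ u = 1 ∨ u = -1) (h3 : (1 : K) + 1 + 1 = 0) {r s : ℕ} (hr : r < D.nroots) (hs : s < D.nroots)
    (hdc : S.DC r s) {l : List ℕ} (hl : T.swapOK r s l = true) : X.LC r s := by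
  unfold Tbl.swapOK at hl
  simp only [Bool.and_eq_true] at hl
  obtain ⟨hl1, e1, e2, h4, h5⟩ := hl
  have hl' : ∀ i ∈ l, i < D.rank := fun i hi => hG.l_lt (Nat.le_of_ble_eq_true (allF_spec hl1 i hi))
  have e1' : wperm T l r = s := Nat.eq_of_beq_eq_true e1
  have e2' : wperm T l s = r := Nat.eq_of_beq_eq_true e2
  have h5' : T.wsgnZ l r = T.wsgnZ l s := intEq_spec h5
  have h4' : Int.natAbs (T.wsgnZ l r) = 1 := Nat.eq_of_beq_eq_true h4
  obtain ⟨A, hA⟩ : ∃ A : K, A = ((T.wsgnZ l r : ℤ) : K) := ⟨_, rfl⟩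
  have hA1 : A = 1 ∨ A = -1 := by
    have h6 : T.wsgnZ l r = 1 ∨ T.wsgnZ l r = -1 := by omega
    rcases h6 with h6 | h6
    · left
      rw [hA, h6]
      simp
    · right
      rw [hA, h6]
      simp
  have hg1 : ∀ t, S.Np l * S.y r t * (S.Np l)⁻¹ = S.y s (A * t) := fun t => by
    rw [S.conj_Np_sgn X.hW hl' hr, e1', ← hA]
  have hg2 : ∀ t, S.Np l * S.y s t * (S.Np l)⁻¹ = S.y r (A * t) := fun t => by
    rw [S.conj_Np_sgn X.hW hl' hs, e2', ← h5', ← hA]
  have hF1 : ∀ t, X.p (X.f (S.y r t)) = S.y r t := fun t => X.hf _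
  have hF2 : ∀ t, X.p (X.f (S.y s t)) = S.y s t := fun t => X.hf _
  have hcz : ∀ (b b' : E) (t u : K), X.p b = S.y r t → X.p b' = S.y s u → ∀ w, w * ⁅b, b'⁆ = ⁅b, b'⁆ * w := by
    intro b b' t u hb hb'
    apply X.hc
    rw [map_commutatorElement, hb, hb']
    exact cm_eq_one (hdc t u)
  obtain ⟨c, hc⟩ : ∃ c : K → K → E, ∀ t u, c t u = ⁅X.f (S.y r t), X.f (S.y s u)⁆ := ⟨_, fun _ _ => rfl⟩
  have hcl : ∀ (b b' : E) (t u : K), X.p b = S.y r t → X.p b' = S.y s u → ⁅b, b'⁆ = c t u := by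
    intro b b' t u hb hb'
    rw [hc]
    exact X.cm_congr (by rw [hb, hF1]) (by rw [hb', hF2])
  have add1 : ∀ t t' u, c (t + t') u = c t u * c t' u := by
    intro t t' u
    rw [← hcl (X.f (S.y r t) * X.f (S.y r t')) (X.f (S.y s u)) (t + t') u (by rw [map_mul, hF1, hF1, S.add hr]) (hF2 u),
      cm_mul_left (hcz _ _ t' u (hF1 _) (hF2 _)), hc, hc]
  have add2 : ∀ t u u', c t (u + u') = c t u * c t u' := by
    intro t u u'
    rw [← hcl (X.f (S.y r t)) (X.f (S.y s u) * X.f (S.y s u')) t (u + u') (hF1 t) (by rw [map_mul, hF2, hF2, S.add hs]),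
      cm_mul_right (hcz _ _ t u' (hF1 _) (hF2 _)), hc, hc]
  have zero1 : ∀ u, c 0 u = 1 := fun u => by
    have := add1 0 0 u
    rw [add_zero] at this
    exact mul_eq_left.1 this.symm
  have zero2 : ∀ t, c t 0 = 1 := fun t => by
    have := add2 t 0 0
    rw [add_zero] at this
    exact mul_eq_left.1 this.symm
  have neg1 : ∀ t u, c (-t) u = (c t u)⁻¹ := fun t u => by
    rw [eq_inv_iff_mul_eq_one, ← add1, neg_add_cancel, zero1]
  have neg2 : ∀ t u, c t (-u) = (c t u)⁻¹ := fun t u => by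
    rw [eq_inv_iff_mul_eq_one, ← add2, neg_add_cancel, zero2]
  have hsw : ∀ t u, c t u = (c (A * u) (A * t))⁻¹ := by
    intro t u
    obtain ⟨η, hη⟩ : ∃ η : E, η = X.f (S.Np l) := ⟨_, rfl⟩
    have hηp : X.p η = S.Np l := by rw [hη, X.hf]
    have e3 : η * c t u * η⁻¹ = c t u := by
      rw [hc, hcz _ _ t u (hF1 _) (hF2 _) η]
      group
    rw [← e3, hc, cm_conj, hc, commutatorElement_inv]
    apply X.cm_congr
    · rw [map_mul, map_mul, map_inv, hηp, hF1, hg1, hF2]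
    · rw [map_mul, map_mul, map_inv, hηp, hF2, hg2, hF1]
  have hz2 : c 1 1 * c 1 1 = 1 := by
    have e3 := hsw 1 1
    rw [mul_one] at e3
    have e4 : c A A = c 1 1 := by
      rcases hA1 with h | h
      · rw [h]
      · rw [h, neg1, neg2, inv_inv]
    rw [e4] at e3
    exact (eq_inv_iff_mul_eq_one.1 e3)
  have hz3 : c 1 1 * c 1 1 * c 1 1 = 1 := by
    rw [← add1, ← add1, h3, zero1]
  have hz : c 1 1 = 1 := by
    rw [hz2, one_mul] at hz3
    exact hz3
  have hall : ∀ t u, c t u = 1 := by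
    intro t u
    have hu1 : ∀ t, c t 1 = 1 := by
      intro t
      rcases hK3 t with rfl | rfl | rfl
      · exact zero1 _
      · exact hz
      · rw [neg1, hz, inv_one]
    rcases hK3 u with rfl | rfl | rfl
    · exact zero2 _
    · exact hu1 t
    · rw [neg2, hu1, inv_one]
  intro x x' u v hx hx'
  exact comm_of_cm (by rw [hcl x x' u v hx hx', hall])

end HExt

/-- Lifting from sections of the pull-back. -/
theorem lift_via {Δ' G₁ E : Type*} [Group Δ'] [Group G₁] [Group E] (π₁ : E →* G₁) (hπ : Function.Surjective π₁)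
    (hc : π₁.ker ≤ Subgroup.center E) (σ : Δ' →* G₁)
    (H : ∀ (p : ↥(MonoidHom.eqLocus (σ.comp (MonoidHom.fst Δ' E)) (π₁.comp (MonoidHom.snd Δ' E))) →* Δ')
      (f : Δ' → ↥(MonoidHom.eqLocus (σ.comp (MonoidHom.fst Δ' E)) (π₁.comp (MonoidHom.snd Δ' E)))),
      (∀ g, p (f g) = g) → (∀ z, p z = 1 → ∀ w, w * z = z * w) → ∃ s : Δ' →* ↥(MonoidHom.eqLocus (σ.comp (MonoidHom.fst Δ' E)) (π₁.comp (MonoidHom.snd Δ' E))),
        p.comp s = MonoidHom.id _) :
    ∃ τ : Δ' →* E, π₁.comp τ = σ := by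
  classical
  let P : Subgroup (Δ' × E) := MonoidHom.eqLocus (σ.comp (MonoidHom.fst _ _)) (π₁.comp (MonoidHom.snd _ _))
  have hP : ∀ x : P, σ x.1.1 = π₁ x.1.2 := fun x => x.2
  let p : P →* Δ' := (MonoidHom.fst _ _).comp P.subtype
  have hex : ∀ g, ∃ x : P, p x = g := by
    intro g
    obtain ⟨e, he⟩ := hπ (σ g)
    exact ⟨⟨(g, e), he.symm⟩, rfl⟩
  choose f hf using hex
  have hcp : ∀ z : P, p z = 1 → ∀ w, w * z = z * w := by
    intro z hz w
    have hz' : z.1.1 = 1 := hz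
    have h4 : z.1.2 ∈ π₁.ker := by
      rw [MonoidHom.mem_ker, ← hP z, hz', map_one]
    apply Subtype.ext
    apply Prod.ext
    · show w.1.1 * z.1.1 = z.1.1 * w.1.1
      rw [hz', mul_one, one_mul]
    · exact Subgroup.mem_center_iff.1 (hc h4) w.1.2
  obtain ⟨s, hs⟩ := H p f hf hcp
  have hs' : ∀ g, (s g).1.1 = g := fun g => congrArg (fun φ : Δ' →* Δ' => φ g) hs
  refine ⟨(MonoidHom.snd _ _).comp (P.subtype.comp s), ?_⟩
  refine MonoidHom.ext fun g => ?_
  show π₁ (s g).1.2 = σ g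
  rw [← hP, hs']

section Sec

variable {E : Type*} [Group E]

/-- The torus elements of small pairing. -/
lemma exists_qr (hG : T.Good3 D) (hU2 : T.chkU2 (fun _ => false) = true) :
    ∃ qr : ℕ → ℕ, ∀ r, r < D.nroots → qr r < D.nroots ∧ (D.pairing (qr r) r).natAbs = 1 := by
  have hqex : ∀ r, r < D.nroots → ∃ q, q < D.nroots ∧ (D.pairing q r).natAbs = 1 := by
    intro r hr
    have h2 := allBelow_spec hU2 r (hG.lt_n hr)
    rw [Bool.false_or] at h2
    have h4 := Nat.le_of_ble_eq_true h2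
    obtain ⟨Q, hQ1, h5⟩ : ∃ Q, Q < T.n ∧ Nat.beq (Int.natAbs (T.pairT Q r)) 1 = true :=
      ⟨_, h4, firstI_spec h4⟩
    have hq := hG.n_lt hQ1
    have h6 := Nat.eq_of_beq_eq_true h5
    rw [hG.pairT_eq hq hr] at h6
    exact ⟨Q, hq, h6⟩
  have hqex' : ∀ r, ∃ q, r < D.nroots → q < D.nroots ∧ (D.pairing q r).natAbs = 1 := by
    intro r
    by_cases hr : r < D.nroots
    · obtain ⟨q, h3, h4⟩ := hqex r hr
      exact ⟨q, fun _ => ⟨h3, h4⟩⟩
    · exact ⟨0, fun h => absurd h hr⟩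
  choose qr hqr using hqex'
  exact ⟨qr, hqr⟩

lemma zpow_char2 (h2 : (2 : K) = 0) {x : K} (hx0 : x ≠ 0) (hx1 : x ≠ 1) {d : ℤ} (hd : d = 1 ∨ d = -1 ∨ d = 2 ∨ d = -2) : x ^ d ≠ 1 := by
  have hx2 : x * x ≠ 1 := by
    intro h
    apply hx1
    have h3 : (x - 1) * (x - 1) = 0 := by
      have : (x - 1) * (x - 1) = x * x - 2 * x + 1 := by ring
      rw [this, h, h2]
      have h4 : (1 : K) + 1 = 0 := by
        rw [← h2]
        norm_num
      rw [zero_mul, sub_zero, h4]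
    exact sub_eq_zero.1 (mul_self_eq_zero.1 h3)
  rcases hd with rfl | rfl | rfl | rfl
  · simpa using hx1
  · intro h
    apply hx1
    simpa using h
  · intro h
    apply hx2
    have h3 : x ^ (2 : ℤ) = x * x := by
      norm_cast
      exact sq x
    rwa [h3] at h
  · intro h
    apply hx2
    have h3 : x ^ (-2 : ℤ) = (x * x)⁻¹ := by
      rw [zpow_neg]
      congr 1
      norm_cast
      exact sq x
    rw [h3] at h
    exact inv_eq_one.1 h

/-- Sections in characteristic two. -/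
theorem sec_char2 {bw : ℕ → ℕ → List ℕ} (hG : T.Good3 D) (hW : StHyp T wit) (hU1 : T.chkU1 = true)
    (hU2 : T.chkU2 (fun _ => false) = true) (hU3 : T.chkU3 bw = true) (hA : T.chkAb = true) (hP2 : T.chkP2 = true)
    (h2 : (2 : K) = 0) {x : K} (hx0 : x ≠ 0) (hx1 : x ≠ 1)
    (p : E →* D.SteinbergCover K) (f : D.SteinbergCover K → E) (hf : ∀ g, p (f g) = g) (hc : ∀ z, p z = 1 → ∀ w, w * z = z * w) :
    ∃ s : D.SteinbergCover K →* E, p.comp s = MonoidHom.id _ := by
  let S : Sys hG K (D.SteinbergCover K) := canSys hG (D.steinbergRelsAB K) subset_rfl (lift_relAB hG)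
  obtain ⟨qr, hqr⟩ := exists_qr hG hU2
  let X : GExt S E wit := ⟨hW, p, f, hf, hc, x, hx0, qr, fun r hr => (hqr r hr).1, fun r hr =>
    zpow_char2 h2 hx0 hx1 (by have := (hqr r hr).2; omega)⟩
  have hAb : ∀ r, r < D.nroots → X.Ab r := fun r hr =>
    X.toH.findLC_spec hr hr (allBelow_spec hA r (hG.lt_n hr))
  have hq : ∀ r s, D.nroots / 2 ≤ r → r < s → s < D.nroots → X.Ok r s := by
    intro r s hr hrs hs
    left
    have hrn : r < D.nroots := by omega
    have h1 := allBelow_spec hU1 r (hG.lt_n hrn)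
    rw [Bool.or_eq_true, Tbl.blt_false (by rw [hG.half_eq]; omega)] at h1
    have h2' := allBelow_spec (h1.resolve_left (by simp)) s (hG.lt_n hs)
    rw [Bool.or_eq_true] at h2'
    have h3 : Nat.ble s r = false := by
      cases h4 : Nat.ble s r with
      | false => rfl
      | true =>
        have := Nat.le_of_ble_eq_true h4
        omega
    rw [h3] at h2'
    have h4 := Nat.le_of_ble_eq_true (h2'.resolve_left (by simp))
    obtain ⟨Q, hQ1, h5⟩ : ∃ Q, Q < T.n ∧ (intZero (T.pairT Q r) && Tbl.smallNZ (T.pairT Q s)) = true :=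
      ⟨_, h4, firstI_spec h4⟩
    rw [Bool.and_eq_true] at h5
    have hq := hG.n_lt hQ1
    refine ⟨Q, hq, ?_, ?_⟩
    · rw [← hG.pairT_eq hq hrn, intZero_spec h5.1, zpow_zero]
    · have h6 := h5.2
      unfold Tbl.smallNZ at h6
      rw [Bool.and_eq_true, Bool.not_eq_true', hG.pairT_eq hq hs] at h6
      have h7 := Nat.le_of_ble_eq_true (allBelow_spec (allBelow_spec hP2 Q hQ1) s (hG.lt_n hs))
      rw [hG.pairT_eq hq hs] at h7
      have h8 : D.pairing Q s ≠ 0 := by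
        intro h9
        rw [h9] at h6
        exact absurd h6.1 (by decide)
      exact zpow_char2 h2 hx0 hx1 (by omega)
  exact ⟨gsecHom X hAb hq hU3, gsecHom_spec X (canSys_y_of hG) hAb hq hU3⟩

/-- Sections over the field with three elements. -/
theorem sec_F3 {bw : ℕ → ℕ → List ℕ} {w : ℕ → ℕ → List ℕ} (hG : T.Good3 D) (hW : StHyp T wit) (hSw : T.chkSw w = true)
    (hU2 : T.chkU2 (fun _ => false) = true) (hU3 : T.chkU3 bw = true) (hA : T.chkAb = true)
    (hK3 : ∀ u : K, u = 0 ∨ u = 1 ∨ u = -1) (h3 : (1 : K) + 1 + 1 = 0) (hm : (-1 : K) ≠ 1)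
    (p : E →* D.SteinbergCover K) (f : D.SteinbergCover K → E) (hf : ∀ g, p (f g) = g) (hc : ∀ z, p z = 1 → ∀ w, w * z = z * w) :
    ∃ s : D.SteinbergCover K →* E, p.comp s = MonoidHom.id _ := by
  let S : Sys hG K (D.SteinbergCover K) := canSys hG (D.steinbergRelsAB K) subset_rfl (lift_relAB hG)
  obtain ⟨qr, hqr⟩ := exists_qr hG hU2
  have hodd : ∀ d : ℤ, Odd d → (-1 : K) ^ d = -1 := fun d hd => hd.neg_one_zpow
  have heven : ∀ d : ℤ, Even d → (-1 : K) ^ d = 1 := fun d hd => hd.neg_one_zpow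
  let X : GExt S E wit := ⟨hW, p, f, hf, hc, -1, neg_ne_zero.2 one_ne_zero, qr, fun r hr => (hqr r hr).1, fun r hr => by
    rw [hodd]
    · exact hm
    · have h4 := (hqr r hr).2
      rw [← Int.natAbs_odd, h4]
      decide⟩
  have hAb : ∀ r, r < D.nroots → X.Ab r := fun r hr =>
    X.toH.findLC_spec hr hr (allBelow_spec hA r (hG.lt_n hr))
  have hq : ∀ r s, D.nroots / 2 ≤ r → r < s → s < D.nroots → X.Ok r s := by
    intro r s hr hrs hs
    have hrn : r < D.nroots := by omega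
    have h1 := allBelow_spec hSw r (hG.lt_n hrn)
    rw [Bool.or_eq_true, Tbl.blt_false (by rw [hG.half_eq]; omega)] at h1
    have h2' := allBelow_spec (h1.resolve_left (by simp)) s (hG.lt_n hs)
    rw [Bool.or_eq_true] at h2'
    have h3' : Nat.ble s r = false := by
      cases h4 : Nat.ble s r with
      | false => rfl
      | true =>
        have := Nat.le_of_ble_eq_true h4
        omega
    rw [h3'] at h2'
    have h4 := h2'.resolve_left (by simp)
    rw [Bool.or_eq_true, Bool.and_eq_true] at h4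
    rcases h4 with h4 | ⟨h4, h5⟩
    · left
      have h6 := Nat.le_of_ble_eq_true h4
      obtain ⟨Q, hQ1, h7⟩ : ∃ Q, Q < T.n ∧ (Tbl.evenZ (T.pairT Q r) && !(Tbl.evenZ (T.pairT Q s))) = true :=
        ⟨_, h6, firstI_spec h6⟩
      rw [Bool.and_eq_true, Bool.not_eq_true'] at h7
      have hq := hG.n_lt hQ1
      refine ⟨Q, hq, ?_, ?_⟩
      · rw [← hG.pairT_eq hq hrn]
        exact heven _ (Tbl.evenZ_spec h7.1)
      · rw [← hG.pairT_eq hq hs]
        show (-1 : K) ^ _ ≠ 1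
        rw [hodd _ (Tbl.not_evenZ_spec h7.2)]
        exact hm
    · right
      exact X.toH.lc_of_swap hK3 h3 hrn hs (S.dc_of_lcP hrn hs h4) h5
  exact ⟨gsecHom X hAb hq hU3, gsecHom_spec X (canSys_y_of hG) hAb hq hU3⟩

end Sec

theorem swD4 : digD4.tbl.chkSw Tbl.wdD4 = true := by decide +kernel

theorem abD4 : digD4.tbl.chkAb = true := by decide +kernel

theorem p2D4 : digD4.tbl.chkP2 = true := by decide +kernel

end Cfsg.Agent.Lib.St
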