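/-
Central extensions of a group with the relations (R1), (R2), over the field with three elements, for the type B₂:
lifts through an element acting by -1 and through commutators.
-/
import Cfsg.Agent.Lib.St.GV2

set_option autoImplicit false

namespace Cfsg.Agent.Lib.St

open Cfsg Cfsg.Lie Cfsg.Agent.Lib.Chev
open scoped commutatorElement

namespace HExt

variable {K : Type*} [Field K] {D : ChevalleyDatum} {T : Tbl} {hG : T.Good3 D} {Δ : Type*} [Group Δ]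
  {wit : ℕ → ℕ × ℕ} {S : Sys hG K Δ} {E : Type*} [Group E] (X : HExt S E wit)

/-- A lift of a central element is central, for a perfect group. -/
lemma lift_center' (hP : commutator Δ = ⊤) {ζ : E} (hz : X.p ζ ∈ Subgroup.center Δ) (w : E) : w * ζ = ζ * w := by
  have hz' := Subgroup.mem_center_iff.1 hz
  have hφc : ∀ x, X.p ⁅ζ, x⁆ = 1 := fun x => by
    rw [map_commutatorElement]
    exact cm_eq_one (hz' _).symm
  let φ : E →* E := MonoidHom.mk' (fun x => ⁅ζ, x⁆) (fun a b => cm_mul_right (X.hc _ (hφc b)))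
  have hφ1 : ∀ a b, φ ⁅a, b⁆ = 1 := fun a b => by
    rw [map_commutatorElement]
    exact cm_eq_one (X.hc _ (hφc a) _).symm
  have hφ2 : ∀ a, X.p a = 1 → φ a = 1 := fun a ha => cm_eq_one (X.hc _ ha _)
  have hQ : ∀ g, ∀ x, X.p x = g → φ x = 1 := by
    intro g
    have hg : g ∈ commutator Δ := by
      rw [hP]
      trivial
    rw [commutator_def, Subgroup.commutator_def] at hg
    induction hg using Subgroup.closure_induction with
    | mem g hg =>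
      obtain ⟨a, _, b, _, rfl⟩ := hg
      intro x hx
      have e : x = ⁅X.f a, X.f b⁆ * (⁅X.f a, X.f b⁆⁻¹ * x) := by group
      have h1 : X.p (⁅X.f a, X.f b⁆⁻¹ * x) = 1 := by
        rw [map_mul, map_inv, map_commutatorElement, X.hf, X.hf, hx, inv_mul_cancel]
      rw [e, map_mul, hφ2 _ h1, mul_one]
      exact hφ1 _ _
    | one => exact fun x hx => hφ2 x hx
    | mul a b _ _ ha hb =>
      intro x hx
      have e : x = X.f a * ((X.f a)⁻¹ * x) := by group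
      rw [e, map_mul, ha _ (X.hf a), hb _ (by rw [map_mul, map_inv, hx, X.hf]; group), mul_one]
    | inv a _ ha =>
      intro x hx
      have h1 := ha x⁻¹ (by rw [map_inv, hx, inv_inv])
      rw [map_inv] at h1
      exact inv_eq_one.1 h1
  exact (comm_of_cm (hQ _ w rfl)).symm

include X in
/-- Elements of `H̄` commute modulo the centre. -/
lemma Hb_cm_center' {a b : Δ} (ha : a ∈ S.Hb) (hb' : b ∈ S.Hb) : ⁅a, b⁆ ∈ Subgroup.center Δ := by
  apply S.ker_le_center X.hW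
  rw [MonoidHom.mem_ker, map_commutatorElement]
  exact cm_eq_one (diagSub_comm (hG.diagonalSubgroup_le (S.θ_Hb ha)) (hG.diagonalSubgroup_le (S.θ_Hb hb')))

lemma comm_of_same {x x' : E} (h : X.p x' = X.p x) : x * x' = x' * x := by
  have h1 : X.p (x⁻¹ * x') = 1 := by rw [map_mul, map_inv, h, inv_mul_cancel]
  obtain ⟨z, hz⟩ : ∃ z, z = x⁻¹ * x' := ⟨_, rfl⟩
  have e : x' = x * z := by
    rw [hz]
    group
  rw [← hz] at h1
  rw [e, ← mul_assoc, mul_assoc x z x, ← X.hc z h1 x, mul_assoc]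

lemma comm_of_inv {x x' : E} (h : X.p x' = (X.p x)⁻¹) : x * x' = x' * x := by
  have h1 := X.comm_of_same (x := x⁻¹) (x' := x') (by rw [map_inv, h])
  have e : x * (x⁻¹ * x') * x = x * (x' * x⁻¹) * x := by rw [h1]
  simpa [mul_assoc] using e.symm

/-- Over the field with three elements the lifts of a root commute. -/
lemma ab_F3 (hK3 : ∀ u : K, u = 0 ∨ u = 1 ∨ u = -1) {r : ℕ} (hr : r < D.nroots) : X.LC r r := by
  intro x x' u v hx hx'
  have hzero : ∀ {a : E}, X.p a = S.y r 0 → X.p a = 1 := fun h => by rw [h, S.y_zero hr]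
  have hneg : ∀ t : K, S.y r (-t) = (S.y r t)⁻¹ := fun t => (S.y_inv hr t).symm
  rcases hK3 u with rfl | rfl | rfl <;> rcases hK3 v with rfl | rfl | rfl
  · exact (X.hc x (hzero hx) x').symm
  · exact (X.hc x (hzero hx) x').symm
  · exact (X.hc x (hzero hx) x').symm
  · exact X.hc x' (hzero hx') x
  · exact X.comm_of_same (by rw [hx, hx'])
  · exact X.comm_of_inv (by rw [hx, hx', hneg])
  · exact X.hc x' (hzero hx') x
  · exact X.comm_of_inv (by rw [hx, hx', hneg, inv_inv])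
  · exact X.comm_of_same (by rw [hx, hx'])

section Yg

variable (g₀ : Δ)

/-- The lift of a letter through an element acting by `-1`. -/
noncomputable def Yg (r : ℕ) (u : K) : E := ⁅X.f g₀, X.f (S.y r u)⁆

variable {g₀}

lemma p_Yg (h3 : (1 : K) + 1 + 1 = 0) {r : ℕ} (hr : r < D.nroots) (hg : ∀ v, g₀ * S.y r v * g₀⁻¹ = S.y r (-v)) (u : K) :
    X.p (X.Yg g₀ r u) = S.y r u := by
  unfold Yg
  rw [map_commutatorElement, X.hf, X.hf, commutatorElement_def, hg, S.y_inv hr, S.add hr]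
  congr 1
  linear_combination (-u) * h3

lemma Yg_add {r : ℕ} (hr : r < D.nroots) (hab : X.LC r r) (hg : ∀ v, g₀ * S.y r v * g₀⁻¹ = S.y r (-v)) (u v : K) :
    X.Yg g₀ r u * X.Yg g₀ r v = X.Yg g₀ r (u + v) := by
  unfold Yg
  set g := X.f g₀ with hg'
  set a := X.f (S.y r u) with ha
  set b := X.f (S.y r v) with hb'
  have hab' : X.p (a * b) = X.p (X.f (S.y r (u + v))) := by
    rw [map_mul, ha, hb', X.hf, X.hf, X.hf, S.add hr]
  rw [← X.cm_congr rfl hab']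
  have pa : X.p a = S.y r u := X.hf _
  have pb : X.p b = S.y r v := X.hf _
  have pb' : X.p (g * b * g⁻¹) = S.y r (-v) := by
    rw [map_mul, map_mul, map_inv, hg', X.hf, pb, hg]
  have c1 : a * (g * b * g⁻¹) = (g * b * g⁻¹) * a := hab _ _ _ _ pa pb'
  have c2 : a * b = b * a := hab _ _ _ _ pa pb
  set b' := g * b * g⁻¹ with hb''
  have c1' : a⁻¹ * b' = b' * a⁻¹ := by
    rw [inv_mul_eq_iff_eq_mul, ← mul_assoc, c1, mul_inv_cancel_right]
  have c2' : a⁻¹ * b⁻¹ = b⁻¹ * a⁻¹ := by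
    rw [← mul_inv_rev, ← mul_inv_rev, c2]
  simp only [commutatorElement_def]
  calc g * a * g⁻¹ * a⁻¹ * (g * b * g⁻¹ * b⁻¹) = (g * a * g⁻¹) * (a⁻¹ * b') * b⁻¹ := by
        rw [hb'']
        group
    _ = (g * a * g⁻¹) * b' * (a⁻¹ * b⁻¹) := by
        rw [c1']
        group
    _ = (g * a * g⁻¹) * b' * (b⁻¹ * a⁻¹) := by rw [c2']
    _ = _ := by
        rw [hb'']
        group

lemma Yg_zero {r : ℕ} (hr : r < D.nroots) (hab : X.LC r r) (hg : ∀ v, g₀ * S.y r v * g₀⁻¹ = S.y r (-v)) :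
    X.Yg g₀ r 0 = 1 := by
  have h1 := X.Yg_add hr hab hg 0 0
  rw [add_zero] at h1
  exact mul_eq_left.1 h1

lemma Yg_neg {r : ℕ} (hr : r < D.nroots) (hab : X.LC r r) (hg : ∀ v, g₀ * S.y r v * g₀⁻¹ = S.y r (-v)) (u : K) :
    (X.Yg g₀ r u)⁻¹ = X.Yg g₀ r (-u) := by
  rw [inv_eq_iff_mul_eq_one, X.Yg_add hr hab hg, add_neg_cancel, X.Yg_zero hr hab hg]

/-- The action on the lifts. -/
lemma Yg_act (hP : commutator Δ = ⊤) {r : ℕ} {g : Δ} {ν : K} (hν : ∀ v, g * S.y r v * g⁻¹ = S.y r (ν * v))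
    (hc : ⁅g, g₀⁆ ∈ Subgroup.center Δ) (u : K) :
    X.f g * X.Yg g₀ r u * (X.f g)⁻¹ = X.Yg g₀ r (ν * u) := by
  unfold Yg
  rw [cm_conj]
  set a := X.f g with ha
  set h := X.f g₀ with hh
  set b := X.f (S.y r u) with hb'
  have hξ : X.p ⁅a, h⁆ ∈ Subgroup.center Δ := by
    rw [map_commutatorElement, ha, hh, X.hf, X.hf]
    exact hc
  have hc' := X.lift_center' hP hξ
  have e1 : a * h * a⁻¹ = h * ⁅a, h⁆ := by
    rw [hc' h, commutatorElement_def]
    group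
  rw [e1, cm_mul_central_left hc']
  apply X.cm_congr rfl
  rw [map_mul, map_mul, map_inv, ha, hb', X.hf, X.hf, X.hf, hν]

/-- Commutators with a lift. -/
lemma cm_Yg (hP : commutator Δ = ⊤) (h3 : (1 : K) + 1 + 1 = 0) {r : ℕ} (hr : r < D.nroots) (hab : X.LC r r)
    (hg : ∀ v, g₀ * S.y r v * g₀⁻¹ = S.y r (-v)) {g : Δ} (hν : ∀ v, g * S.y r v * g⁻¹ = S.y r (-v))
    (hc : ⁅g, g₀⁆ ∈ Subgroup.center Δ) {x : E} {κ : K} (hx : X.p x = S.y r κ) :
    ⁅X.f g, x⁆ = X.Yg g₀ r κ := by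
  have e : ⁅X.f g, x⁆ = ⁅X.f g, X.Yg g₀ r κ⁆ := X.cm_congr rfl (by rw [hx, X.p_Yg h3 hr hg])
  have hν' : ∀ v, g * S.y r v * g⁻¹ = S.y r ((-1) * v) := fun v => by rw [hν, neg_one_mul]
  rw [e, commutatorElement_def, X.Yg_act hP hν' hc, X.Yg_neg hr hab hg, X.Yg_add hr hab hg]
  congr 1
  linear_combination (-κ) * h3

/-- Elements permuting the letters permute the lifts. -/
lemma Yg_conj (hP : commutator Δ = ⊤) (h3 : (1 : K) + 1 + 1 = 0) {q q' : ℕ} (hq' : q' < D.nroots) (hab : X.LC q' q')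
    (hg : ∀ v, g₀ * S.y q v * g₀⁻¹ = S.y q (-v)) (hg' : ∀ v, g₀ * S.y q' v * g₀⁻¹ = S.y q' (-v))
    {n : Δ} {c' : K} (hc' : c' ≠ 0)
    (hn : ∀ v, n * S.y q v * n⁻¹ = S.y q' (c' * v)) (hc : ⁅n * g₀ * n⁻¹, g₀⁆ ∈ Subgroup.center Δ) (u : K) :
    X.f n * X.Yg g₀ q u * (X.f n)⁻¹ = X.Yg g₀ q' (c' * u) := by
  unfold Yg
  rw [cm_conj]
  set g' := n * g₀ * n⁻¹ with hg''
  have e1 : ⁅X.f n * X.f g₀ * (X.f n)⁻¹, X.f n * X.f (S.y q u) * (X.f n)⁻¹⁆ =
      ⁅X.f g', X.f n * X.f (S.y q u) * (X.f n)⁻¹⁆ := by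
    apply X.cm_congr _ rfl
    rw [map_mul, map_mul, map_inv, X.hf, X.hf, X.hf]
  have hν : ∀ v, g' * S.y q' v * g'⁻¹ = S.y q' (-v) := by
    intro v
    have e2 : S.y q' v = n * S.y q (c'⁻¹ * v) * n⁻¹ := by
      rw [hn, ← mul_assoc, mul_inv_cancel₀ hc', one_mul]
    have e3 : g' * (n * S.y q (c'⁻¹ * v) * n⁻¹) * g'⁻¹ =
        n * (g₀ * S.y q (c'⁻¹ * v) * g₀⁻¹) * n⁻¹ := by
      rw [hg'']
      group
    rw [e2, e3, hg, hn]
    congr 1
    field_simp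
  have hx : X.p (X.f n * X.f (S.y q u) * (X.f n)⁻¹) = S.y q' (c' * u) := by
    rw [map_mul, map_mul, map_inv, X.hf, X.hf, hn]
  rw [e1, X.cm_Yg hP h3 hq' hab hg' hν hc hx]
  rfl

end Yg

section Bl

/-- Commutators of lifts of two letters, when they are central modulo the commutators: additivity. -/
lemma bl_add_left {a b q : ℕ} {A B : K → E} (ha : ∀ s, X.p (A s) = S.y a s) (hb : ∀ t, X.p (B t) = S.y b t)
    (hA : ∀ s s', A s * A s' = A (s + s')) {c : K} (hcomm : ∀ s t : K, ⁅S.y a s, S.y b t⁆ = S.y q (c * s * t))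
    (hqa : X.LC q a) (hqq : X.LC q q) (s s' t : K) : ⁅A (s + s'), B t⁆ = ⁅A s, B t⁆ * ⁅A s', B t⁆ := by
  have p1 : ∀ s t, X.p ⁅A s, B t⁆ = S.y q (c * s * t) := fun s t => by
    rw [map_commutatorElement, ha, hb, hcomm]
  have e : ⁅A s * A s', B t⁆ = A s * ⁅A s', B t⁆ * (A s)⁻¹ * ⁅A s, B t⁆ := by
    simp only [commutatorElement_def]
    group
  have c1 : A s * ⁅A s', B t⁆ = ⁅A s', B t⁆ * A s := (hqa _ _ _ _ (p1 s' t) (ha s)).symm
  have c2 := hqq _ _ _ _ (p1 s' t) (p1 s t)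
  rw [← hA, e, c1, mul_inv_cancel_right, c2]

lemma bl_add_right {a b q : ℕ} {A B : K → E} (ha : ∀ s, X.p (A s) = S.y a s) (hb : ∀ t, X.p (B t) = S.y b t)
    (hB : ∀ t t', B t * B t' = B (t + t')) {c : K} (hcomm : ∀ s t : K, ⁅S.y a s, S.y b t⁆ = S.y q (c * s * t))
    (hqb : X.LC q b) (s t t' : K) : ⁅A s, B (t + t')⁆ = ⁅A s, B t⁆ * ⁅A s, B t'⁆ := by
  have p1 : ∀ s t, X.p ⁅A s, B t⁆ = S.y q (c * s * t) := fun s t => by
    rw [map_commutatorElement, ha, hb, hcomm]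
  have e : ⁅A s, B t * B t'⁆ = ⁅A s, B t⁆ * (B t * ⁅A s, B t'⁆ * (B t)⁻¹) := by
    simp only [commutatorElement_def]
    group
  have c1 : B t * ⁅A s, B t'⁆ = ⁅A s, B t'⁆ * B t := (hqb _ _ _ _ (p1 s t') (hb t)).symm
  rw [← hB, e, c1, mul_inv_cancel_right]

/-- The commutators of lifts depend only on the product of the arguments. -/
lemma bl_eq (hK3 : ∀ u : K, u = 0 ∨ u = 1 ∨ u = -1) {a b q : ℕ} {A B : K → E} (ha : ∀ s, X.p (A s) = S.y a s) (hb : ∀ t, X.p (B t) = S.y b t)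
    (hA : ∀ s s', A s * A s' = A (s + s')) (hB : ∀ t t', B t * B t' = B (t + t')) {c : K} (hcomm : ∀ s t : K, ⁅S.y a s, S.y b t⁆ = S.y q (c * s * t))
    (hqa : X.LC q a) (hqb : X.LC q b) (hqq : X.LC q q) (s t : K) : ⁅A s, B t⁆ = ⁅A (s * t), B 1⁆ := by
  have ad1 := X.bl_add_left ha hb hA hcomm hqa hqq
  have ad2 := X.bl_add_right ha hb hB hcomm hqb
  have z1 : ∀ t, ⁅A 0, B t⁆ = 1 := fun t => by
    have := ad1 0 0 t
    rw [add_zero] at this
    exact mul_eq_left.1 this.symm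
  have z2 : ∀ s, ⁅A s, B 0⁆ = 1 := fun s => by
    have := ad2 s 0 0
    rw [add_zero] at this
    exact mul_eq_left.1 this.symm
  have n1 : ∀ s t, ⁅A (-s), B t⁆ = ⁅A s, B t⁆⁻¹ := fun s t => by
    rw [eq_inv_iff_mul_eq_one, ← ad1, neg_add_cancel, z1]
  have n2 : ∀ s t, ⁅A s, B (-t)⁆ = ⁅A s, B t⁆⁻¹ := fun s t => by
    rw [eq_inv_iff_mul_eq_one, ← ad2, neg_add_cancel, z2]
  rcases hK3 t with rfl | rfl | rfl
  · rw [mul_zero, z2, z1]
  · rw [mul_one]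
  · rw [n2, mul_neg_one, n1]

end Bl

end HExt

end Cfsg.Agent.Lib.St
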