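/-
Central extensions of the group with the relations (R1), (R2) of type B₂ over the field with three elements split.
-/
import Cfsg.Agent.Lib.St.GV3
import Cfsg.Agent.Lib.St.Perf

set_option autoImplicit false
set_option maxRecDepth 100000

namespace Cfsg.Agent.Lib.St

open Cfsg Cfsg.Lie Cfsg.Agent.Lib.Chev
open scoped commutatorElement

namespace B2F3

/-- The short roots. -/
def isS (r : ℕ) : Prop := r = 1 ∨ r = 2 ∨ r = 5 ∨ r = 6

/-- The long roots. -/
def isL (r : ℕ) : Prop := r = 0 ∨ r = 3 ∨ r = 4 ∨ r = 7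

instance : DecidablePred isS := fun _ => by unfold isS; infer_instance

instance : DecidablePred isL := fun _ => by unfold isL; infer_instance

lemma nr : chevB2.nroots = 8 := by decide +kernel

lemma S_or_L {r : ℕ} (hr : r < chevB2.nroots) : isS r ∨ isL r := by
  rw [nr] at hr
  unfold isS isL
  omega

lemma S_lt {r : ℕ} (h : isS r) : r < chevB2.nroots := by
  rw [nr]
  unfold isS at h
  omega

lemma L_lt {r : ℕ} (h : isL r) : r < chevB2.nroots := by
  rw [nr]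
  unfold isL at h
  omega

lemma L_not_S {r : ℕ} (h : isL r) : ¬ isS r := by
  unfold isL at h
  unfold isS
  omega

/-- The first part of a long root. -/
def dx : ℕ → ℕ
  | 7 => 5
  | 4 => 6
  | 3 => 1
  | _ => 1

/-- The second part of a long root. -/
def dy : ℕ → ℕ
  | 7 => 6
  | 4 => 2
  | 3 => 5
  | _ => 2

/-- The constant of a long root. -/
def dC : ℕ → ℤ
  | 3 => -2
  | _ => 2

lemma dx_S {q : ℕ} (h : isL q) : isS (dx q) := by
  rcases h with rfl | rfl | rfl | rfl <;> decide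

lemma dy_S {q : ℕ} (h : isL q) : isS (dy q) := by
  rcases h with rfl | rfl | rfl | rfl <;> decide

/-- The pairing of the root `4` on the short roots is odd. -/
lemma pair_S {r : ℕ} (h : isS r) : chevB2.pairing 4 r = 1 ∨ chevB2.pairing 4 r = -1 := by
  rcases h with rfl | rfl | rfl | rfl <;> decide +kernel

/-- The pairing of the root `4` on the long roots is even. -/
lemma pair_L {r : ℕ} (h : isL r) : chevB2.pairing 4 r = 0 ∨ chevB2.pairing 4 r = 2 ∨ chevB2.pairing 4 r = -2 := by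
  rcases h with rfl | rfl | rfl | rfl <;> decide +kernel

/-- The reflections preserve the lengths. -/
lemma refl_S {i r : ℕ} (hi : i < chevB2.rank) (h : isS r) : isS (digB2.tbl.refl i r) := by
  have hi' : i = 0 ∨ i = 1 := by
    have : chevB2.rank = 2 := by decide +kernel
    omega
  rcases hi' with rfl | rfl <;> rcases h with rfl | rfl | rfl | rfl <;> decide +kernel

/-- The reflections preserve the lengths, and the parts of a long root. -/
lemma refl_L {i q : ℕ} (hi : i < chevB2.rank) (h : isL q) : isL (digB2.tbl.refl i q) ∧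
    ((digB2.tbl.refl i (dx q) = dx (digB2.tbl.refl i q) ∧ digB2.tbl.refl i (dy q) = dy (digB2.tbl.refl i q)) ∨
     (digB2.tbl.refl i (dx q) = dy (digB2.tbl.refl i q) ∧ digB2.tbl.refl i (dy q) = dx (digB2.tbl.refl i q))) := by
  have hi' : i = 0 ∨ i = 1 := by
    have : chevB2.rank = 2 := by decide +kernel
    omega
  rcases hi' with rfl | rfl <;> rcases h with rfl | rfl | rfl | rfl <;> decide +kernel

section Main

variable {K : Type*} [Field K] {Δ : Type*} [Group Δ] {wit : ℕ → ℕ × ℕ} {S : Sys good3B2 K Δ} {E : Type*} [Group E]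
  (X : HExt S E wit)

section Z3

variable (hK3 : ∀ u : K, u = 0 ∨ u = 1 ∨ u = -1) (h3 : (1 : K) + 1 + 1 = 0) (hm : (-1 : K) ≠ 1)

include hm in
lemma hne0 : (-1 : K) ≠ 0 := neg_ne_zero.2 one_ne_zero

include h3 hm in
lemma two_ne : (((2 : ℤ) : K)) ≠ 0 := by
  intro h
  apply hm
  have h4 : (1 : K) + 1 = 0 := by
    have : ((2 : ℤ) : K) = 1 + 1 := by norm_num
    rwa [this] at h
  linear_combination (-1 : K) * h4

include h3 hm in
lemma dC_ne (q : ℕ) : ((dC q : ℤ) : K) ≠ 0 := by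
  have h2 := two_ne h3 hm
  unfold dC
  split
  · intro h
    apply h2
    have : (((-2 : ℤ)) : K) = - ((2 : ℤ) : K) := by push_cast; ring
    rw [this] at h
    exact neg_eq_zero.1 h
  · exact h2

/-- The element acting by `-1` on the short roots. -/
noncomputable def g₀ (S : Sys good3B2 K Δ) : Δ := S.hb 4 (-1)

include X hm in
lemma g0_S {r : ℕ} (h : isS r) (v : K) : g₀ S * S.y r v * (g₀ S)⁻¹ = S.y r (-v) := by
  unfold g₀
  rw [S.hb_conj_y X.hW (by rw [nr]; omega) (S_lt h) (hne0 hm)]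
  congr 1
  rcases pair_S h with e | e <;> rw [e] <;> simp

include X hm in
lemma g0_L {r : ℕ} (h : isL r) (v : K) : g₀ S * S.y r v * (g₀ S)⁻¹ = S.y r v := by
  unfold g₀
  rw [S.hb_conj_y X.hW (by rw [nr]; omega) (L_lt h) (hne0 hm)]
  congr 1
  rcases pair_L h with e | e | e <;> rw [e] <;> simp [zpow_neg]

include X hm in
lemma perfB : commutator Δ = ⊤ :=
  Sys.perf_two S X.hW rfl digB2_perfH0 digB2_perfTwo (hne0 hm) hm

/-- The lift of a short letter. -/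
noncomputable def Ys (r : ℕ) (u : K) : E := X.Yg (g₀ S) r u

include h3 hm in
lemma p_Ys {r : ℕ} (h : isS r) (u : K) : X.p (Ys X r u) = S.y r u :=
  X.p_Yg h3 (S_lt h) (g0_S X hm h) u

include hK3 hm in
lemma Ys_add {r : ℕ} (h : isS r) (u v : K) : Ys X r u * Ys X r v = Ys X r (u + v) :=
  X.Yg_add (S_lt h) (X.ab_F3 hK3 (S_lt h)) (g0_S X hm h) u v

include hm in
/-- Long and short letters commute in the lifts, when they commute. -/
lemma lc_LS {q a : ℕ} (hq : isL q) (ha : isS a) (hdc : S.DC q a) : X.LC q a := by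
  refine X.lc_of_conj (S_lt ha) hdc hm (g := g₀ S) (fun u => g0_L X hm hq u) (fun v => ?_)
  rw [g0_S X hm ha, neg_one_mul]

include hm in
lemma lc_dx {q : ℕ} (hq : isL q) : X.LC q (dx q) := by
  refine lc_LS X hm hq (dx_S hq) (S.DC_of_nil (L_lt hq) (S_lt (dx_S hq)) ?_ ?_ ?_)
    <;> rcases hq with rfl | rfl | rfl | rfl <;> decide +kernel

include hm in
lemma lc_dy {q : ℕ} (hq : isL q) : X.LC q (dy q) := by
  refine lc_LS X hm hq (dy_S hq) (S.DC_of_nil (L_lt hq) (S_lt (dy_S hq)) ?_ ?_ ?_)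
    <;> rcases hq with rfl | rfl | rfl | rfl <;> decide +kernel

/-- The commutator formula of a long root. -/
lemma cmL (S : Sys good3B2 K Δ) {q : ℕ} (hq : isL q) (s t : K) :
    ⁅S.y (dx q) s, S.y (dy q) t⁆ = S.y q (((dC q : ℤ) : K) * s * t) := by
  rw [S.cm_y (S_lt (dx_S hq)) (S_lt (dy_S hq)) (by rcases hq with rfl | rfl | rfl | rfl <;> decide +kernel)
    (by rcases hq with rfl | rfl | rfl | rfl <;> decide +kernel)]
  have ht : chevB2.commTerms (dy q) (dx q) = [(q, - dC q, 1, 1)] := by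
    rcases hq with rfl | rfl | rfl | rfl <;> decide +kernel
  unfold ChevalleyDatum.commWord
  rw [ht]
  simp only [List.map_cons, List.map_nil, pow_one, Sys.yw_cons, Sys.yw_nil, mul_one]
  congr 1
  push_cast
  ring

/-- The lift of a long letter. -/
noncomputable def Zl (q : ℕ) (u : K) : E := ⁅Ys X (dx q) (((dC q : ℤ) : K)⁻¹ * u), Ys X (dy q) 1⁆

include hK3 h3 hm in
lemma bz {q : ℕ} (hq : isL q) (s t : K) : ⁅Ys X (dx q) s, Ys X (dy q) t⁆ = Zl X q (((dC q : ℤ) : K) * s * t) := by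
  unfold Zl
  rw [X.bl_eq hK3 (A := Ys X (dx q)) (B := Ys X (dy q)) (p_Ys X h3 hm (dx_S hq)) (p_Ys X h3 hm (dy_S hq))
    (Ys_add X hK3 hm (dx_S hq)) (Ys_add X hK3 hm (dy_S hq)) (cmL S hq) (lc_dx X hm hq) (lc_dy X hm hq) (X.ab_F3 hK3 (L_lt hq)) s t]
  congr 2
  have := dC_ne h3 hm (K := K) q
  field_simp

include h3 hm in
lemma p_Zl {q : ℕ} (hq : isL q) (u : K) : X.p (Zl X q u) = S.y q u := by
  unfold Zl
  rw [map_commutatorElement, p_Ys X h3 hm (dx_S hq), p_Ys X h3 hm (dy_S hq), cmL S hq]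
  congr 1
  have := dC_ne h3 hm (K := K) q
  field_simp

include hK3 h3 hm in
lemma Zl_add {q : ℕ} (hq : isL q) (u v : K) : Zl X q u * Zl X q v = Zl X q (u + v) := by
  unfold Zl
  rw [mul_add, X.bl_add_left (A := Ys X (dx q)) (B := Ys X (dy q)) (p_Ys X h3 hm (dx_S hq)) (p_Ys X h3 hm (dy_S hq))
    (Ys_add X hK3 hm (dx_S hq)) (cmL S hq) (lc_dx X hm hq) (X.ab_F3 hK3 (L_lt hq))]

/-- The lifts. -/
noncomputable def Yb (r : ℕ) (u : K) : E := if isS r then Ys X r u else Zl X r u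

lemma Yb_S {r : ℕ} (h : isS r) (u : K) : Yb X r u = Ys X r u := if_pos h

lemma Yb_L {r : ℕ} (h : isL r) (u : K) : Yb X r u = Zl X r u := if_neg (L_not_S h)

include h3 hm in
lemma p_Yb {r : ℕ} (hr : r < chevB2.nroots) (u : K) : X.p (Yb X r u) = S.y r u := by
  rcases S_or_L hr with h | h
  · rw [Yb_S X h, p_Ys X h3 hm h]
  · rw [Yb_L X h, p_Zl X h3 hm h]

include hK3 h3 hm in
lemma Yb_add {r : ℕ} (hr : r < chevB2.nroots) (u v : K) : Yb X r u * Yb X r v = Yb X r (u + v) := by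
  rcases S_or_L hr with h | h
  · rw [Yb_S X h, Yb_S X h, Yb_S X h, Ys_add X hK3 hm h]
  · rw [Yb_L X h, Yb_L X h, Yb_L X h, Zl_add X hK3 h3 hm h]

include hK3 h3 hm in
/-- The action of the torus element. -/
lemma Yb_hb {r : ℕ} (hr : r < chevB2.nroots) (u : K) :
    X.f (S.hb 4 (-1)) * Yb X r u * (X.f (S.hb 4 (-1)))⁻¹ = Yb X r ((-1) ^ chevB2.pairing 4 r * u) := by
  have hP := perfB X hm
  have hact : ∀ {a : ℕ}, isS a → ∀ w : K, X.f (S.hb 4 (-1)) * Ys X a w * (X.f (S.hb 4 (-1)))⁻¹ = Ys X a (-w) := by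
    intro a ha w
    have h4 := X.Yg_act (g₀ := g₀ S) hP (r := a) (g := g₀ S) (ν := -1) (fun v => by rw [g0_S X hm ha, neg_one_mul])
      (by rw [cm_eq_one rfl]; exact Subgroup.one_mem _) w
    rw [neg_one_mul] at h4
    exact h4
  rcases S_or_L hr with h | h
  · rw [Yb_S X h, Yb_S X h, hact h]
    congr 1
    rcases pair_S h with e | e <;> rw [e] <;> simp
  · rw [Yb_L X h, Yb_L X h]
    have e1 : ((-1 : K)) ^ chevB2.pairing 4 r * u = u := by
      rcases pair_L h with e | e | e <;> rw [e] <;> simp [zpow_neg]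
    rw [e1]
    conv_lhs => unfold Zl
    rw [cm_conj, hact (dx_S h), hact (dy_S h), bz X hK3 h3 hm h]
    congr 1
    have := dC_ne h3 hm (K := K) r
    field_simp

include hK3 h3 hm in
lemma Zl_zero {q : ℕ} (hq : isL q) : Zl X q (0 : K) = 1 := by
  have h1 := Zl_add X hK3 h3 hm hq (0 : K) 0
  rw [add_zero] at h1
  exact mul_eq_left.1 h1

include hK3 h3 hm in
lemma Zl_neg {q : ℕ} (hq : isL q) (u : K) : (Zl X q u)⁻¹ = Zl X q (-u) := by
  rw [inv_eq_iff_mul_eq_one, Zl_add X hK3 h3 hm hq, add_neg_cancel, Zl_zero X hK3 h3 hm hq]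

include hK3 h3 hm in
/-- The action of a reflection. -/
lemma Yb_step {i r : ℕ} (hi : i < chevB2.rank) (hr : r < chevB2.nroots) :
    ∃ c' : K, ∀ u, X.f (S.nb (chevB2.simple i) 1) * Yb X r u * (X.f (S.nb (chevB2.simple i) 1))⁻¹ =
      Yb X (digB2.tbl.refl i r) (c' * u) := by
  have hP := perfB X hm
  have h48 : (4 : ℕ) < chevB2.nroots := by rw [nr]; omega
  have hShort : ∀ {a : ℕ}, isS a → ∃ c' : K, c' ≠ 0 ∧ ∀ u, X.f (S.nb (chevB2.simple i) 1) * Ys X a u * (X.f (S.nb (chevB2.simple i) 1))⁻¹ =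
      Ys X (digB2.tbl.refl i a) (c' * u) := by
    intro a ha
    obtain ⟨c, hc, e⟩ := S.conj_nb X.hW hi (S_lt ha) (one_ne_zero (α := K))
    refine ⟨c, hc, fun u => X.Yg_conj hP h3 (S_lt (refl_S hi ha)) (X.ab_F3 hK3 (S_lt (refl_S hi ha))) (g0_S X hm ha)
      (g0_S X hm (refl_S hi ha)) hc e ?_ u⟩
    exact X.Hb_cm_center' (S.conj_Hb X.hW hi one_ne_zero (S.hb_mem X.hW h48 (hne0 hm))) (S.hb_mem X.hW h48 (hne0 hm))
  rcases S_or_L hr with h | h
  · obtain ⟨c, _, e⟩ := hShort h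
    refine ⟨c, fun u => ?_⟩
    rw [Yb_S X h, Yb_S X (refl_S hi h), e]
  · obtain ⟨hL, hsw⟩ := refl_L hi h
    obtain ⟨c1, _, e1⟩ := hShort (dx_S h)
    obtain ⟨c2, _, e2⟩ := hShort (dy_S h)
    rcases hsw with ⟨s1, s2⟩ | ⟨s1, s2⟩
    · refine ⟨((dC (digB2.tbl.refl i r) : ℤ) : K) * (c1 * ((dC r : ℤ) : K)⁻¹) * (c2 * 1), fun u => ?_⟩
      rw [Yb_L X h, Yb_L X hL]
      conv_lhs => unfold Zl
      rw [cm_conj, e1, e2, s1, s2, bz X hK3 h3 hm hL]
      congr 1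
      ring
    · refine ⟨-(((dC (digB2.tbl.refl i r) : ℤ) : K) * (c2 * 1) * (c1 * ((dC r : ℤ) : K)⁻¹)), fun u => ?_⟩
      rw [Yb_L X h, Yb_L X hL]
      conv_lhs => unfold Zl
      rw [cm_conj, e1, e2, s1, s2, ← commutatorElement_inv, bz X hK3 h3 hm hL, Zl_neg X hK3 h3 hm hL]
      congr 1
      ring

include hK3 h3 hm in
/-- The action of a word. -/
lemma Yb_Np {l : List ℕ} (hl : ∀ i ∈ l, i < chevB2.rank) {q : ℕ} (hq : q < chevB2.nroots) :
    ∃ c' : K, ∀ u, X.f (S.Np l) * Yb X q u * (X.f (S.Np l))⁻¹ = Yb X (wperm digB2.tbl l q) (c' * u) := by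
  have hconj : ∀ a b w : E, X.p a = X.p b → a * w * a⁻¹ = b * w * b⁻¹ := by
    intro a b w e
    have h1 : X.p (a⁻¹ * b) = 1 := by rw [map_mul, map_inv, e, inv_mul_cancel]
    obtain ⟨z, hz⟩ : ∃ z, z = a⁻¹ * b := ⟨_, rfl⟩
    have e2 : b = a * z := by
      rw [hz]
      group
    rw [← hz] at h1
    have h2 := X.hc z h1 w
    rw [e2]
    calc a * w * a⁻¹ = a * (w * z) * z⁻¹ * a⁻¹ := by group
      _ = a * (z * w) * z⁻¹ * a⁻¹ := by rw [h2]
      _ = _ := by group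
  induction l with
  | nil =>
    refine ⟨1, fun u => ?_⟩
    rw [hconj _ 1 _ (by rw [map_one, X.hf]; rfl)]
    simp [wperm]
  | cons i l ih =>
    obtain ⟨c', e⟩ := ih (fun j hj => hl j (List.mem_cons_of_mem _ hj))
    obtain ⟨c'', e2⟩ := Yb_step X hK3 h3 hm (hl i (by simp)) (good3B2.wperm_lt (fun j hj => hl j (List.mem_cons_of_mem _ hj)) hq)
    refine ⟨c'' * c', fun u => ?_⟩
    rw [hconj (X.f (S.Np (i :: l))) (X.f (S.nb (chevB2.simple i) 1) * X.f (S.Np l)) _ (by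
      rw [map_mul, X.hf, X.hf, X.hf, S.Np_cons])]
    calc (X.f (S.nb (chevB2.simple i) 1) * X.f (S.Np l)) * Yb X q u * (X.f (S.nb (chevB2.simple i) 1) * X.f (S.Np l))⁻¹
        = X.f (S.nb (chevB2.simple i) 1) * (X.f (S.Np l) * Yb X q u * (X.f (S.Np l))⁻¹) * (X.f (S.nb (chevB2.simple i) 1))⁻¹ := by group
      _ = X.f (S.nb (chevB2.simple i) 1) * Yb X (wperm digB2.tbl l q) (c' * u) * (X.f (S.nb (chevB2.simple i) 1))⁻¹ := by rw [e]
      _ = Yb X (digB2.tbl.refl i (wperm digB2.tbl l q)) (c'' * (c' * u)) := e2 _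
      _ = _ := by
        rw [mul_assoc]
        rfl

lemma comm_of_lift {x C x' : E} (h : x * C = C * x) (hp : X.p x' = X.p C) : x * x' = x' * x := by
  have h1 : X.p (C⁻¹ * x') = 1 := by rw [map_mul, map_inv, hp, inv_mul_cancel]
  obtain ⟨z, hz⟩ : ∃ z, z = C⁻¹ * x' := ⟨_, rfl⟩
  have e : x' = C * z := by
    rw [hz]
    group
  rw [← hz] at h1
  rw [e, ← mul_assoc, h, mul_assoc, X.hc z h1 x, mul_assoc]

include hK3 h3 hm in
/-- The lifts of the two positive long roots `4`, `7` commute. -/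
lemma lc47 : X.LC 4 7 := by
  intro x x' u v hx hx'
  have hq7 : isL 7 := by decide
  have hq4 : isL 4 := by decide
  obtain ⟨A, hA⟩ : ∃ A : E, A = Ys X 5 (((dC 7 : ℤ) : K)⁻¹ * v) := ⟨_, rfl⟩
  obtain ⟨B, hB⟩ : ∃ B : E, B = Ys X 6 1 := ⟨_, rfl⟩
  have pA : X.p A = S.y 5 (((dC 7 : ℤ) : K)⁻¹ * v) := by
    rw [hA]
    exact p_Ys X h3 hm (by decide) _
  have pB : X.p B = S.y 6 1 := by
    rw [hB]
    exact p_Ys X h3 hm (by decide) _
  have eZ : ⁅A, B⁆ = Zl X 7 v := by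
    rw [hA, hB]
    rfl
  have pZ : X.p ⁅A, B⁆ = S.y 7 v := by
    rw [eZ, p_Zl X h3 hm hq7]
  have l76 : X.LC 7 6 := lc_dy X hm hq7
  have l46 : X.LC 4 6 := lc_dx X hm hq4
  have l66 : X.LC 6 6 := X.ab_F3 hK3 (S_lt (by decide))
  have l77 : X.LC 7 7 := X.ab_F3 hK3 (L_lt hq7)
  obtain ⟨a₁, a₂, hW⟩ : ∃ a₁ a₂ : K, X.p ⁅x, A⁆ = S.y 6 a₁ * S.y 7 a₂ := by
    rw [map_commutatorElement, hx, pA, S.cm_y (by rw [nr]; omega) (by rw [nr]; omega) (by decide) (by decide +kernel)]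
    have ht : chevB2.commTerms 5 4 = [(6, -1, 1, 1), (7, -1, 2, 1)] := by decide +kernel
    unfold ChevalleyDatum.commWord
    rw [ht]
    simp only [List.map_cons, List.map_nil, Sys.yw_cons, Sys.yw_nil, mul_one]
    exact ⟨_, _, rfl⟩
  have hWc : ∀ C : E, (∀ (y : E) (w : K), X.p y = S.y 6 w → C * y = y * C) → (∀ (y : E) (w : K), X.p y = S.y 7 w → C * y = y * C) →
      C * ⁅x, A⁆ = ⁅x, A⁆ * C := by
    intro C h6 h7
    obtain ⟨W₁, hW₁⟩ : ∃ W₁ : E, W₁ = X.f (S.y 6 a₁) := ⟨_, rfl⟩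
    obtain ⟨W₂, hW₂⟩ : ∃ W₂ : E, W₂ = X.f (S.y 7 a₂) := ⟨_, rfl⟩
    have p1 : X.p W₁ = S.y 6 a₁ := by rw [hW₁, X.hf]
    have p2 : X.p W₂ = S.y 7 a₂ := by rw [hW₂, X.hf]
    have c1 := h6 _ _ p1
    have c2 := h7 _ _ p2
    have h12 : C * (W₁ * W₂) = (W₁ * W₂) * C := by
      rw [← mul_assoc, c1, mul_assoc, c2, mul_assoc]
    exact comm_of_lift X h12 (by rw [map_mul, p1, p2, hW])
  have h1 : x * B = B * x := l46 _ _ _ _ hx pB
  have h2 : ⁅A, B⁆ * ⁅x, A⁆ = ⁅x, A⁆ * ⁅A, B⁆ := hWc _ (fun y w hy => l76 _ _ _ _ pZ hy) (fun y w hy => l77 _ _ _ _ pZ hy)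
  have h2' : B * ⁅x, A⁆ = ⁅x, A⁆ * B := hWc _ (fun y w hy => l66 _ _ _ _ pB hy) (fun y w hy => (l76 _ _ _ _ hy pB).symm)
  have h5 : ⁅⁅x, A⁆, B⁆ = 1 := cm_eq_one h2'.symm
  have key := hw_identity h1 h2.symm (by rw [h5, one_mul, mul_one])
  rw [h5] at key
  exact comm_of_lift X (comm_of_cm key) (by rw [pZ, hx'])

include hK3 h3 hm in
/-- The relation between the two positive short roots. -/
lemma rel56 (t u : K) : (Yb X 5 t)⁻¹ * Yb X 6 u * Yb X 5 t = Yb X 6 u * Yb X 7 (((2 : ℤ) : K) * (-t) * u) := by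
  have h5 : isS 5 := by decide
  have h6 : isS 6 := by decide
  have h7 : isL 7 := by decide
  rw [Yb_S X h5, Yb_S X h6, Yb_L X h7]
  have e1 : ⁅Ys X 5 (-t), Ys X 6 (-u)⁆ = Zl X 7 (((2 : ℤ) : K) * t * u) := by
    have := bz X hK3 h3 hm h7 (-t) (-u)
    rw [show dx 7 = 5 from rfl, show dy 7 = 6 from rfl] at this
    rw [this]
    congr 1
    show ((2 : ℤ) : K) * (-t) * (-u) = _
    ring
  have n5 : Ys X 5 (-t) = (Ys X 5 t)⁻¹ :=
    (X.Yg_neg (S_lt h5) (X.ab_F3 hK3 (S_lt h5)) (g0_S X hm h5) t).symm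
  have n6 : Ys X 6 (-u) = (Ys X 6 u)⁻¹ :=
    (X.Yg_neg (S_lt h6) (X.ab_F3 hK3 (S_lt h6)) (g0_S X hm h6) u).symm
  have e2 : Zl X 7 (((2 : ℤ) : K) * (-t) * u) = (Zl X 7 (((2 : ℤ) : K) * t * u))⁻¹ := by
    rw [Zl_neg X hK3 h3 hm h7]
    congr 1
    ring
  rw [e2, ← e1, n5, n6]
  simp only [commutatorElement_def]
  group

/-- The extension with the lifts. -/
noncomputable def aext : AExt S E wit where
  hW := X.hW
  p := X.p
  f := X.f
  hf := X.hf
  hc := X.hc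
  Y := Yb X
  p_Y := fun hr u => p_Yb X h3 hm hr u
  Y_add := fun hr u v => Yb_add X hK3 h3 hm hr u v
  τ := -1
  hτ0 := hne0 hm
  q₀ := 4
  hq₀ := by rw [nr]; omega
  Y_hb := fun hr u => Yb_hb X hK3 h3 hm hr u
  Y_Np := fun hl _ hq => Yb_Np X hK3 h3 hm hl hq

include hm in
/-- The relations for the positive roots. -/
lemma aext_ok (r s : ℕ) (hr : chevB2.nroots / 2 ≤ r) (hrs : r < s) (hs : s < chevB2.nroots) :
    (aext X hK3 h3 hm).Ok r s := by
  rw [nr] at hr hs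
  have hq7 : isL 7 := by decide
  have hodd : ∀ t : ℕ, isS t → (-1 : K) ^ chevB2.pairing 4 t ≠ 1 := by
    intro t ht
    rcases pair_S ht with e | e <;> rw [e] <;> simpa using hm
  have h4 : (-1 : K) ^ chevB2.pairing 4 4 = 1 := by
    rcases pair_L (r := 4) (by decide) with e | e | e <;> rw [e] <;> simp [zpow_neg]
  obtain rfl | rfl | rfl | rfl : r = 4 ∨ r = 5 ∨ r = 6 ∨ r = 7 := by
    simp only [show (8 : ℕ) / 2 = 4 from rfl] at hr
    omega
  · obtain rfl | rfl | rfl : s = 5 ∨ s = 6 ∨ s = 7 := by omega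
    · exact Or.inl ⟨h4, hodd _ (by decide)⟩
    · exact Or.inl ⟨h4, hodd _ (by decide)⟩
    · exact Or.inr (Or.inl (lc47 X hK3 h3 hm))
  · obtain rfl | rfl : s = 6 ∨ s = 7 := by omega
    · refine Or.inr (Or.inr fun t u => ?_)
      have e := rel56 X hK3 h3 hm t u
      have ht : chevB2.commTerms 5 6 = [(7, 2, 1, 1)] := by decide +kernel
      unfold ChevalleyDatum.commWord
      rw [ht]
      simp only [List.map_cons, List.map_nil, AExt.YW_cons, AExt.YW_nil, mul_one, pow_one]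
      exact e
    · exact Or.inr (Or.inl ((lc_dx X hm hq7).symm))
  · obtain rfl : s = 7 := by omega
    exact Or.inr (Or.inl ((lc_dy X hm hq7).symm))
  · omega

end Z3

end Main

end B2F3

/-- Sections for the type B₂ over the field with three elements. -/
theorem sec_B2F3 {K : Type*} [Field K] {E : Type*} [Group E] {wit : ℕ → ℕ × ℕ} (hW : StHyp digB2.tbl wit)
    (hK3 : ∀ u : K, u = 0 ∨ u = 1 ∨ u = -1) (h3 : (1 : K) + 1 + 1 = 0) (hm : (-1 : K) ≠ 1)
    (p : E →* chevB2.SteinbergCover K) (f : chevB2.SteinbergCover K → E) (hf : ∀ g, p (f g) = g)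
    (hc : ∀ z, p z = 1 → ∀ w, w * z = z * w) : ∃ s : chevB2.SteinbergCover K →* E, p.comp s = MonoidHom.id _ := by
  let S : Sys good3B2 K (chevB2.SteinbergCover K) := canSys good3B2 (chevB2.steinbergRelsAB K) subset_rfl (lift_relAB good3B2)
  let X : HExt S E wit := ⟨hW, p, f, hf, hc⟩
  have hq := B2F3.aext_ok X hK3 h3 hm
  exact ⟨asecHom (B2F3.aext X hK3 h3 hm) hq u3B2, asecHom_spec (B2F3.aext X hK3 h3 hm) (canSys_y_of good3B2) hq u3B2⟩

end Cfsg.Agent.Lib.St
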