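/-
Central extensions of the group with the relations (R1), (R2) of type B₂ over fields of characteristic two split
when the field has more than two elements.
-/
import Cfsg.Agent.Lib.St.GV4

set_option autoImplicit false
set_option maxRecDepth 100000

namespace Cfsg.Agent.Lib.St

open Cfsg Cfsg.Lie Cfsg.Agent.Lib.Chev
open scoped commutatorElement

namespace HExt

variable {K : Type*} [Field K] {D : ChevalleyDatum} {T : Tbl} {hG : T.Good3 D} {Δ : Type*} [Group Δ]
  {wit : ℕ → ℕ × ℕ} {S : Sys hG K Δ} {E : Type*} [Group E] (X : HExt S E wit)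

/-- The subgroup of the elements of `Δ` with lifts commuting with a given element. -/
def Cx (x : E) : Subgroup Δ := (Subgroup.centralizer {x}).map X.p

lemma mem_Cx {x : E} {g : Δ} : g ∈ X.Cx x ↔ ∀ x', X.p x' = g → x * x' = x' * x := by
  constructor
  · rintro ⟨y, hy, rfl⟩ x' hx'
    have hy' : x * y = y * x := Subgroup.mem_centralizer_iff.1 hy x (by simp)
    obtain ⟨a, rfl⟩ : ∃ a, x' = y * a := ⟨y⁻¹ * x', by group⟩
    have h3 : X.p a = 1 := by
      rw [map_mul] at hx'
      exact mul_eq_left.1 hx'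
    have hc := X.hc _ h3
    rw [← mul_assoc, hy', mul_assoc, hc x, mul_assoc]
  · intro h
    refine ⟨X.f g, ?_, X.hf g⟩
    show X.f g ∈ Subgroup.centralizer {x}
    rw [Subgroup.mem_centralizer_iff]
    intro y hy
    rw [Set.mem_singleton_iff] at hy
    subst hy
    exact h _ (X.hf g)

end HExt

namespace B2C2

/-- A product of an entry of a commutator. -/
def tOK (β γ r δ : ℕ) : Bool :=
  match chevB2.commTerms β γ with
  | [(a, c₁, 1, 1), (b, c₂, 2, 1)] =>
    (Nat.beq a δ && Nat.beq b r && (c₂ == 1 || c₂ == -1)) || (Nat.beq a r && Nat.beq b δ && (c₁ == 1 || c₁ == -1))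
  | _ => false

/-- The commutator of two letters vanish in characteristic two. -/
def dcB (r s : ℕ) : Bool :=
  match chevB2.commTerms r s with
  | [] => true
  | [(_, C, 1, 1)] => C == 2 || C == -2
  | _ => false

/-- The pairing is small and nonzero. -/
def smB (d : ℤ) : Bool := d == 1 || d == -1 || d == 2 || d == -2

lemma smB_spec {d : ℤ} (h : smB d = true) : d = 1 ∨ d = -1 ∨ d = 2 ∨ d = -2 := by
  unfold smB at h
  simpa [or_assoc] using h

/-- The data for a root. -/
def abData (r β γ δ q : ℕ) : Prop :=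
  r < chevB2.nroots ∧ β < chevB2.nroots ∧ γ < chevB2.nroots ∧ δ < chevB2.nroots ∧ q < chevB2.nroots ∧
    γ ≠ β ∧ γ ≠ chevB2.neg β ∧ β ≠ r ∧ β ≠ chevB2.neg r ∧ γ ≠ r ∧ γ ≠ chevB2.neg r ∧ δ ≠ r ∧ δ ≠ chevB2.neg r ∧
    chevB2.pairing q r = 0 ∧ smB (chevB2.pairing q β) = true ∧ smB (chevB2.pairing q γ) = true ∧ smB (chevB2.pairing q δ) = true ∧
    dcB r β = true ∧ dcB r γ = true ∧ dcB r δ = true ∧ tOK β γ r δ = true

instance (r β γ δ q : ℕ) : Decidable (abData r β γ δ q) := by
  unfold abData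
  infer_instance

/-- A datum for each root. -/
lemma exists_data {r : ℕ} (hr : r < chevB2.nroots) : ∃ β γ δ q, abData r β γ δ q := by
  have h8 : chevB2.nroots = 8 := by decide +kernel
  rw [h8] at hr
  interval_cases r
  · exact ⟨1, 4, 2, 4, by decide +kernel⟩
  · exact ⟨2, 3, 0, 5, by decide +kernel⟩
  · exact ⟨1, 4, 0, 6, by decide +kernel⟩
  · exact ⟨1, 7, 5, 7, by decide +kernel⟩
  · exact ⟨2, 7, 6, 7, by decide +kernel⟩
  · exact ⟨1, 7, 3, 6, by decide +kernel⟩
  · exact ⟨2, 7, 4, 5, by decide +kernel⟩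
  · exact ⟨5, 4, 6, 4, by decide +kernel⟩

variable {K : Type*} [Field K] {Δ : Type*} [Group Δ] {wit : ℕ → ℕ × ℕ} {S : Sys good3B2 K Δ} {E : Type*} [Group E]

lemma dc_of_dcB (h2K : (2 : K) = 0) {r s : ℕ} (hr : r < chevB2.nroots) (hs : s < chevB2.nroots) (h1 : s ≠ r) (h2 : s ≠ chevB2.neg r)
    (h : dcB r s = true) : S.DC r s := by
  unfold dcB at h
  split at h
  · rename_i ht
    exact S.DC_of_nil hr hs h1 h2 ht
  · rename_i t C ht
    intro u v
    have h3 := S.comm hr hs h1 h2 u v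
    have hCz : ((C : ℤ) : K) = 0 := by
      simp only [Bool.or_eq_true, beq_iff_eq] at h
      rcases h with rfl | rfl
      · push_cast
        exact h2K
      · push_cast
        rw [h2K, neg_zero]
    have e : (List.map (fun p => S.y p.1 p.2) (chevB2.commWord K r s u v)).prod = 1 := by
      unfold ChevalleyDatum.commWord
      rw [ht]
      simp only [List.map_cons, List.map_nil, List.prod_cons, List.prod_nil, mul_one, hCz, zero_mul]
      exact S.y_zero (good3B2.commTerms_lt hr hs (t, C, 1, 1) (by rw [ht]; simp))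
    rw [e] at h3
    have h4 : (S.y r u * S.y s v)⁻¹ * (S.y s v * S.y r u) = 1 := by
      rw [← h3]
      group
    exact inv_mul_eq_one.1 h4
  · exact absurd h (by simp)

lemma mem_of_tOK (Q : Subgroup Δ) {β γ r δ : ℕ} (hβ : β < chevB2.nroots) (hγ : γ < chevB2.nroots)
    (h1 : γ ≠ β) (h2 : γ ≠ chevB2.neg β) (hQβ : ∀ t, S.y β t ∈ Q) (hQγ : ∀ t, S.y γ t ∈ Q) (hQδ : ∀ t, S.y δ t ∈ Q)
    (h : tOK β γ r δ = true) (v : K) : S.y r v ∈ Q := by
  unfold tOK at h
  split at h
  · rename_i a c₁ b c₂ ht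
    simp only [Bool.or_eq_true, Bool.and_eq_true, beq_iff_eq] at h
    have hL : ∀ w, (S.y γ w)⁻¹ * (S.y β 1)⁻¹ * S.y γ w * S.y β 1 ∈ Q := fun w =>
      Subgroup.mul_mem _ (Subgroup.mul_mem _ (Subgroup.mul_mem _ (Subgroup.inv_mem _ (hQγ _)) (Subgroup.inv_mem _ (hQβ _))) (hQγ _)) (hQβ _)
    rcases h with ⟨⟨e1, e2⟩, e3⟩ | ⟨⟨e1, e2⟩, e3⟩
    · have e1' := Nat.eq_of_beq_eq_true e1
      have e2' := Nat.eq_of_beq_eq_true e2
      subst e1' e2'
      have hcc : ((c₂ : ℤ) : K) * ((c₂ : ℤ) : K) = 1 := by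
        rcases e3 with rfl | rfl <;> simp
      have key := S.comm hβ hγ h1 h2 1 ((c₂ : K) * v)
      have e : chevB2.commWord K β γ 1 ((c₂ : K) * v) = [(a, (c₁ : K) * (-1) ^ 1 * ((c₂ : K) * v) ^ 1), (b, v)] := by
        unfold ChevalleyDatum.commWord
        rw [ht]
        simp only [List.map_cons, List.map_nil, pow_one, List.cons.injEq, Prod.mk.injEq, true_and, and_true]
        rw [neg_one_sq, mul_one, ← mul_assoc, hcc, one_mul]
      rw [e] at key
      simp only [List.map_cons, List.map_nil, List.prod_cons, List.prod_nil, mul_one] at key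
      have h3 : S.y b v = (S.y a ((c₁ : K) * (-1) ^ 1 * ((c₂ : K) * v) ^ 1))⁻¹ *
          ((S.y γ ((c₂ : K) * v))⁻¹ * (S.y β 1)⁻¹ * S.y γ ((c₂ : K) * v) * S.y β 1) := by
        rw [key]
        group
      rw [h3]
      exact Subgroup.mul_mem _ (Subgroup.inv_mem _ (hQδ _)) (hL _)
    · have e1' := Nat.eq_of_beq_eq_true e1
      have e2' := Nat.eq_of_beq_eq_true e2
      subst e1' e2'
      have hcc : ((c₁ : ℤ) : K) * ((c₁ : ℤ) : K) = 1 := by
        rcases e3 with rfl | rfl <;> simp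
      have key := S.comm hβ hγ h1 h2 1 (-((c₁ : K) * v))
      have e : chevB2.commWord K β γ 1 (-((c₁ : K) * v)) = [(a, v), (b, (c₂ : K) * (-1) ^ 2 * (-((c₁ : K) * v)) ^ 1)] := by
        unfold ChevalleyDatum.commWord
        rw [ht]
        simp only [List.map_cons, List.map_nil, pow_one, List.cons.injEq, Prod.mk.injEq, true_and, and_true]
        linear_combination v * hcc
      rw [e] at key
      simp only [List.map_cons, List.map_nil, List.prod_cons, List.prod_nil, mul_one] at key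
      have h3 : S.y a v = ((S.y γ (-((c₁ : K) * v)))⁻¹ * (S.y β 1)⁻¹ * S.y γ (-((c₁ : K) * v)) * S.y β 1) *
          (S.y b ((c₂ : K) * (-1) ^ 2 * (-((c₁ : K) * v)) ^ 1))⁻¹ := by
        rw [key]
        group
      rw [h3]
      exact Subgroup.mul_mem _ (hL _) (Subgroup.inv_mem _ (hQδ _))
  · exact absurd h (by simp)

/-- The lifts of a root commute, in characteristic two. -/
lemma ab_char2 (X : HExt S E wit) (h2K : (2 : K) = 0) {x : K} (hx0 : x ≠ 0) (hx1 : x ≠ 1) {r : ℕ} (hr : r < chevB2.nroots) :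
    X.LC r r := by
  obtain ⟨β, γ, δ, q, hr', hβ, hγ, hδ, hq, h1, h2, b1, b2, c1, c2, d1, d2, hp0, s1, s2, s3, k1, k2, k3, hOK⟩ := exists_data hr
  have key : ∀ s : ℕ, s < chevB2.nroots → s ≠ r → s ≠ chevB2.neg r → smB (chevB2.pairing q s) = true → dcB r s = true → X.LC r s := by
    intro s hs h3 h4 h5 h6
    refine X.lc_of_conj hs (dc_of_dcB h2K hr hs h3 h4 h6) (μ := x ^ chevB2.pairing q s) (g := S.hb q x)
      (zpow_char2 h2K hx0 hx1 (smB_spec h5)) (fun u => ?_) (fun v => S.hb_conj_y X.hW hq hs hx0 v)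
    rw [S.hb_conj_y X.hW hq hr hx0, hp0, zpow_zero, one_mul]
  have Lβ := key β hβ b1 b2 s1 k1
  have Lγ := key γ hγ c1 c2 s2 k2
  have Lδ := key δ hδ d1 d2 s3 k3
  intro a a' u v ha ha'
  refine (X.mem_Cx).1 (mem_of_tOK (S := S) (X.Cx a) hβ hγ h1 h2 (fun t => (X.mem_Cx).2 fun y hy => Lβ a y u t ha hy)
    (fun t => (X.mem_Cx).2 fun y hy => Lγ a y u t ha hy) (fun t => (X.mem_Cx).2 fun y hy => Lδ a y u t ha hy) hOK v) a' ha'

end B2C2

theorem p2B2 : digB2.tbl.chkP2 = true := by decide +kernel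

/-- Sections for the type B₂ in characteristic two. -/
theorem sec_B2char2 {K : Type*} [Field K] {E : Type*} [Group E] {wit : ℕ → ℕ × ℕ} (hW : StHyp digB2.tbl wit)
    (h2 : (2 : K) = 0) {x : K} (hx0 : x ≠ 0) (hx1 : x ≠ 1)
    (p : E →* chevB2.SteinbergCover K) (f : chevB2.SteinbergCover K → E) (hf : ∀ g, p (f g) = g)
    (hc : ∀ z, p z = 1 → ∀ w, w * z = z * w) : ∃ s : chevB2.SteinbergCover K →* E, p.comp s = MonoidHom.id _ := by
  have hG := good3B2
  have hU1 := u1B2
  have hP2 := p2B2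
  let S : Sys good3B2 K (chevB2.SteinbergCover K) := canSys good3B2 (chevB2.steinbergRelsAB K) subset_rfl (lift_relAB good3B2)
  have hrr : ∀ r, r < chevB2.nroots → chevB2.pairing r r = 2 := by
    intro r hr
    have h8 : chevB2.nroots = 8 := by decide +kernel
    rw [h8] at hr
    interval_cases r <;> decide +kernel
  let X : GExt S E wit := ⟨hW, p, f, hf, hc, x, hx0, id, fun r hr => hr, fun r hr =>
    zpow_char2 h2 hx0 hx1 (Or.inr (Or.inr (Or.inl (hrr r hr))))⟩
  have hAb : ∀ r, r < chevB2.nroots → X.Ab r := fun r hr => B2C2.ab_char2 X.toH h2 hx0 hx1 hr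
  have hq : ∀ r s, chevB2.nroots / 2 ≤ r → r < s → s < chevB2.nroots → X.Ok r s := by
    intro r s hr hrs hs
    left
    have hrn : r < chevB2.nroots := by omega
    have h1 := allBelow_spec hU1 r (hG.lt_n hrn)
    rw [Bool.or_eq_true, Tbl.blt_false (by rw [hG.half_eq]; omega)] at h1
    have h2' := allBelow_spec (h1.resolve_left (by simp)) s (hG.lt_n hs)
    rw [Bool.or_eq_true] at h2'
    have h3 : Nat.ble s r = false := by
      cases h4 : Nat.ble s r with
      | false => rfl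
      | true =>
        have := Nat.le_of_ble_eq_true h4
        omega
    rw [h3] at h2'
    have h4 := Nat.le_of_ble_eq_true (h2'.resolve_left (by simp))
    obtain ⟨Q, hQ1, h5⟩ : ∃ Q, Q < digB2.tbl.n ∧ (intZero (digB2.tbl.pairT Q r) && Tbl.smallNZ (digB2.tbl.pairT Q s)) = true :=
      ⟨_, h4, firstI_spec h4⟩
    rw [Bool.and_eq_true] at h5
    have hq := hG.n_lt hQ1
    refine ⟨Q, hq, ?_, ?_⟩
    · rw [← hG.pairT_eq hq hrn, intZero_spec h5.1, zpow_zero]
    · have h6 := h5.2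
      unfold Tbl.smallNZ at h6
      rw [Bool.and_eq_true, Bool.not_eq_true', hG.pairT_eq hq hs] at h6
      have h7 := Nat.le_of_ble_eq_true (allBelow_spec (allBelow_spec hP2 Q hQ1) s (hG.lt_n hs))
      rw [hG.pairT_eq hq hs] at h7
      have h8 : chevB2.pairing Q s ≠ 0 := by
        intro h9
        rw [h9] at h6
        exact absurd h6.1 (by decide)
      exact zpow_char2 h2 hx0 hx1 (by omega)
  exact ⟨gsecHom X hAb hq u3B2, gsecHom_spec X (canSys_y_of good3B2) hAb hq u3B2⟩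

end Cfsg.Agent.Lib.St
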