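/-
Schur multipliers from universality.
-/
import Cfsg.Agent.Lib.St.UnivMain
import Cfsg.Agent.Lib.St.R3
import Cfsg.Prelude.Def_KGroupFacts

set_option autoImplicit false

namespace Cfsg.Agent.Lib.St

open Cfsg Cfsg.Lie Cfsg.Agent.Lib.Chev
open scoped commutatorElement

section General

variable {Δ Γ G : Type*} [Group Δ] [Group Γ] [Group G]

/-- The kernel of a stem extension is the image of the kernel of a lift. -/
lemma stem_ker_image {σ : Γ →* G} (hσ : IsStemExtension σ) {θ : Δ →* G} (hθ : Function.Surjective θ) {τ : Δ →* Γ}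
    (hτ : σ.comp τ = θ) {x : Γ} (hx : x ∈ σ.ker) : ∃ g ∈ θ.ker, τ g = x := by
  obtain ⟨_, hc, hd⟩ := hσ
  have hτ' : ∀ g, σ (τ g) = θ g := fun g => congrArg (fun φ : Δ →* G => φ g) hτ
  have hform : ∀ a : Γ, ∃ a' : Δ, ∃ z ∈ σ.ker, a = τ a' * z := by
    intro a
    obtain ⟨a', ha'⟩ := hθ (σ a)
    refine ⟨a', (τ a')⁻¹ * a, ?_, by group⟩
    rw [MonoidHom.mem_ker, map_mul, map_inv, hτ', ha', inv_mul_cancel]
  have h1 : commutator Γ ≤ τ.range := by
    rw [commutator_def, Subgroup.commutator_le]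
    intro a _ b _
    obtain ⟨a', z, hz, rfl⟩ := hform a
    obtain ⟨b', w, hw, rfl⟩ := hform b
    rw [cm_mul_central_left (Subgroup.mem_center_iff.1 (hc hz)), cm_mul_central_right (Subgroup.mem_center_iff.1 (hc hw)),
      ← map_commutatorElement]
    exact ⟨_, rfl⟩
  obtain ⟨g, rfl⟩ := h1 (hd hx)
  refine ⟨g, ?_, rfl⟩
  rw [MonoidHom.mem_ker, ← hτ']
  exact hx

end General

section Chev

variable {K : Type*} [Field K] {D : ChevalleyDatum} {T : Tbl} {wit : ℕ → ℕ × ℕ}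

/-- The kernel of the map of the cover, for a trivial Smith form, over a finite field. -/
theorem cover_ker_trivial [Finite K] (hG : T.Good3 D) (hW : StHyp T wit) (hε : T.chkRank1 = true)
    {P P' Q Q' : ℕ → ℕ → ℤ} (hs : T.chkSmith P P' Q Q' (fun _ => 1) = true)
    (S : Sys hG K (D.SteinbergCover K)) {z : D.SteinbergCover K} (hz : S.θ z = 1) : z = 1 := by
  obtain ⟨c, rfl, hc⟩ := Sys.ker_eq_torus (S.R3_of_finite hW hε) hW hz
  rw [Tbl.actZ_eq_one hG hs hc, map_one]

end Chev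

section Main

universe u

variable {K : Type u} [Field K] {D : ChevalleyDatum}

/-- A Schur multiplier from a universal cover. -/
theorem schur_cyclic {n : ℕ} (hΔ : Finite (D.SteinbergCover K)) (θ : D.SteinbergCover K →* ↥(D.group K))
    (hθ : Function.Surjective θ) (hc : θ.ker ≤ Subgroup.center _) (hd : θ.ker ≤ commutator _)
    (e : θ.ker ≃* Multiplicative (ZMod n))
    (hU : ∀ (Γ : Type u) [Group Γ] (σ : Γ →* ↥(D.group K)), IsStemExtension σ →
      ∃ τ : D.SteinbergCover K →* Γ, σ.comp τ = θ) :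
    HasCyclicSchurMultiplier ↥(D.group K) n := by
  refine ⟨⟨_, inferInstance, hΔ, θ, ⟨hθ, hc, hd⟩, ⟨e⟩⟩, ?_⟩
  intro Γ _ _ σ hσ
  obtain ⟨τ, hτ⟩ := hU Γ σ hσ
  have hτ' : ∀ g, σ (τ g) = θ g := fun g => congrArg (fun φ : D.SteinbergCover K →* ↥(D.group K) => φ g) hτ
  let φ : θ.ker →* σ.ker := (τ.comp θ.ker.subtype).codRestrict σ.ker (fun g => by
    show σ (τ g.1) = 1
    rw [hτ']
    exact g.2)
  refine ⟨φ.comp e.symm.toMonoidHom, ?_⟩
  rintro ⟨x, hx⟩
  obtain ⟨g, hg, rfl⟩ := stem_ker_image hσ hθ hτ hx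
  refine ⟨e ⟨g, hg⟩, ?_⟩
  apply Subtype.ext
  show τ (e.symm (e ⟨g, hg⟩)).1 = τ g
  rw [e.symm_apply_apply]

/-- A trivial Schur multiplier from an injective universal cover. -/
theorem schur_one (hfin : Finite ↥(D.group K)) (θ : D.SteinbergCover K →* ↥(D.group K))
    (hθ : Function.Surjective θ) (hker : ∀ z, θ z = 1 → z = 1)
    (hU : ∀ (Γ : Type u) [Group Γ] (σ : Γ →* ↥(D.group K)), IsStemExtension σ →
      ∃ τ : D.SteinbergCover K →* Γ, σ.comp τ = θ) :
    HasCyclicSchurMultiplier ↥(D.group K) 1 := by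
  have hinj : Function.Injective θ := (injective_iff_map_eq_one θ).2 hker
  have hbot : ∀ z ∈ θ.ker, z = 1 := fun z hz => hker z hz
  haveI : Finite (D.SteinbergCover K) := Finite.of_injective θ hinj
  haveI : Unique θ.ker := ⟨⟨1⟩, fun z => Subtype.ext (hbot z.1 z.2)⟩
  refine schur_cyclic inferInstance θ hθ ?_ ?_ MulEquiv.ofUnique hU
  · intro z hz
    rw [hbot z hz]
    exact Subgroup.one_mem _
  · intro z hz
    rw [hbot z hz]
    exact Subgroup.one_mem _

end Main

end Cfsg.Agent.Lib.St
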