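/-
The kernel of the group of (R1), (R2) on the Chevalley group, for a monomial representation.
-/
import Cfsg.Agent.Lib.St.Minu4
import Cfsg.Agent.Lib.St.Schur

set_option autoImplicit false

namespace Cfsg.Agent.Lib.St

open Cfsg Cfsg.Lie Cfsg.Agent.Lib.Chev Cfsg.Agent.Lib.Chev.Tbl
open scoped commutatorElement

section Abstract

variable {M : Type*} [CommGroup M] {ι : Type*} [Fintype ι] [DecidableEq ι]

/-- The kernel of an integer matrix with a Smith form with one non-trivial factor. -/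
theorem smith_ker {C P P' Q Q' : ι → ι → ℤ} {s : ι → ℕ}
    (hP : ∀ i j, ∑ k, P i k * P' k j = if i = j then 1 else 0)
    (hP' : ∀ i j, ∑ k, P' i k * P k j = if i = j then 1 else 0)
    (hQ : ∀ i j, ∑ k, Q i k * Q' k j = if i = j then 1 else 0)
    (hS : ∀ i j, ∑ k, (∑ a, P i a * C a k) * Q k j = if i = j then (s i : ℤ) else 0) {m : ι}
    (hm : ∀ i, i ≠ m → s i = 1) :
    (∀ ζ : M, ζ ^ s m = 1 → actZ C (fun i => ζ ^ Q i m) = 1) ∧
    (∀ c : ι → M, actZ C c = 1 → ∃ ζ : M, ζ ^ s m = 1 ∧ c = fun i => ζ ^ Q i m) := by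
  have eP'P : ∀ c : ι → M, actZ P' (actZ P c) = c := fun c => by
    rw [actZ_comp (E := fun i j => if i = j then 1 else 0) hP', actZ_delta (fun _ _ => rfl)]
  have eQQ' : ∀ c : ι → M, actZ Q (actZ Q' c) = c := fun c => by
    rw [actZ_comp (E := fun i j => if i = j then 1 else 0) hQ, actZ_delta (fun _ _ => rfl)]
  have eS : ∀ c : ι → M, actZ P (actZ C (actZ Q c)) = fun i => c i ^ s i := by
    intro c
    have h1 : actZ P (actZ C (actZ Q c)) = actZ (fun i k => ∑ a, P i a * C a k) (actZ Q c) :=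
      actZ_comp (fun _ _ => rfl) _
    rw [h1, actZ_comp (E := fun i j => if i = j then (s i : ℤ) else 0) hS]
    funext i
    simp only [actZ]
    rw [Finset.prod_eq_single i]
    · rw [if_pos rfl, zpow_natCast]
    · intro j _ hj
      rw [if_neg (Ne.symm hj), zpow_zero]
    · intro hi
      exact absurd (Finset.mem_univ i) hi
  have hone : ∀ A : ι → ι → ℤ, actZ A (1 : ι → M) = 1 := fun A => by
    funext i
    simp [actZ]
  have hsingle : ∀ c' : ι → M, (∀ i, i ≠ m → c' i = 1) → ∀ i, actZ Q c' i = c' m ^ Q i m := by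
    intro c' h i
    simp only [actZ]
    rw [Finset.prod_eq_single m]
    · intro j _ hj
      rw [h j hj, one_zpow]
    · intro h2
      exact absurd (Finset.mem_univ m) h2
  constructor
  · intro ζ hζ
    have h1 : (fun i => ζ ^ Q i m) = actZ Q (Pi.mulSingle m ζ) := by
      funext i
      rw [hsingle _ (fun i hi => Pi.mulSingle_eq_of_ne hi _) i, Pi.mulSingle_eq_same]
    rw [h1]
    have h2 := eS (Pi.mulSingle m ζ)
    have h3 : (fun i => (Pi.mulSingle m ζ : ι → M) i ^ s i) = 1 := by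
      funext i
      by_cases e : i = m
      · subst e
        rw [Pi.mulSingle_eq_same, hζ]
        rfl
      · rw [Pi.mulSingle_eq_of_ne e, one_pow]
        rfl
    rw [h3] at h2
    have h4 := eP'P (actZ C (actZ Q (Pi.mulSingle m ζ)))
    rw [h2, hone] at h4
    exact h4.symm
  · intro c hc
    have h1 := eS (actZ Q' c)
    rw [eQQ', hc, hone] at h1
    have h2 : ∀ i, (actZ Q' c) i ^ s i = 1 := fun i => (congrFun h1 i).symm
    refine ⟨actZ Q' c m, h2 m, ?_⟩
    have h3 : ∀ i, i ≠ m → actZ Q' c i = 1 := by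
      intro i hi
      have := h2 i
      rwa [hm i hi, pow_one] at this
    funext i
    rw [← hsingle _ h3 i, eQQ']

end Abstract

section Chev

variable {K : Type*} [Field K] {D : ChevalleyDatum} {T : Tbl} {wit : ℕ → ℕ × ℕ}

/-- The equations of a Smith form. -/
lemma smith_eqs (hG : T.Good3 D) {P P' Q Q' : ℕ → ℕ → ℤ} {s : ℕ → ℕ} (h : T.chkSmith P P' Q Q' s = true) :
    (∀ i j : Fin D.rank, ∑ k : Fin D.rank, P i.val k.val * P' k.val j.val = if i = j then 1 else 0) ∧
    (∀ i j : Fin D.rank, ∑ k : Fin D.rank, P' i.val k.val * P k.val j.val = if i = j then 1 else 0) ∧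
    (∀ i j : Fin D.rank, ∑ k : Fin D.rank, Q i.val k.val * Q' k.val j.val = if i = j then 1 else 0) ∧
    (∀ i j : Fin D.rank, ∑ k : Fin D.rank, (∑ a : Fin D.rank, P i.val a.val * T.cart k.val (T.simple a.val)) * Q k.val j.val =
      if i = j then (s i.val : ℤ) else 0) := by
  have hl := hG.correct.l_eq
  have hchk : ∀ i j : Fin D.rank, _ := fun i j =>
    allBelow_spec (allBelow_spec h i.val (by rw [hl]; exact i.2)) j.val (by rw [hl]; exact j.2)
  simp only [Bool.and_eq_true] at hchk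
  have hconv : ∀ (l : ℕ) (f : ℕ → ℤ), ∑ k : Fin l, f k.val = sumF l f := sum_fin_eq_sumF
  refine ⟨fun i j => ?_, fun i j => ?_, fun i j => ?_, fun i j => ?_⟩
  · rw [← deltaZ_fin, hconv D.rank (fun k => P i.val k * P' k j.val)]
    have e := intEq_spec (hchk i j).1
    rw [hl] at e
    exact e
  · rw [← deltaZ_fin, hconv D.rank (fun k => P' i.val k * P k j.val)]
    have e := intEq_spec (hchk i j).2.1
    rw [hl] at e
    exact e
  · rw [← deltaZ_fin, hconv D.rank (fun k => Q i.val k * Q' k j.val)]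
    have e := intEq_spec (hchk i j).2.2.1
    rw [hl] at e
    exact e
  · have e : (if i = j then ((s i.val : ℕ) : ℤ) else 0) = deltaZ i.val j.val * (s i.val : ℤ) := by
      rw [deltaZ_fin]
      split_ifs <;> simp
    rw [e]
    have h1 := intEq_spec (hchk i j).2.2.2.2
    rw [hl] at h1
    rw [← h1, ← hconv D.rank]
    apply Finset.sum_congr rfl
    intro k _
    congr 1
    exact hconv D.rank (fun a => P i.val a * T.cart k.val (T.simple a))

variable {hG : T.Good3 D} {Γ : Type*} [Group Γ]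

/-- The characters of the torus under a reflection. -/
lemma torChar_refl (hG : T.Good3 D) {i s : ℕ} (hi : i < D.rank) (hs : s < D.nroots) (c : Fin D.rank → Kˣ) :
    Sys.torChar (D := D) (T.refl i s) c = Sys.torChar (D := D) s c * (Sys.torChar (D := D) (D.simple i) c) ^ (- T.cart i s) := by
  have hT := hG.correct
  have hp : ∀ {j r : ℕ}, j < D.rank → r < D.nroots → D.pairing (D.simple j) r = T.cart j r := fun {j r} hj hr => by
    rw [hG.pairing_simple hj hr, hT.cart_eq j r hj hr]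
  have hw := hG.refl_lt' hi hs
  rw [Sys.torChar_apply, Sys.torChar_apply, Sys.torChar_apply, ← Finset.prod_zpow, ← Finset.prod_mul_distrib]
  apply Finset.prod_congr rfl
  intro j _
  rw [hp j.2 hw, hp j.2 hs, hp j.2 (hG.simple_lt hi), ← zpow_mul, ← zpow_add]
  congr 1
  have h1 := allBelow_spec (allBelow_spec (allBelow_spec hG.cartLin i (hG.lt_l hi)) j.val (hG.lt_l j.2)) s (hG.lt_n hs)
  rw [intEq_spec h1, hT.simple_eq i hi]
  ring

/-- The torus elements in the kernel. -/
theorem θ_torus (S : Sys hG K Γ) (h3 : S.R3) (hW : StHyp T wit) {c : Fin D.rank → Kˣ}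
    (hc : actZ (fun j i : Fin D.rank => T.cart i.val (T.simple j.val)) c = 1) : S.θ (Sys.torus h3 hW c) = 1 := by
  have hT := hG.correct
  have hsimple : ∀ i, i < D.rank → Sys.torChar (D := D) (D.simple i) c = 1 := by
    intro i hi
    rw [Sys.torChar_simple hG hi]
    exact congrFun hc ⟨i, hi⟩
  have hall : ∀ r, r < T.n → r < D.nroots → Sys.torChar (D := D) r c = 1 := by
    refine hG.root_induction_simple _ (fun i hi _ => ?_) (fun i r hi hr h _ => ?_)
    · rw [hT.simple_eq i (hG.l_lt hi)]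
      exact hsimple i (hG.l_lt hi)
    · have hr' := hG.n_lt hr
      rw [torChar_refl hG (hG.l_lt hi) hr', h hr', hsimple i (hG.l_lt hi), one_zpow, mul_one]
  have hcent : Sys.torus h3 hW c ∈ Subgroup.center Γ := by
    rw [Subgroup.mem_center_iff]
    have h1 : ∀ g : Γ, g * Sys.torus h3 hW c = Sys.torus h3 hW c * g := by
      intro g
      have hg : g ∈ (⊤ : Subgroup Γ) := Subgroup.mem_top g
      rw [← S.gen] at hg
      induction hg using Subgroup.closure_induction with
      | mem x hx =>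
        obtain ⟨r, t, hr, rfl⟩ := hx
        have h2 := Sys.torus_conj_y h3 hW hr c t
        rw [hall r (hG.lt_n hr) hr, Units.val_one, one_mul, mul_inv_eq_iff_eq_mul] at h2
        exact h2.symm
      | one => simp
      | mul x y _ _ hx hy => rw [mul_assoc, hy, ← mul_assoc, hx, mul_assoc]
      | inv x _ hx =>
        rw [eq_mul_inv_iff_mul_eq, mul_assoc, ← hx, inv_mul_cancel_left]
    exact h1
  exact S.center_le_ker hcent

/-- The map from the roots of unity. -/
noncomputable def tauR (p : ℕ) (q : Fin D.rank → ℤ) : rootsOfUnity p K →* (Fin D.rank → Kˣ) where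
  toFun ζ := fun i => (ζ : Kˣ) ^ q i
  map_one' := by
    funext i
    simp
  map_mul' a b := by
    funext i
    simp [mul_zpow]

/-- **The kernel** is the group of roots of unity. -/
theorem ker_mulEquiv [Finite K] (hG : T.Good3 D) (hW : StHyp T wit) (hε : T.chkRank1 = true) {rows : List ℕ} {wd d k : ℕ}
    (hrep : T.chkRep rows wd d = true) (hv : T.chkV0 rows wd d k = true)
    {P P' Q Q' : ℕ → ℕ → ℤ} {s : ℕ → ℕ} (hs : T.chkSmith P P' Q Q' s = true) {m : ℕ} (hm : m < D.rank)
    (hsm : ∀ i, i < D.rank → i ≠ m → s i = 1) {a b : ℤ} (hab : a * Q k m + b * s m = 1) :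
    Nonempty ((covSys hG K).θ.ker ≃* rootsOfUnity (s m) K) := by
  obtain ⟨hd, hk', _⟩ := chkV0_spec hv
  have hk : k < D.rank := hG.l_lt hk'
  set S := covSys hG K with hS
  have h3 : S.R3 := S.R3_of_finite hW hε
  obtain ⟨e1, e2, e3, e4⟩ := smith_eqs hG hs
  have hsm' : ∀ i : Fin D.rank, i ≠ ⟨m, hm⟩ → s i.val = 1 := fun i hi =>
    hsm i.val i.2 (fun e => hi (Fin.ext e))
  obtain ⟨h1, h2⟩ := smith_ker (M := Kˣ) (C := fun j i : Fin D.rank => T.cart i.val (T.simple j.val))
    (P := fun i j => P i.val j.val) (P' := fun i j => P' i.val j.val) (Q := fun i j => Q i.val j.val)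
    (Q' := fun i j => Q' i.val j.val) (s := fun i => s i.val) e1 e2 e3 e4 (m := ⟨m, hm⟩) hsm'
  let τ₀ : rootsOfUnity (s m) K →* (Fin D.rank → Kˣ) := tauR (s m) (fun i => Q i.val m)
  let φ : rootsOfUnity (s m) K →* D.SteinbergCover K := (Sys.torus h3 hW).comp τ₀
  have hker : ∀ ζ, φ ζ ∈ S.θ.ker := by
    intro ζ
    rw [MonoidHom.mem_ker]
    exact θ_torus S h3 hW (h1 ζ.1 ((mem_rootsOfUnity _ _).1 ζ.2))
  let φ' : rootsOfUnity (s m) K →* S.θ.ker := φ.codRestrict _ hker
  obtain ⟨ρ, hρ⟩ := exists_rep hG hrep K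
  have hinj : Function.Injective φ' := by
    rw [injective_iff_map_eq_one]
    intro ζ hζ
    have hζ' : φ ζ = 1 := congrArg Subtype.val hζ
    have h4 := rep_torus (hG := hG) hρ hrep hv hd hk hW h3 (τ₀ ζ)
    have e5 : Sys.torus h3 hW (τ₀ ζ) = 1 := hζ'
    rw [e5, map_one, Units.val_one, Matrix.one_mulVec] at h4
    have h5 := congrFun h4 ⟨0, hd⟩
    simp only [Pi.smul_apply, Pi.single_eq_same, smul_eq_mul, mul_one] at h5
    have h6 : τ₀ ζ ⟨k, hk⟩ = 1 := Units.ext h5.symm
    have h7 : (ζ : Kˣ) ^ Q k m = 1 := h6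
    have h8 : (ζ : Kˣ) ^ (s m) = 1 := (mem_rootsOfUnity _ _).1 ζ.2
    apply Subtype.ext
    show (ζ : Kˣ) = 1
    calc (ζ : Kˣ) = (ζ : Kˣ) ^ (a * Q k m + b * s m) := by rw [hab, zpow_one]
      _ = 1 := by
        rw [zpow_add, mul_comm a, zpow_mul, h7, one_zpow, one_mul, mul_comm b, zpow_mul, zpow_natCast, h8, one_zpow]
  have hsurj : Function.Surjective φ' := by
    rintro ⟨z, hz⟩
    obtain ⟨c, rfl, hc⟩ := Sys.ker_eq_torus h3 hW (MonoidHom.mem_ker.1 hz)
    obtain ⟨ζ, hζ, rfl⟩ := h2 c hc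
    exact ⟨⟨ζ, (mem_rootsOfUnity _ _).2 hζ⟩, rfl⟩
  exact ⟨(MulEquiv.ofBijective φ' ⟨hinj, hsurj⟩).symm⟩

/-- The group of (R1), (R2) is perfect. -/
theorem perfect_of_hw {S : Sys hG K Γ} (hW : StHyp T wit) {ρ a₀ b₀ : ℕ} {mv : List (ℕ × ℕ × ℕ × ℕ)} (hchk : T.chkHW ρ a₀ b₀ mv = true) :
    commutator Γ = ⊤ := by
  let X : HExt S Γ wit := ⟨hW, MonoidHom.id Γ, id, fun _ => rfl, fun z hz w => by
    have : z = 1 := hz
    rw [this, mul_one, one_mul]⟩
  rw [eq_top_iff, ← S.gen, Subgroup.closure_le]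
  rintro _ ⟨r, t, hr, rfl⟩
  obtain ⟨a, b, hd, _⟩ := X.gd_all hchk hr
  obtain ⟨_, ha, hb, _, _, c, hc, e⟩ := hd
  have h6 : S.y r t = ⁅S.y a (c⁻¹ * t), S.y b 1⁆ := by
    rw [e]
    congr 1
    field_simp
  rw [h6]
  exact Subgroup.commutator_mem_commutator (Subgroup.mem_top _) (Subgroup.mem_top _)

end Chev

section Main

universe u

variable {K : Type u} [Field K] [Fintype K] {D : ChevalleyDatum} {T : Tbl} {wit : ℕ → ℕ × ℕ}

/-- The group of roots of unity as a group of residues. -/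
lemma roots_equiv (p : ℕ) : Nonempty (rootsOfUnity p K ≃* Multiplicative (ZMod (Nat.gcd p (Fintype.card K - 1)))) := by
  classical
  have hcyc : IsCyclic (rootsOfUnity p K) := inferInstance
  have hcard : Nat.card (rootsOfUnity p K) = Nat.gcd p (Fintype.card K - 1) := by
    rw [rootsOfUnity_eq_ker, IsCyclic.card_powMonoidHom_ker, Nat.card_eq_fintype_card, Fintype.card_units, Nat.gcd_comm]
  rw [← hcard]
  exact ⟨(zmodCyclicMulEquiv hcyc).symm⟩

/-- The Schur multiplier, from a monomial representation. -/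
theorem schur_minu (hD : D ∈ [chevE6, chevE7, chevE8]) (hG : T.Good3 D) (hW : StHyp T wit) (hε : T.chkRank1 = true) {rows : List ℕ} {wd d k : ℕ}
    (hrep : T.chkRep rows wd d = true) (hv : T.chkV0 rows wd d k = true)
    {P P' Q Q' : ℕ → ℕ → ℤ} {s : ℕ → ℕ} (hs : T.chkSmith P P' Q Q' s = true) {m : ℕ} (hm : m < D.rank)
    (hsm : ∀ i, i < D.rank → i ≠ m → s i = 1) {a b : ℤ} (hab : a * Q k m + b * s m = 1)
    {ρ a₀ b₀ : ℕ} {mv : List (ℕ × ℕ × ℕ × ℕ)} (hchk : T.chkHW ρ a₀ b₀ mv = true) :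
    HasCyclicSchurMultiplier ↥(D.group K) (Nat.gcd (s m) (Fintype.card K - 1)) := by
  obtain ⟨e⟩ := ker_mulEquiv (K := K) hG hW hε hrep hv hs hm hsm hab
  obtain ⟨e'⟩ := roots_equiv (K := K) (s m)
  set S := covSys hG K with hS
  have hk : S.θG.ker = S.θ.ker := S.θG_ker
  have e0 : S.θG.ker ≃* S.θ.ker := MulEquiv.subgroupCongr hk
  have hfin : Finite ↥(D.group K) := inferInstance
  have hfk : Finite S.θG.ker := Finite.of_equiv _ (e0.trans e).symm.toEquiv
  have hΔ : Finite (D.SteinbergCover K) := by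
    have hq : Finite (D.SteinbergCover K ⧸ S.θG.ker) :=
      Finite.of_equiv _ (QuotientGroup.quotientKerEquivOfSurjective S.θG S.θG_surj).symm.toEquiv
    exact Finite.of_equiv _ (Subgroup.groupEquivQuotientProdSubgroup (s := S.θG.ker)).symm
  refine schur_cyclic hΔ S.θG S.θG_surj ?_ ?_ (e0.trans (e.trans e')) ?_
  · rw [hk]
    exact S.ker_le_center hW
  · rw [perfect_of_hw (S := S) hW hchk]
    exact le_top
  · intro Γ _ σ hσ
    exact (closure_main hD σ hσ.1 hσ.2.1 S.θG).exists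

end Main

end Cfsg.Agent.Lib.St
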