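/-
The centre of Steinberg's group, from a monomial representation.
-/
import Cfsg.Agent.Lib.St.Minu5

set_option autoImplicit false

namespace Cfsg.Agent.Lib.St

open Cfsg Cfsg.Lie Cfsg.Agent.Lib.Chev Cfsg.Agent.Lib.Chev.Tbl

variable {K : Type*} [Field K] [Fintype K] {D : ChevalleyDatum} {T : Tbl} {wit : ℕ → ℕ × ℕ}

/-- The centre of Steinberg's group. -/
theorem center_minu (hD : D ∈ [chevG2, chevB2, chevD4, chevF4, chevE6, chevE7, chevE8]) (hG : T.Good3 D) (hW : StHyp T wit) (hε : T.chkRank1 = true)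
    {rows : List ℕ} {wd d k : ℕ} (hrep : T.chkRep rows wd d = true) (hv : T.chkV0 rows wd d k = true)
    {P P' Q Q' : ℕ → ℕ → ℤ} {s : ℕ → ℕ} (hs : T.chkSmith P P' Q Q' s = true) {m : ℕ} (hm : m < D.rank)
    (hsm : ∀ i, i < D.rank → i ≠ m → s i = 1) {a b : ℤ} (hab : a * Q k m + b * s m = 1) :
    Nat.card (Subgroup.center (D.SteinbergGroup K)) = Nat.gcd (s m) (Fintype.card K - 1) := by
  obtain ⟨e⟩ := ker_mulEquiv (K := K) hG hW hε hrep hv hs hm hsm hab
  set S := covSys hG K with hS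
  have h1 : Subgroup.center (D.SteinbergCover K) = S.θ.ker :=
    le_antisymm S.center_le_ker (S.ker_le_center hW)
  let e1 : D.SteinbergCover K ≃* D.SteinbergGroup K := QuotientGroup.quotientMulEquivOfEq (cover_normalClosure hD K)
  classical
  rw [← Nat.card_congr (Subgroup.centerCongr e1).toEquiv, h1, Nat.card_congr e.toEquiv, rootsOfUnity_eq_ker,
    IsCyclic.card_powMonoidHom_ker, Nat.card_eq_fintype_card, Fintype.card_units, Nat.gcd_comm]

end Cfsg.Agent.Lib.St
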