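/-
Central extensions of the group of (R1), (R2) over a finite field of characteristic `p`, by groups without `p`-torsion:
the canonical lifts of the letters are their lifts of `p`-power order.
-/
import Cfsg.Agent.Lib.St.Perf
import Cfsg.Agent.Lib.St.HWMain

set_option autoImplicit false

namespace Cfsg.Agent.Lib.St

open Cfsg Cfsg.Lie Cfsg.Agent.Lib.Chev
open scoped commutatorElement

section Abstract

variable {Q Δ : Type*} [Group Q] [Group Δ] (π : Q →* Δ) {p : ℕ} [hpp : Fact p.Prime]

/-- No `p`-torsion in the kernel, for `p`-powers. -/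
lemma pow_ker_eq_one (hp : ∀ z ∈ π.ker, z ^ p = 1 → z = 1) {z : Q} (hz : z ∈ π.ker) {n : ℕ} (h : z ^ p ^ n = 1) : z = 1 := by
  induction n with
  | zero => simpa using h
  | succ n ih =>
    refine ih (hp _ (Subgroup.pow_mem _ hz _) ?_)
    rw [← pow_mul, ← pow_succ]
    exact h

variable {π}

/-- Lifts of `p`-power order are unique. -/
lemma plift_unique (hc : π.ker ≤ Subgroup.center Q) (hp : ∀ z ∈ π.ker, z ^ p = 1 → z = 1) {x x' : Q} (h : π x = π x') {k k' : ℕ}
    (hx : x ^ p ^ k = 1) (hx' : x' ^ p ^ k' = 1) : x = x' := by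
  have hz : x⁻¹ * x' ∈ π.ker := by rw [MonoidHom.mem_ker, map_mul, map_inv, h, inv_mul_cancel]
  have hcomm : Commute x (x⁻¹ * x') := (Subgroup.mem_center_iff.1 (hc hz) x)
  have e : x' = x * (x⁻¹ * x') := by group
  have h1 : (x⁻¹ * x') ^ p ^ (k + k') = 1 := by
    have h2 : x ^ p ^ (k + k') = 1 := by
      rw [pow_add, pow_mul, hx, one_pow]
    have h3 : x' ^ p ^ (k + k') = 1 := by
      rw [add_comm, pow_add, pow_mul, hx', one_pow]
    rw [e, hcomm.mul_pow, h2, one_mul] at h3
    exact h3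
  have h4 := pow_ker_eq_one π hp hz h1
  rw [e, h4, mul_one]

/-- A section over a `p`-subgroup. -/
theorem plift_exists [Finite Q] (hπ : Function.Surjective π) (hc : π.ker ≤ Subgroup.center Q) (hp : ∀ z ∈ π.ker, z ^ p = 1 → z = 1)
    (W : Subgroup Δ) (hW : IsPGroup p W) :
    ∃ s : W →* Q, (∀ g, π (s g) = g.1) ∧ ∀ g, ∃ k : ℕ, s g ^ p ^ k = 1 := by
  classical
  haveI : Finite Δ := Finite.of_surjective π hπ
  let W' : Subgroup Q := W.comap π
  let N : Subgroup W' := π.ker.subgroupOf W'
  haveI : N.Normal := by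
    show (π.ker.subgroupOf W').Normal
    infer_instance
  let πW : W' →* W := (π.comp W'.subtype).codRestrict W (fun x => x.2)
  have hπW : Function.Surjective πW := by
    rintro ⟨g, hg⟩
    obtain ⟨x, hx⟩ := hπ g
    exact ⟨⟨x, by show π x ∈ W; rw [hx]; exact hg⟩, Subtype.ext hx⟩
  have hker : πW.ker = N := by
    ext x
    rw [MonoidHom.mem_ker]
    constructor
    · intro h
      have : π x.1 = 1 := congrArg Subtype.val h
      exact this
    · intro h
      exact Subtype.ext h
  have hindex : N.index = Nat.card W := by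
    rw [← hker, Subgroup.index_ker, MonoidHom.range_eq_top.2 hπW]
    simp
  have hcardN : Nat.Coprime (Nat.card N) p := by
    rw [Nat.coprime_comm, Nat.Prime.coprime_iff_not_dvd hpp.out]
    intro hd
    obtain ⟨z, hz⟩ := exists_prime_orderOf_dvd_card' p hd
    have h1 : z ^ p = 1 := by rw [← hz]; exact pow_orderOf_eq_one z
    have h2 : ((z : W') : Q) ∈ π.ker := z.2
    have h3 : (((z : W') : Q)) ^ p = 1 := by
      have := congrArg (fun y : N => ((y : W') : Q)) h1
      simpa using this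
    have h4 := hp _ h2 h3
    have h5 : z = 1 := Subtype.ext (Subtype.ext h4)
    rw [h5, orderOf_one] at hz
    exact hpp.out.one_lt.ne hz
  obtain ⟨n, hn⟩ := IsPGroup.iff_card.1 hW
  have hcop : Nat.Coprime (Nat.card N) N.index := by
    rw [hindex, hn]
    exact Nat.Coprime.pow_right _ hcardN
  obtain ⟨H, hH⟩ := Subgroup.exists_right_complement'_of_coprime hcop
  let πH : H →* W := πW.comp H.subtype
  have hinj : Function.Injective πH := by
    rw [injective_iff_map_eq_one]
    intro x hx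
    have h1 : (x : W') ∈ N := by
      rw [← hker]
      exact hx
    have h2 := hH.disjoint
    have h3 : (x : W') = 1 := Subgroup.disjoint_def.1 h2 h1 x.2
    exact Subtype.ext h3
  have hsurj : Function.Surjective πH := by
    intro g
    obtain ⟨x, hx⟩ := hπW g
    obtain ⟨⟨a, b⟩, hab⟩ := hH.2 x
    refine ⟨b, ?_⟩
    have h1 : πW a.1 = 1 := (Subgroup.ext_iff.1 hker a.1).2 a.2
    rw [← hx, ← hab]
    show πW b.1 = πW (a.1 * b.1)
    rw [map_mul, h1, one_mul]
  let e : H ≃* W := MulEquiv.ofBijective πH ⟨hinj, hsurj⟩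
  let s : W →* Q := W'.subtype.comp (H.subtype.comp e.symm.toMonoidHom)
  refine ⟨s, fun g => ?_, fun g => ?_⟩
  · have h1 : πH (e.symm g) = g := e.apply_symm_apply g
    exact congrArg Subtype.val h1
  · obtain ⟨k, hk⟩ := hW g
    refine ⟨k, ?_⟩
    rw [← map_pow, hk, map_one]

open Classical in
/-- The lift of `p`-power order. -/
noncomputable def plift (π : Q →* Δ) (p : ℕ) (g : Δ) : Q :=
  if h : ∃ x : Q, π x = g ∧ ∃ k : ℕ, x ^ p ^ k = 1 then h.choose else 1

lemma plift_eq (hc : π.ker ≤ Subgroup.center Q) (hp : ∀ z ∈ π.ker, z ^ p = 1 → z = 1) {x : Q} {k : ℕ} (hx : x ^ p ^ k = 1) :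
    plift π p (π x) = x := by
  have h : ∃ y : Q, π y = π x ∧ ∃ k : ℕ, y ^ p ^ k = 1 := ⟨x, rfl, k, hx⟩
  unfold plift
  rw [dif_pos h]
  obtain ⟨h1, k', h2⟩ := h.choose_spec
  exact plift_unique hc hp h1 h2 hx

/-- The lift of `p`-power order is multiplicative on `p`-subgroups. -/
theorem plift_on [Finite Q] (hπ : Function.Surjective π) (hc : π.ker ≤ Subgroup.center Q) (hp : ∀ z ∈ π.ker, z ^ p = 1 → z = 1)
    (W : Subgroup Δ) (hW : IsPGroup p W) :
    (∀ g ∈ W, π (plift π p g) = g) ∧ ∀ g ∈ W, ∀ g' ∈ W, plift π p (g * g') = plift π p g * plift π p g' := by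
  obtain ⟨s, h1, h2⟩ := plift_exists hπ hc hp W hW
  have h3 : ∀ g : W, plift π p g.1 = s g := by
    intro g
    obtain ⟨k, hk⟩ := h2 g
    have := plift_eq hc hp hk
    rwa [h1] at this
  refine ⟨fun g hg => ?_, fun g hg g' hg' => ?_⟩
  · have := h3 ⟨g, hg⟩
    simp only at this
    rw [this, h1]
  · have e1 := h3 ⟨g, hg⟩
    have e2 := h3 ⟨g', hg'⟩
    have e3 := h3 (⟨g, hg⟩ * ⟨g', hg'⟩)
    simp only at e1 e2
    rw [e1, e2, ← map_mul, ← e3]
    rfl

end Abstract

section Chev

variable {K : Type*} [Field K] {D : ChevalleyDatum} {T : Tbl} {hG : T.Good3 D} {Δ : Type*} [Group Δ] {wit : ℕ → ℕ × ℕ}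

namespace Sys

variable (S : Sys hG K Δ)

lemma y_pow {r : ℕ} (hr : r < D.nroots) (t : K) (n : ℕ) : S.y r t ^ n = S.y r ((n : K) * t) := by
  induction n with
  | zero => simp [S.y_zero hr]
  | succ n ih =>
    rw [pow_succ, ih, S.add hr]
    congr 1
    push_cast
    ring

/-- The subgroups of closed lists are `p`-groups. -/
theorem isPGroup_V {p : ℕ} [hp : Fact p.Prime] [CharP K p] {L : List ℕ} (hc : ChainOK D L) (hL : ∀ s ∈ L, s < D.nroots) :
    IsPGroup p (S.V L) := by
  induction L with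
  | nil =>
    have : S.V [] = ⊥ := by
      unfold V
      simp
    rw [this]
    exact IsPGroup.of_bot
  | cons r L ih =>
    have hr := hL r (by simp)
    have hL' : ∀ s ∈ L, s < D.nroots := fun s hs => hL s (List.mem_cons_of_mem _ hs)
    have h1 := ih hc.2 hL'
    have hX : IsPGroup p (S.V [r]) := by
      rintro ⟨g, hg⟩
      refine ⟨1, ?_⟩
      obtain ⟨a, v, hv, rfl⟩ := S.V_split hr (L := []) (fun s hs => absurd hs (by simp)) (fun s hs => absurd hs (by simp)) hg
      have hv1 : v = 1 := by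
        have : S.V [] = ⊥ := by
          unfold V
          simp
        rw [this] at hv
        exact hv
      apply Subtype.ext
      show (S.y r a * v) ^ p ^ 1 = 1
      rw [hv1, mul_one, pow_one, S.y_pow hr, CharP.cast_eq_zero, zero_mul, S.y_zero hr]
    have hn : S.V [r] ≤ Subgroup.normalizer (S.V L : Set Δ) := by
      intro g hg
      obtain ⟨a, v, hv, rfl⟩ := S.V_split hr (L := []) (fun s hs => absurd hs (by simp)) (fun s hs => absurd hs (by simp)) hg
      have hv1 : v = 1 := by
        have : S.V [] = ⊥ := by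
          unfold V
          simp
        rw [this] at hv
        exact hv
      rw [hv1, mul_one, Subgroup.mem_normalizer_iff]
      intro w
      constructor
      · exact fun hw => S.conj_V' hr hL' hc.1 a hw
      · intro hw
        have h2 := S.conj_V hr hL' hc.1 a hw
        have e : (S.y r a)⁻¹ * (S.y r a * w * (S.y r a)⁻¹) * S.y r a = w := by group
        rwa [e] at h2
    have h3 : IsPGroup p (S.V [r] ⊔ S.V L : Subgroup Δ) := IsPGroup.to_sup_of_normal_right' hX h1 hn
    refine h3.to_le ?_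
    intro g hg
    obtain ⟨a, v, hv, rfl⟩ := S.V_split hr hL' hc.1 hg
    exact Subgroup.mul_mem _ (Subgroup.mem_sup_left (S.mem_V (by simp) a)) (Subgroup.mem_sup_right hv)

end Sys

/-- The lifts of `p`-power order satisfy the relations. -/
theorem exists_Y_p {S : Sys hG K Δ} (hW : StHyp T wit) {bw : ℕ → ℕ → List ℕ} (hb : T.chkU3 bw = true)
    {p : ℕ} [Fact p.Prime] [CharP K p] {Q : Type*} [Group Q] [Finite Q] {π : Q →* Δ} (hπ : Function.Surjective π)
    (hc : π.ker ≤ Subgroup.center Q) (hp : ∀ z ∈ π.ker, z ^ p = 1 → z = 1) :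
    ∃ Y : ℕ → K → Q, (∀ r, r < D.nroots → ∀ t, π (Y r t) = S.y r t) ∧
      (∀ r, r < D.nroots → ∀ t u, Y r (t + u) = Y r t * Y r u) ∧
      ∀ r s, r < D.nroots → s < D.nroots → s ≠ r → s ≠ D.neg r → ∀ t u : K,
        (Y s u)⁻¹ * (Y r t)⁻¹ * Y s u * Y r t = ((D.commWord K r s t u).map fun p => Y p.1 p.2).prod := by
  have hX : ∀ r, r < D.nroots → IsPGroup p (S.V [r]) := fun r hr =>
    S.isPGroup_V (L := [r]) ⟨by simp, trivial⟩ (by simpa using hr)
  have hpos : IsPGroup p (S.V (posL D)) := S.isPGroup_V (chain_posL hG) (fun s hs => ((mem_posL hG).1 hs).2)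
  have key : ∀ r, r < D.nroots → ∀ t, π (plift π p (S.y r t)) = S.y r t := fun r hr t =>
    (plift_on hπ hc hp _ (hX r hr)).1 _ (S.mem_V (L := [r]) (r := r) (by simp) t)
  refine ⟨fun r t => plift π p (S.y r t), key, fun r hr t u => ?_, fun r s hr hs h1 h2 t u => ?_⟩
  · have := (plift_on hπ hc hp _ (hX r hr)).2 _ (S.mem_V (L := [r]) (r := r) (by simp) t) _ (S.mem_V (L := [r]) (r := r) (by simp) u)
    rw [S.add hr] at this
    exact this
  · obtain ⟨l, hl, h3, h4, h5⟩ := exists_word hG hb hr hs h1 h2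
    set η := S.Np l with hη
    let W : Subgroup Δ := (S.V (posL D)).map (MulAut.conj η⁻¹).toMonoidHom
    have hWp : IsPGroup p W := hpos.map _
    have hmem : ∀ q, q < D.nroots → D.nroots / 2 ≤ wperm T l q → ∀ v : K, S.y q v ∈ W := by
      intro q hq hq2 v
      obtain ⟨c, hc0, e⟩ := S.conj_Nw hW (Sys.Np_vld hl) hq
      have e' : (l.map fun i => (i, (1 : K))).map Prod.fst = l := by
        rw [List.map_map]
        exact List.map_id l
      rw [e'] at e
      refine ⟨η * S.y q v * η⁻¹, ?_, ?_⟩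
      · show S.Nw _ * S.y q v * (S.Nw _)⁻¹ ∈ _
        rw [e]
        apply S.mem_V
        rw [mem_posL hG]
        exact ⟨hq2, hG.wperm_lt hl hq⟩
      · show η⁻¹ * (η * S.y q v * η⁻¹) * η⁻¹⁻¹ = _
        group
    have hmul := (plift_on hπ hc hp W hWp).2
    have hinv : ∀ g ∈ W, plift π p g⁻¹ = (plift π p g)⁻¹ := by
      intro g hg
      have h6 := hmul g hg g⁻¹ (Subgroup.inv_mem _ hg)
      rw [mul_inv_cancel] at h6
      have h7 : plift π p (1 : Δ) = 1 := by
        have := plift_eq (k := 0) hc hp (x := (1 : Q)) (by simp)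
        rwa [map_one] at this
      rw [h7] at h6
      exact (eq_inv_of_mul_eq_one_right h6.symm)
    have mr := hmem r hr h3 t
    have ms := hmem s hs h4 u
    have hword : ∀ w : List (ℕ × K), (∀ p ∈ w, p.1 < D.nroots ∧ D.nroots / 2 ≤ wperm T l p.1) →
        (w.map fun p => S.y p.1 p.2).prod ∈ W ∧
        plift π p (w.map fun p => S.y p.1 p.2).prod = (w.map fun q => plift π p (S.y q.1 q.2)).prod := by
      intro w
      induction w with
      | nil =>
        intro _
        refine ⟨Subgroup.one_mem _, ?_⟩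
        have := plift_eq (k := 0) hc hp (x := (1 : Q)) (by simp)
        rw [map_one] at this
        simpa using this
      | cons a w ih =>
        intro hw
        obtain ⟨h6, h7⟩ := ih fun q hq => hw q (List.mem_cons_of_mem _ hq)
        obtain ⟨h8, h9⟩ := hw a (by simp)
        have m1 := hmem _ h8 h9 a.2
        simp only [List.map_cons, List.prod_cons]
        exact ⟨Subgroup.mul_mem _ m1 h6, by rw [hmul _ m1 _ h6, h7]⟩
    have hw := hword (D.commWord K r s t u) (by
      intro q hq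
      simp only [ChevalleyDatum.commWord, List.mem_map] at hq
      obtain ⟨c, hc', rfl⟩ := hq
      exact ⟨hG.commTerms_lt hr hs c hc', h5 c hc'⟩)
    have e1 : plift π p ((S.y s u)⁻¹ * (S.y r t)⁻¹ * S.y s u * S.y r t) =
        (plift π p (S.y s u))⁻¹ * (plift π p (S.y r t))⁻¹ * plift π p (S.y s u) * plift π p (S.y r t) := by
      rw [hmul _ (Subgroup.mul_mem _ (Subgroup.mul_mem _ (Subgroup.inv_mem _ ms) (Subgroup.inv_mem _ mr)) ms) _ mr,
        hmul _ (Subgroup.mul_mem _ (Subgroup.inv_mem _ ms) (Subgroup.inv_mem _ mr)) _ ms,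
        hmul _ (Subgroup.inv_mem _ ms) _ (Subgroup.inv_mem _ mr), hinv _ ms, hinv _ mr]
    rw [← e1, S.comm hr hs h1 h2]
    exact hw.2

end Chev

end Cfsg.Agent.Lib.St
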