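/-
Lifting from the group of (R1), (R2) over a finite field of characteristic `p` through a central extension
with a kernel without `p`-torsion.
-/
import Cfsg.Agent.Lib.St.PSec
import Cfsg.Agent.Lib.St.FinAll

set_option autoImplicit false

universe u_1 u_2

namespace Cfsg.Agent.Lib.St

open Cfsg Cfsg.Lie Cfsg.Agent.Lib.Chev
open scoped commutatorElement

/-- The data for the small fields. -/
theorem exists_small {K : Type u_1} [Field K] {D : ChevalleyDatum} (hD : D ∈ [chevG2, chevB2, chevD4, chevF4, chevE6, chevE7, chevE8])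
    (hK : D ∈ [chevB2, chevG2] → ∃ x : K, x ≠ 0 ∧ x ≠ 1) :
    ∃ (T : Tbl) (wit : ℕ → ℕ × ℕ) (bw : ℕ → ℕ → List ℕ) (hG : T.Good3 D), StHyp T wit ∧ T.chkRank1 = true ∧ T.chkU3 bw = true ∧
      ∀ {Γ : Type u_2} [Group Γ] (_ : Sys hG K Γ), commutator Γ = ⊤ := by
  simp only [List.mem_cons, List.not_mem_nil, or_false] at hD
  rcases hD with rfl | rfl | rfl | rfl | rfl | rfl | rfl
  · obtain ⟨a, ha, ha1⟩ := hK (by simp)
    exact ⟨_, _, _, good3G2, stHypG2, rank1G2, u3G2, fun S => Sys.perf_H S stHypG2 digG2_perfH ha ha1⟩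
  · obtain ⟨a, ha, ha1⟩ := hK (by simp)
    exact ⟨_, _, _, good3B2, stHypB2, rank1B2, u3B2, fun S => Sys.perf_two S stHypB2 rfl digB2_perfH0 digB2_perfTwo ha ha1⟩
  · exact ⟨_, _, _, good3D4, stHypD4, rank1D4, u3D4, fun S => Sys.perf_A S stHypD4 digD4_perfA⟩
  · exact ⟨_, _, _, good3F4, stHypF4, rank1F4, u3F4, fun S => Sys.perf_A S stHypF4 digF4_perfA⟩
  · exact ⟨_, _, _, good3E6, stHypE6, rank1E6, u3E6, fun S => Sys.perf_A S stHypE6 digE6_perfA⟩
  · exact ⟨_, _, _, good3E7, stHypE7, rank1E7, u3E7, fun S => Sys.perf_A S stHypE7 digE7_perfA⟩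
  · exact ⟨_, _, _, good3E8, stHypE8, rank1E8, u3E8, fun S => Sys.perf_A S stHypE8 digE8_perfA⟩

/-- The group of (R1), (R2) over a finite field is finite. -/
theorem cover_finite {K : Type*} [Field K] [Finite K] {D : ChevalleyDatum} {T : Tbl} {wit : ℕ → ℕ × ℕ} (hG : T.Good3 D) (hW : StHyp T wit)
    (hε : T.chkRank1 = true) : Finite (D.SteinbergCover K) := by
  classical
  haveI := Fintype.ofFinite K
  let S : Sys hG K (D.SteinbergCover K) := canSys hG (D.steinbergRelsAB K) subset_rfl (lift_relAB hG)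
  have h3 : S.R3 := S.R3_of_finite hW hε
  have hfin : Finite ↥(D.group K) := inferInstance
  have hk : Finite S.θG.ker := by
    have hsub : S.θG.ker ≤ (Sys.torus h3 hW).range := by
      intro z hz
      rw [S.θG_ker] at hz
      obtain ⟨c, rfl, _⟩ := Sys.ker_eq_torus h3 hW (MonoidHom.mem_ker.1 hz)
      exact ⟨c, rfl⟩
    have : Finite (Sys.torus h3 hW).range := inferInstance
    exact Finite.of_injective (Subgroup.inclusion hsub) (Subgroup.inclusion_injective hsub)
  have hq : Finite (D.SteinbergCover K ⧸ S.θG.ker) :=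
    Finite.of_equiv _ (QuotientGroup.quotientKerEquivOfSurjective S.θG S.θG_surj).symm.toEquiv
  exact Finite.of_equiv _ (Subgroup.groupEquivQuotientProdSubgroup (s := S.θG.ker)).symm

/-- **Lifting** when the kernel has no `p`-torsion. -/
theorem small_main {K : Type*} [Field K] [Finite K] {p : ℕ} [Fact p.Prime] [CharP K p] {D : ChevalleyDatum}
    (hD : D ∈ [chevG2, chevB2, chevD4, chevF4, chevE6, chevE7, chevE8]) (hK : D ∈ [chevB2, chevG2] → ∃ x : K, x ≠ 0 ∧ x ≠ 1)
    {G₁ E : Type*} [Group G₁] [Group E]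
    (π₁ : E →* G₁) (hπ : Function.Surjective π₁) (hc : π₁.ker ≤ Subgroup.center E) (htor : ∀ z ∈ π₁.ker, z ^ p = 1 → z = 1)
    (σ : D.SteinbergCover K →* G₁) :
    ∃! τ : D.SteinbergCover K →* E, π₁.comp τ = σ := by
  classical
  obtain ⟨T, wit, bw, hG, hW, hε, hb, hperf⟩ := exists_small hD hK
  have hfin := cover_finite (K := K) hG hW hε
  let S : Sys hG K (D.SteinbergCover K) := canSys hG (D.steinbergRelsAB K) subset_rfl (lift_relAB hG)
  have hΔ : commutator (D.SteinbergCover K) = ⊤ := hperf S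
  -- the pull-back
  let P : Subgroup (D.SteinbergCover K × E) :=
    MonoidHom.eqLocus (σ.comp (MonoidHom.fst _ _)) (π₁.comp (MonoidHom.snd _ _))
  have hP : ∀ x : P, σ x.1.1 = π₁ x.1.2 := fun x => x.2
  let q : P →* D.SteinbergCover K := (MonoidHom.fst _ _).comp P.subtype
  have hex : ∀ g, ∃ x : P, q x = g := by
    intro g
    obtain ⟨e, he⟩ := hπ (σ g)
    exact ⟨⟨(g, e), he.symm⟩, rfl⟩
  have hqs : Function.Surjective q := hex
  have hcp : q.ker ≤ Subgroup.center P := by
    intro z hz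
    have hz' : z.1.1 = 1 := hz
    have h4 : z.1.2 ∈ π₁.ker := by
      rw [MonoidHom.mem_ker, ← hP z, hz', map_one]
    rw [Subgroup.mem_center_iff]
    intro w
    apply Subtype.ext
    apply Prod.ext
    · show w.1.1 * z.1.1 = z.1.1 * w.1.1
      rw [hz', mul_one, one_mul]
    · exact Subgroup.mem_center_iff.1 (hc h4) w.1.2
  -- the commutator subgroup is finite
  choose f hf using hex
  haveI : Finite (commutatorSet P) := by
    refine Finite.of_surjective (fun g : D.SteinbergCover K × D.SteinbergCover K =>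
      (⟨⁅f g.1, f g.2⁆, ⟨f g.1, f g.2, rfl⟩⟩ : commutatorSet P)) ?_
    rintro ⟨_, a, b, rfl⟩
    refine ⟨(q a, q b), Subtype.ext ?_⟩
    exact cm_congr_gen hcp (hf _) (hf _)
  let Q : Subgroup P := commutator P
  haveI : Finite Q := inferInstance
  let π : Q →* D.SteinbergCover K := q.comp Q.subtype
  have hπ' : Function.Surjective π := by
    have h1 : (commutator P).map q = commutator (D.SteinbergCover K) := by
      rw [commutator_def, commutator_def, Subgroup.map_commutator, Subgroup.map_top_of_surjective q hqs]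
    intro g
    have h2 : g ∈ (commutator P).map q := by
      rw [h1, hΔ]
      exact Subgroup.mem_top g
    obtain ⟨x, hx, rfl⟩ := h2
    exact ⟨⟨x, hx⟩, rfl⟩
  have hcπ : π.ker ≤ Subgroup.center Q := by
    intro z hz
    rw [Subgroup.mem_center_iff]
    intro w
    apply Subtype.ext
    exact Subgroup.mem_center_iff.1 (hcp hz) w.1
  have htq : ∀ z ∈ π.ker, z ^ p = 1 → z = 1 := by
    intro z hz h
    have hz' : z.1.1.1 = 1 := hz
    have h4 : z.1.1.2 ∈ π₁.ker := by
      rw [MonoidHom.mem_ker, ← hP z.1, hz', map_one]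
    have h5 : z.1.1.2 ^ p = 1 := by
      have := congrArg (fun y : Q => y.1.1.2) h
      simpa using this
    have h6 := htor _ h4 h5
    apply Subtype.ext
    apply Subtype.ext
    exact Prod.ext hz' h6
  obtain ⟨Y, pY, hadd, hcomm⟩ := exists_Y_p (S := S) hW hb hπ' hcπ htq
  obtain ⟨s, hs⟩ := hom_of_rel (fun r s hr hs t u => commWord_range hG hr hs t u) Y hadd hcomm
  have hs1 : π.comp s = MonoidHom.id _ := by
    apply PresentedGroup.ext
    intro g
    simp only [MonoidHom.comp_apply, MonoidHom.id_apply]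
    rw [hs, pY _ g.1.2, ← canSys_y_of hG g]
  have hs' : ∀ g, (s g).1.1.1 = g := fun g => congrArg (fun φ : D.SteinbergCover K →* D.SteinbergCover K => φ g) hs1
  refine ⟨(MonoidHom.snd _ _).comp (P.subtype.comp (Q.subtype.comp s)), ?_, ?_⟩
  · refine MonoidHom.ext fun g => ?_
    show π₁ (s g).1.1.2 = σ g
    rw [← hP, hs']
  · intro τ' hτ'
    have h5 : ∀ g, π₁ (τ' g) = π₁ (s g).1.1.2 := fun g => by
      rw [← hP, hs']
      exact congrArg (fun φ : D.SteinbergCover K →* G₁ => φ g) hτ'
    have h6 : commutator (D.SteinbergCover K) ≤ MonoidHom.eqLocus τ' ((MonoidHom.snd _ _).comp (P.subtype.comp (Q.subtype.comp s))) := by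
      rw [commutator_def, Subgroup.commutator_le]
      intro a _ b _
      show τ' ⁅a, b⁆ = ((MonoidHom.snd _ _).comp (P.subtype.comp (Q.subtype.comp s))) ⁅a, b⁆
      rw [map_commutatorElement, map_commutatorElement]
      exact cm_congr_gen hc (h5 _) (h5 _)
    refine MonoidHom.ext fun g => ?_
    have h7 : g ∈ commutator (D.SteinbergCover K) := by
      rw [hΔ]
      exact Subgroup.mem_top g
    exact h6 h7

end Cfsg.Agent.Lib.St
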